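import Mathlib
import Cfsg.Agent.Lib.Helper3.Config
import Cfsg.Agent.Lib.Helper11.LeechT2
import Cfsg.Agent.Lib.Helper11.LeechCross

set_option autoImplicit false
open scoped Pointwise
open Cfsg Cfsg.Agent.Lib.Helper11

/-! The tetrad move in the automorphism group of the Leech lattice, and the counting of the
coordinates of a vector by absolute value. -/

namespace Cfsg.Agent.Lib.Helper3.Lee

/-- sign changes on the four points of the standard tetrad. -/
theorem sign4 (b0 b1 b2 b3 : Bool) : ∃ c ∈ CS, (pt 0 ∈ c ↔ b0 = true) ∧ (pt 1 ∈ c ↔ b1 = true) ∧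
    (pt 2 ∈ c ↔ b2 = true) ∧ (pt 3 ∈ c ↔ b3 = true) := by
  have key : ∀ b0 b1 b2 b3 : Bool,
      enc (b0.toNat + 2 * b1.toNat + 4 * b2.toNat + 8 * b3.toNat) < 2 ^ 24 ∧
      InC (enc (b0.toNat + 2 * b1.toNat + 4 * b2.toNat + 8 * b3.toNat)) ∧
      (enc (b0.toNat + 2 * b1.toNat + 4 * b2.toNat + 8 * b3.toNat)).testBit 0 = b0 ∧
      (enc (b0.toNat + 2 * b1.toNat + 4 * b2.toNat + 8 * b3.toNat)).testBit 1 = b1 ∧
      (enc (b0.toNat + 2 * b1.toNat + 4 * b2.toNat + 8 * b3.toNat)).testBit 2 = b2 ∧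
      (enc (b0.toNat + 2 * b1.toNat + 4 * b2.toNat + 8 * b3.toNat)).testBit 3 = b3 := by
    decide +kernel
  obtain ⟨hlt, hC, t0, t1, t2, t3⟩ := key b0 b1 b2 b3
  refine ⟨unmask _, (mem_supports_iff _).2 (by rw [mask_unmask hlt]; exact hC), ?_, ?_, ?_, ?_⟩
  · rw [mem_unmask, idx_pt (by norm_num), t0]
  · rw [mem_unmask, idx_pt (by norm_num), t1]
  · rw [mem_unmask, idx_pt (by norm_num), t2]
  · rw [mem_unmask, idx_pt (by norm_num), t3]

theorem tsum_zero (x : GolayPt → ℤ) : tsum x 0 = x (pt 0) + x (pt 1) + x (pt 2) + x (pt 3) := by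
  have hF : (Finset.univ.filter fun i => tetOf i = 0) = {pt 0, pt 1, pt 2, pt 3} := by decide
  unfold Helper11.tsum
  rw [← Finset.sum_filter, hF, Finset.sum_insert (by decide), Finset.sum_insert (by decide),
    Finset.sum_insert (by decide), Finset.sum_singleton]
  ring

theorem signCh_apply (c : Finset GolayPt) (x : GolayPt → ℤ) (i : GolayPt) :
    signCh c x i = if i ∈ c then -x i else x i := rfl

/-- choice of a sign. -/
theorem sign_choice {c : Finset GolayPt} {x : GolayPt → ℤ} {p : GolayPt} {a z : ℤ} {b : Bool}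
    (hz : x p = z) (ha : a = z ∨ a = -z) (hb : b = decide (a ≠ z)) (hc : p ∈ c ↔ b = true) :
    signCh c x p = a := by
  rw [signCh_apply, hz]
  by_cases h : a = z
  · have : p ∉ c := by
      rw [hc, hb]; simp [h]
    rw [if_neg this, h]
  · have : p ∈ c := by
      rw [hc, hb]; simp [h]
    rw [if_pos this]
    rcases ha with h' | h'
    · exact absurd h' h
    · exact h'.symm

/-- the tetrad move. -/
theorem tet_move {x : GolayPt → ℤ} (hx : x ∈ leechLattice) {i0 i1 i2 i3 : GolayPt}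
    (hnd : [i0, i1, i2, i3].Nodup) {a0 a1 a2 a3 : ℤ} (h0 : a0 = x i0 ∨ a0 = -x i0)
    (h1 : a1 = x i1 ∨ a1 = -x i1) (h2 : a2 = x i2 ∨ a2 = -x i2) (h3 : a3 = x i3 ∨ a3 = -x i3) :
    ∃ y, Rel x y ∧ 2 * y (pt 0) = a1 + a2 + a3 - a0 ∧ 2 * y (pt 1) = a0 + a2 + a3 - a1 ∧
      2 * y (pt 2) = a0 + a1 + a3 - a2 ∧ 2 * y (pt 3) = a0 + a1 + a2 - a3 := by
  obtain ⟨u, hu, hmap, -⟩ := exists_map_list Finset.univ (by decide) [i0, i1, i2, i3] hnd
    (by simp) (by simp)
  have m0 : u i0 = pt 0 := hmap 0 (by simp)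
  have m1 : u i1 = pt 1 := hmap 1 (by simp)
  have m2 : u i2 = pt 2 := hmap 2 (by simp)
  have m3 : u i3 = pt 3 := hmap 3 (by simp)
  have r1 := rel_perm hx hu
  have e0 : permCh u x (pt 0) = x i0 := by
    show x (u.symm (pt 0)) = _
    rw [← m0, Equiv.symm_apply_apply]
  have e1 : permCh u x (pt 1) = x i1 := by
    show x (u.symm (pt 1)) = _
    rw [← m1, Equiv.symm_apply_apply]
  have e2 : permCh u x (pt 2) = x i2 := by
    show x (u.symm (pt 2)) = _
    rw [← m2, Equiv.symm_apply_apply]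
  have e3 : permCh u x (pt 3) = x i3 := by
    show x (u.symm (pt 3)) = _
    rw [← m3, Equiv.symm_apply_apply]
  obtain ⟨c, hc, c0, c1, c2, c3⟩ := sign4 (decide (a0 ≠ x i0)) (decide (a1 ≠ x i1))
    (decide (a2 ≠ x i2)) (decide (a3 ≠ x i3))
  have r2 := rel_sign r1.2.1 hc
  have s0 := sign_choice e0 h0 rfl c0
  have s1 := sign_choice e1 h1 rfl c1
  have s2 := sign_choice e2 h2 rfl c2
  have s3 := sign_choice e3 h3 rfl c3
  have r3 := rel_xi r2.2.1
  have hev := tsum_even r2.2.1 (k := 0) (by norm_num)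
  rw [tsum_zero, s0, s1, s2, s3] at hev
  refine ⟨_, (r1.trans r2).trans r3, ?_, ?_, ?_, ?_⟩
  · have : xi (signCh c (permCh u x)) (pt 0) = -1 * (a0 - (a0 + a1 + a2 + a3) / 2) := by
      show sg (tetOf (pt 0)) * (_ - tsum _ (tetOf (pt 0)) / 2) = _
      rw [show tetOf (pt 0) = 0 by decide, tsum_zero, s0, s1, s2, s3]
      rfl
    rw [this]; omega
  · have : xi (signCh c (permCh u x)) (pt 1) = -1 * (a1 - (a0 + a1 + a2 + a3) / 2) := by
      show sg (tetOf (pt 1)) * (_ - tsum _ (tetOf (pt 1)) / 2) = _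
      rw [show tetOf (pt 1) = 0 by decide, tsum_zero, s0, s1, s2, s3]
      rfl
    rw [this]; omega
  · have : xi (signCh c (permCh u x)) (pt 2) = -1 * (a2 - (a0 + a1 + a2 + a3) / 2) := by
      show sg (tetOf (pt 2)) * (_ - tsum _ (tetOf (pt 2)) / 2) = _
      rw [show tetOf (pt 2) = 0 by decide, tsum_zero, s0, s1, s2, s3]
      rfl
    rw [this]; omega
  · have : xi (signCh c (permCh u x)) (pt 3) = -1 * (a3 - (a0 + a1 + a2 + a3) / 2) := by
      show sg (tetOf (pt 3)) * (_ - tsum _ (tetOf (pt 3)) / 2) = _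
      rw [show tetOf (pt 3) = 0 by decide, tsum_zero, s0, s1, s2, s3]
      rfl
    rw [this]; omega

/-- the tetrad move, producing a large coordinate. -/
theorem big_move {x : GolayPt → ℤ} (hx : x ∈ leechLattice) {i0 i1 i2 i3 : GolayPt}
    (hnd : [i0, i1, i2, i3].Nodup) :
    ∃ y, Rel x y ∧ 2 * (y (pt 0)).natAbs =
      (x i0).natAbs + (x i1).natAbs + (x i2).natAbs + (x i3).natAbs := by
  obtain ⟨y, hy, e, -⟩ := tet_move hx hnd (a0 := -|x i0|) (a1 := |x i1|) (a2 := |x i2|)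
    (a3 := |x i3|) (by rcases abs_choice (x i0) with h | h <;> rw [h] <;> simp)
    (by rcases abs_choice (x i1) with h | h <;> rw [h] <;> simp)
    (by rcases abs_choice (x i2) with h | h <;> rw [h] <;> simp)
    (by rcases abs_choice (x i3) with h | h <;> rw [h] <;> simp)
  refine ⟨y, hy, ?_⟩
  have e0 := Int.natCast_natAbs (x i0)
  have e1 := Int.natCast_natAbs (x i1)
  have e2 := Int.natCast_natAbs (x i2)
  have e3 := Int.natCast_natAbs (x i3)
  have p0 := abs_nonneg (x i0)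
  have p1 := abs_nonneg (x i1)
  have p2 := abs_nonneg (x i2)
  have p3 := abs_nonneg (x i3)
  generalize |x i0| = A0 at *
  generalize |x i1| = A1 at *
  generalize |x i2| = A2 at *
  generalize |x i3| = A3 at *
  omega

/-- the number of coordinates of a given absolute value. -/
def cN (x : GolayPt → ℤ) (k : ℕ) : ℕ := (Finset.univ.filter fun i => (x i).natAbs = k).card

theorem cN_sum (x : GolayPt → ℤ) (h : ∀ i, (x i).natAbs ≤ 8) :
    cN x 0 + cN x 1 + cN x 2 + cN x 3 + cN x 4 + cN x 5 + cN x 6 + cN x 7 + cN x 8 = 24 := by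
  have h1 := Finset.card_eq_sum_card_fiberwise (f := fun i => (x i).natAbs)
    (s := (Finset.univ : Finset GolayPt)) (t := Finset.range 9)
    (fun i _ => Finset.mem_coe.2 (Finset.mem_range.2 (Nat.lt_succ_of_le (h i))))
  have h2 : (Finset.univ : Finset GolayPt).card = 24 := rfl
  rw [h2] at h1
  simp only [Finset.sum_range_succ, Finset.sum_range_zero, zero_add] at h1
  exact h1.symm

theorem cN_sq (x : GolayPt → ℤ) (h : ∀ i, (x i).natAbs ≤ 8) :
    ((cN x 1 + 4 * cN x 2 + 9 * cN x 3 + 16 * cN x 4 + 25 * cN x 5 + 36 * cN x 6 + 49 * cN x 7 +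
      64 * cN x 8 : ℕ) : ℤ) = sqNorm x := by
  have h1 := Finset.sum_fiberwise_of_maps_to (g := fun i => (x i).natAbs)
    (s := (Finset.univ : Finset GolayPt)) (t := Finset.range 9)
    (fun i _ => Finset.mem_range.2 (Nat.lt_succ_of_le (h i))) (fun i => x i ^ 2)
  have h2 : ∀ k : ℕ, ∑ i ∈ Finset.univ.filter (fun i => (x i).natAbs = k), x i ^ 2 =
      (k : ℤ) ^ 2 * (cN x k : ℤ) := by
    intro k
    rw [Finset.sum_congr rfl (g := fun _ => (k : ℤ) ^ 2), Finset.sum_const, cN, nsmul_eq_mul,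
      mul_comm]
    intro i hi
    rw [← (Finset.mem_filter.1 hi).2, Int.natCast_natAbs, sq_abs]
  unfold sqNorm
  rw [← h1]
  simp only [h2, Finset.sum_range_succ, Finset.sum_range_zero]
  push_cast
  ring

theorem natAbs_le8 {y : GolayPt → ℤ} (h : sqNorm y ≤ 64) (j : GolayPt) : (y j).natAbs ≤ 8 := by
  have h1 := sq_le_sqNorm y j
  have h2 : ((y j).natAbs : ℤ) ^ 2 ≤ 64 := by
    rw [Int.natCast_natAbs, sq_abs]; omega
  by_contra hc
  push Not at hc
  have h3 : (9 : ℤ) ≤ ((y j).natAbs : ℤ) := by exact_mod_cast hc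
  nlinarith

theorem cN_pos {x : GolayPt → ℤ} {j : GolayPt} {k : ℕ} (h : (x j).natAbs = k) : 1 ≤ cN x k :=
  Finset.card_pos.2 ⟨j, Finset.mem_filter.2 ⟨Finset.mem_univ _, h⟩⟩

theorem exists_of_cN {x : GolayPt → ℤ} {k : ℕ} (h : 1 ≤ cN x k) : ∃ j, (x j).natAbs = k := by
  obtain ⟨j, hj⟩ := Finset.card_pos.1 h
  exact ⟨j, (Finset.mem_filter.1 hj).2⟩

theorem cN_even {x : GolayPt → ℤ} (h : ∀ i, x i % 2 = 0) :
    cN x 1 = 0 ∧ cN x 3 = 0 ∧ cN x 5 = 0 ∧ cN x 7 = 0 := by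
  refine ⟨?_, ?_, ?_, ?_⟩ <;>
  · rw [cN, Finset.card_eq_zero, Finset.filter_eq_empty_iff]
    intro i _ hi
    have := h i
    omega

theorem cN_odd {x : GolayPt → ℤ} (h : ∀ i, x i % 2 = 1) :
    cN x 0 = 0 ∧ cN x 2 = 0 ∧ cN x 4 = 0 ∧ cN x 6 = 0 ∧ cN x 8 = 0 := by
  refine ⟨?_, ?_, ?_, ?_, ?_⟩ <;>
  · rw [cN, Finset.card_eq_zero, Finset.filter_eq_empty_iff]
    intro i _ hi
    have := h i
    omega

theorem pick3 (S : Finset GolayPt) (h : 3 ≤ S.card) :
    ∃ p q r, p ∈ S ∧ q ∈ S ∧ r ∈ S ∧ p ≠ q ∧ p ≠ r ∧ q ≠ r := by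
  obtain ⟨t, hts, ht⟩ := Finset.exists_subset_card_eq h
  obtain ⟨p, q, r, hpq, hpr, hqr, rfl⟩ := Finset.card_eq_three.1 ht
  exact ⟨p, q, r, hts (by simp), hts (by simp), hts (by simp), hpq, hpr, hqr⟩

theorem pick2 (S : Finset GolayPt) (h : 2 ≤ S.card) : ∃ p q, p ∈ S ∧ q ∈ S ∧ p ≠ q := by
  obtain ⟨t, hts, ht⟩ := Finset.exists_subset_card_eq h
  obtain ⟨p, q, hpq, rfl⟩ := Finset.card_eq_two.1 ht
  exact ⟨p, q, hts (by simp), hts (by simp), hpq⟩

/-- the nonzero coordinates other than `j`. -/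
theorem card_nonzero_erase (x : GolayPt → ℤ) (j : GolayPt) (hj : x j ≠ 0) :
    ((Finset.univ.filter fun i => (x i).natAbs ≠ 0).erase j).card + 1 + cN x 0 = 24 := by
  have h1 := Finset.card_filter_add_card_filter_not (s := (Finset.univ : Finset GolayPt))
    (fun i => (x i).natAbs = 0)
  have h2 : (Finset.univ : Finset GolayPt).card = 24 := rfl
  have h3 : j ∈ Finset.univ.filter fun i => (x i).natAbs ≠ 0 := by
    simp [hj]
  have h4 := Finset.card_erase_of_mem h3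
  have h5 := Finset.card_pos.2 ⟨j, h3⟩
  unfold cN
  have h6 : (Finset.univ.filter fun i => ¬ (x i).natAbs = 0) =
      Finset.univ.filter fun i => (x i).natAbs ≠ 0 := rfl
  rw [h6] at h1
  omega

end Cfsg.Agent.Lib.Helper3.Lee
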