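import Mathlib
import Cfsg.Agent.Lib.Helper3.LeechMove

set_option autoImplicit false
open scoped Pointwise
open Cfsg Cfsg.Agent.Lib.Helper11

/-! The automorphism group of the Leech lattice is transitive on the vectors of norm 64. -/

namespace Cfsg.Agent.Lib.Helper3.Lee

theorem ar6 {n2 n4 n6 n8 : ℕ} (h2 : 4*n2+16*n4+36*n6+64*n8 = 64) (h6 : 1 ≤ n6) : 3 ≤ n2 := by
  have a : n6 ≤ 1 := by omega
  have b : n8 = 0 := by omega
  have c : n4 ≤ 1 := by omega
  interval_cases n4 <;> omega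
theorem ar44 {n2 n4 n6 n8 : ℕ} (h2 : 4*n2+16*n4+36*n6+64*n8 = 64) (h4 : 3 ≤ n4) (h : ¬ 4 ≤ n4) : 1 ≤ n2 := by
  omega
theorem ar5 {n1 n3 n5 n7 : ℕ} (h1 : n1+n3+n5+n7 = 24) (h2 : n1+9*n3+25*n5+49*n7 = 64) (h : 1 ≤ n5) : 2 ≤ n3 ∧ 1 ≤ n1 := by
  have a : n7 = 0 := by omega
  have b : n5 ≤ 2 := by omega
  interval_cases n5 <;> omega
theorem ar3 {n1 n3 n5 n7 : ℕ} (h1 : n1+n3+n5+n7 = 24) (h2 : n1+9*n3+25*n5+49*n7 = 64) : 2 ≤ n3 ∧ 2 ≤ n1 := by
  have a : n7 ≤ 1 := by omega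
  have b : n5 ≤ 2 := by omega
  interval_cases n7 <;> interval_cases n5 <;> omega
theorem ar4 {n0 n2 n4 n6 n8 : ℕ} (h1 : n0+n2+n4+n6+n8 = 24) (h2 : 4*n2+16*n4+36*n6+64*n8 = 64) (h : 1 ≤ n4 ∨ 1 ≤ n2) : n0 ≤ 20 := by
  have a : n8 ≤ 1 := by omega
  have b : n6 ≤ 1 := by omega
  have c : n4 ≤ 4 := by omega
  interval_cases n8 <;> interval_cases n6 <;> interval_cases n4 <;> omega
theorem ar7 {n1 n3 n5 n7 : ℕ} (h1 : n1+n3+n5+n7 = 24) (h2 : n1+9*n3+25*n5+49*n7 = 64) (h : 1 ≤ n7) : False := by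
  omega

theorem rel_vE (j : GolayPt) : Rel (vE j) (vE none) := by
  obtain ⟨σ, hσ, h⟩ := exists_M24_one j none
  have := rel_perm (vE_mem j) hσ
  rwa [permCh_vE, h] at this

theorem rel_neg_vE (j : GolayPt) : Rel (-vE j) (vE none) := by
  have h1 := rel_sign (x := -vE j) (neg_mem (vE_mem j)) univ_mem_CS
  have : signCh Finset.univ (-vE j) = vE j := by
    funext i
    simp [signCh_apply]
  rw [this] at h1
  exact h1.trans (rel_vE j)

/-- the numbers of coordinates of each absolute value. -/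
theorem shapeN {x : GolayPt → ℤ} (hx : x ∈ leechLattice) (n : ℕ) (hn : sqNorm x = (n : ℤ))
    (hle : n ≤ 64) :
    ((∀ i, x i % 2 = 0) ∧ cN x 0 + cN x 2 + cN x 4 + cN x 6 + cN x 8 = 24 ∧
      4 * cN x 2 + 16 * cN x 4 + 36 * cN x 6 + 64 * cN x 8 = n) ∨
    ((∀ i, x i % 2 = 1) ∧ cN x 1 + cN x 3 + cN x 5 + cN x 7 = 24 ∧
      cN x 1 + 9 * cN x 3 + 25 * cN x 5 + 49 * cN x 7 = n) := by
  have hb : ∀ i, (x i).natAbs ≤ 8 := natAbs_le8 (by rw [hn]; exact_mod_cast hle)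
  have h1 := cN_sum x hb
  have h2 := cN_sq x hb
  rw [hn] at h2
  have h2' := Int.natCast_inj.1 h2
  rcases mem_leech_cases hx with ⟨h, -, -⟩ | ⟨h, -, -⟩
  · left
    obtain ⟨a, b, c, d⟩ := cN_even h
    refine ⟨h, by omega, by omega⟩
  · right
    obtain ⟨a, b, c, d, e⟩ := cN_odd h
    refine ⟨h, by omega, by omega⟩

theorem P8 {x : GolayPt → ℤ} (hn : sqNorm x = 64) {j : GolayPt}
    (hj : (x j).natAbs = 8) : Rel x (vE none) := by
  have h0 : ∀ i, i ≠ j → x i = 0 := by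
    intro i hi
    have h1 := sum_sq_le_sqNorm x {i, j}
    rw [Finset.sum_pair hi, hn] at h1
    have h2 : x j ^ 2 = 64 := by
      have : ((x j).natAbs : ℤ) ^ 2 = 64 := by rw [hj]; norm_num
      rwa [Int.natCast_natAbs, sq_abs] at this
    have h3 : x i ^ 2 ≤ 0 := by linarith
    exact pow_eq_zero_iff (two_ne_zero) |>.1 (le_antisymm h3 (sq_nonneg _))
  rcases eq_vE_of_support h0 hn with rfl | rfl
  · exact rel_vE j
  · exact rel_neg_vE j

theorem P7 {x : GolayPt → ℤ} (hx : x ∈ leechLattice) (hn : sqNorm x = 64) {j : GolayPt}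
    (hj : (x j).natAbs = 7) : Rel x (vE none) := by
  exfalso
  have h7 := cN_pos hj
  rcases shapeN hx 64 hn le_rfl with ⟨h, h1, h2⟩ | ⟨h, h1, h2⟩
  · have := h j
    omega
  · exact ar7 h1 h2 h7

theorem mem_F {x : GolayPt → ℤ} {k : ℕ} {i : GolayPt} :
    i ∈ (Finset.univ.filter fun i => (x i).natAbs = k) ↔ (x i).natAbs = k := by simp

theorem ne_of_val {x : GolayPt → ℤ} {i j : GolayPt} (h : (x i).natAbs ≠ (x j).natAbs) : i ≠ j := by
  rintro rfl
  exact h rfl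

theorem P6 {x : GolayPt → ℤ} (hx : x ∈ leechLattice) (hn : sqNorm x = 64) {j : GolayPt}
    (hj : (x j).natAbs = 6) : Rel x (vE none) := by
  have h6 := cN_pos hj
  rcases shapeN hx 64 hn le_rfl with ⟨h, h1, h2⟩ | ⟨h, h1, h2⟩
  swap
  · have := h j
    omega
  have hN2 : 3 ≤ cN x 2 := ar6 h2 h6
  obtain ⟨p, q, r, hp, hq, hr, hpq, hpr, hqr⟩ := pick3 _ hN2
  rw [mem_F] at hp hq hr
  have hnd : [j, p, q, r].Nodup := by
    have a1 : j ≠ p := ne_of_val (x := x) (by omega)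
    have a2 : j ≠ q := ne_of_val (x := x) (by omega)
    have a3 : j ≠ r := ne_of_val (x := x) (by omega)
    simp [a1, a2, a3, hpq, hpr, hqr]
  obtain ⟨y, hy, -, y1, y2, y3⟩ := tet_move hx hnd (a0 := 6) (a1 := 2) (a2 := 2) (a3 := 2)
    (by omega) (by omega) (by omega) (by omega)
  have hyn : sqNorm y = 64 := by rw [hy.sqNorm_eq, hn]
  have hyL := hy.2.1
  refine hy.trans ?_
  have z1 : (y (pt 1)).natAbs = 4 := by omega
  have z2 : (y (pt 2)).natAbs = 4 := by omega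
  have z3 : (y (pt 3)).natAbs = 4 := by omega
  have hsub : ({pt 1, pt 2, pt 3} : Finset GolayPt) ⊆
      Finset.univ.filter fun i => (y i).natAbs = 4 := by
    intro i hi
    simp only [Finset.mem_insert, Finset.mem_singleton] at hi
    rw [mem_F]
    rcases hi with rfl | rfl | rfl <;> assumption
  have hc4 : 3 ≤ cN y 4 := by
    have := Finset.card_le_card hsub
    rwa [show ({pt 1, pt 2, pt 3} : Finset GolayPt).card = 3 by decide] at this
  rcases shapeN hyL 64 hyn le_rfl with ⟨g, g1, g2⟩ | ⟨g, g1, g2⟩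
  swap
  · have := g (pt 1)
    omega
  -- a fourth nonzero coordinate
  have hex : ∃ e, e ≠ pt 1 ∧ e ≠ pt 2 ∧ e ≠ pt 3 ∧ ((y e).natAbs = 2 ∨ (y e).natAbs = 4) := by
    by_cases h44 : 4 ≤ cN y 4
    · have hlt : ({pt 1, pt 2, pt 3} : Finset GolayPt).card <
          (Finset.univ.filter fun i => (y i).natAbs = 4).card := by
        rw [show ({pt 1, pt 2, pt 3} : Finset GolayPt).card = 3 by decide]
        exact h44
      obtain ⟨e, he, hne⟩ := Finset.exists_mem_notMem_of_card_lt_card hlt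
      rw [mem_F] at he
      simp only [Finset.mem_insert, Finset.mem_singleton, not_or] at hne
      exact ⟨e, hne.1, hne.2.1, hne.2.2, Or.inr he⟩
    · have : 1 ≤ cN y 2 := ar44 g2 hc4 h44
      obtain ⟨e, he⟩ := exists_of_cN this
      exact ⟨e, ne_of_val (x := y) (by omega), ne_of_val (x := y) (by omega),
        ne_of_val (x := y) (by omega), Or.inl he⟩
  obtain ⟨e, e1, e2, e3, he⟩ := hex
  have hnd2 : [pt 1, pt 2, pt 3, e].Nodup := by
    have b1 : pt 1 ≠ pt 2 := by decide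
    have b2 : pt 1 ≠ pt 3 := by decide
    have b3 : pt 2 ≠ pt 3 := by decide
    simp [b1, b2, b3, e1.symm, e2.symm, e3.symm]
  obtain ⟨w, hw, hw0⟩ := big_move hyL hnd2
  have hwn : sqNorm w = 64 := by rw [hw.sqNorm_eq, hyn]
  refine hw.trans ?_
  rcases he with he | he
  · exact P7 hw.2.1 hwn (j := pt 0) (by omega)
  · exact P8 hwn (j := pt 0) (by omega)

theorem P5 {x : GolayPt → ℤ} (hx : x ∈ leechLattice) (hn : sqNorm x = 64) {j : GolayPt}
    (hj : (x j).natAbs = 5) : Rel x (vE none) := by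
  have h5 := cN_pos hj
  rcases shapeN hx 64 hn le_rfl with ⟨h, h1, h2⟩ | ⟨h, h1, h2⟩
  · have := h j
    omega
  obtain ⟨hN3, hN1⟩ := ar5 h1 h2 h5
  obtain ⟨p, q, hp, hq, hpq⟩ := pick2 _ hN3
  obtain ⟨r, hr⟩ := exists_of_cN hN1
  rw [mem_F] at hp hq
  have hnd : [j, p, q, r].Nodup := by
    have a1 : j ≠ p := ne_of_val (x := x) (by omega)
    have a2 : j ≠ q := ne_of_val (x := x) (by omega)
    have a3 : j ≠ r := ne_of_val (x := x) (by omega)
    have a4 : p ≠ r := ne_of_val (x := x) (by omega)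
    have a5 : q ≠ r := ne_of_val (x := x) (by omega)
    simp [a1, a2, a3, a4, a5, hpq]
  obtain ⟨w, hw, hw0⟩ := big_move hx hnd
  have hwn : sqNorm w = 64 := by rw [hw.sqNorm_eq, hn]
  exact hw.trans (P6 hw.2.1 hwn (j := pt 0) (by omega))

/-- a vector with a large coordinate. -/
theorem P58 {x : GolayPt → ℤ} (hx : x ∈ leechLattice) (hn : sqNorm x = 64) {j : GolayPt}
    (hj : 5 ≤ (x j).natAbs) : Rel x (vE none) := by
  have h8 := natAbs_le8 (le_of_eq hn) j
  have : (x j).natAbs = 5 ∨ (x j).natAbs = 6 ∨ (x j).natAbs = 7 ∨ (x j).natAbs = 8 := by omega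
  rcases this with h | h | h | h
  · exact P5 hx hn h
  · exact P6 hx hn h
  · exact P7 hx hn h
  · exact P8 hn h

/-- even vectors with a nonzero coordinate of absolute value at most four. -/
theorem Peven {x : GolayPt → ℤ} (hx : x ∈ leechLattice) (hn : sqNorm x = 64) {j : GolayPt}
    (hj : (x j).natAbs = 4) : Rel x (vE none) := by
  have h4 := cN_pos hj
  rcases shapeN hx 64 hn le_rfl with ⟨h, h1, h2⟩ | ⟨h, h1, h2⟩
  swap
  · have := h j
    omega
  have hcard := card_nonzero_erase x j (by omega)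
  have h20 := ar4 h1 h2 (Or.inl h4)
  have h3 : 3 ≤ ((Finset.univ.filter fun i => (x i).natAbs ≠ 0).erase j).card := by omega
  obtain ⟨p, q, r, hp, hq, hr, hpq, hpr, hqr⟩ := pick3 _ h3
  simp only [Finset.mem_erase, Finset.mem_filter, Finset.mem_univ, true_and] at hp hq hr
  have hnd : [j, p, q, r].Nodup := by
    simp [hp.1.symm, hq.1.symm, hr.1.symm, hpq, hpr, hqr]
  obtain ⟨w, hw, hw0⟩ := big_move hx hnd
  have hwn : sqNorm w = 64 := by rw [hw.sqNorm_eq, hn]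
  have ep := h p
  have eq := h q
  have er := h r
  exact hw.trans (P58 hw.2.1 hwn (j := pt 0) (by omega))

theorem P2 {x : GolayPt → ℤ} (hx : x ∈ leechLattice) (hn : sqNorm x = 64) {j : GolayPt}
    (hj : (x j).natAbs = 2) : Rel x (vE none) := by
  have h4 := cN_pos hj
  rcases shapeN hx 64 hn le_rfl with ⟨h, h1, h2⟩ | ⟨h, h1, h2⟩
  swap
  · have := h j
    omega
  have hcard := card_nonzero_erase x j (by omega)
  have h20 := ar4 h1 h2 (Or.inr h4)
  have h3 : 3 ≤ ((Finset.univ.filter fun i => (x i).natAbs ≠ 0).erase j).card := by omega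
  obtain ⟨p, q, r, hp, hq, hr, hpq, hpr, hqr⟩ := pick3 _ h3
  simp only [Finset.mem_erase, Finset.mem_filter, Finset.mem_univ, true_and] at hp hq hr
  have hnd : [j, p, q, r].Nodup := by
    simp [hp.1.symm, hq.1.symm, hr.1.symm, hpq, hpr, hqr]
  obtain ⟨w, hw, hw0⟩ := big_move hx hnd
  have hwn : sqNorm w = 64 := by rw [hw.sqNorm_eq, hn]
  have ep := h p
  have eq := h q
  have er := h r
  refine hw.trans ?_
  by_cases h5 : 5 ≤ (w (pt 0)).natAbs
  · exact P58 hw.2.1 hwn h5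
  · exact Peven hw.2.1 hwn (j := pt 0) (by omega)

theorem P3 {x : GolayPt → ℤ} (hx : x ∈ leechLattice) (hn : sqNorm x = 64) {j : GolayPt}
    (hj : (x j).natAbs = 3) : Rel x (vE none) := by
  have h5 := cN_pos hj
  rcases shapeN hx 64 hn le_rfl with ⟨h, h1, h2⟩ | ⟨h, h1, h2⟩
  · have := h j
    omega
  obtain ⟨hN3, hN1⟩ := ar3 h1 h2
  obtain ⟨p, q, hp, hq, hpq⟩ := pick2 _ hN3
  obtain ⟨r, s, hr, hs, hrs⟩ := pick2 _ hN1
  rw [mem_F] at hp hq hr hs
  have hnd : [p, q, r, s].Nodup := by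
    have a1 : p ≠ r := ne_of_val (x := x) (by omega)
    have a2 : p ≠ s := ne_of_val (x := x) (by omega)
    have a3 : q ≠ r := ne_of_val (x := x) (by omega)
    have a4 : q ≠ s := ne_of_val (x := x) (by omega)
    simp [a1, a2, a3, a4, hpq, hrs]
  obtain ⟨w, hw, hw0⟩ := big_move hx hnd
  have hwn : sqNorm w = 64 := by rw [hw.sqNorm_eq, hn]
  exact hw.trans (Peven hw.2.1 hwn (j := pt 0) (by omega))

/-- transitivity on the vectors of norm 64. -/
theorem rel64 {x : GolayPt → ℤ} (hx : x ∈ leechLattice) (hn : sqNorm x = 64) :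
    Rel x (vE none) := by
  rcases shapeN hx 64 hn le_rfl with ⟨h, h1, h2⟩ | ⟨h, h1, h2⟩
  · by_cases a8 : 1 ≤ cN x 8
    · obtain ⟨j, hj⟩ := exists_of_cN a8
      exact P8 hn hj
    by_cases a6 : 1 ≤ cN x 6
    · obtain ⟨j, hj⟩ := exists_of_cN a6
      exact P6 hx hn hj
    by_cases a4 : 1 ≤ cN x 4
    · obtain ⟨j, hj⟩ := exists_of_cN a4
      exact Peven hx hn hj
    · obtain ⟨j, hj⟩ := exists_of_cN (show 1 ≤ cN x 2 by omega)
      exact P2 hx hn hj
  · obtain ⟨j, hj⟩ := exists_of_cN (show 1 ≤ cN x 3 by have := (ar3 h1 h2).1; omega)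
    exact P3 hx hn hj

end Cfsg.Agent.Lib.Helper3.Lee
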