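import Mathlib
import Cfsg.Agent.Lib.Helper3.Leech64

set_option autoImplicit false
open scoped Pointwise
open Cfsg Cfsg.Agent.Lib.Helper11

/-! The automorphism group of the Leech lattice is transitive on the vectors of norm 48. -/

namespace Cfsg.Agent.Lib.Helper3.Lee

/-- the vector `(5, 1^23)`. -/
def v5 (p : GolayPt) : GolayPt → ℤ := fun i => if i = p then 5 else 1

theorem permCh_v5 (σ : Equiv.Perm GolayPt) (j : GolayPt) : permCh σ (v5 j) = v5 (σ j) := by
  funext i
  show v5 j (σ.symm i) = v5 (σ j) i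
  unfold v5
  by_cases h : i = σ j
  · simp [h]
  · have : σ.symm i ≠ j := fun h' => h (by rw [← h']; simp)
    simp [h, this]

theorem card_res2 {x : GolayPt → ℤ} (hb : ∀ i, (x i).natAbs ≤ 8) :
    (resSet x 2).card = cN x 2 + cN x 6 := by
  unfold cN
  rw [← Finset.card_union_of_disjoint]
  · congr 1
    ext i
    rw [mem_resSet, Finset.mem_union, mem_F, mem_F]
    have := hb i
    omega
  · rw [Finset.disjoint_left]
    intro i h1 h2
    rw [mem_F] at h1 h2
    omega

theorem shape48_even {x : GolayPt → ℤ} (hx : x ∈ leechLattice) (hn : sqNorm x = 48)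
    (h : ∀ i, x i % 2 = 0) :
    (cN x 0 = 12 ∧ cN x 2 = 12 ∧ cN x 4 = 0 ∧ cN x 6 = 0 ∧ cN x 8 = 0) ∨
    (cN x 0 = 15 ∧ cN x 2 = 8 ∧ cN x 4 = 1 ∧ cN x 6 = 0 ∧ cN x 8 = 0) := by
  have hb : ∀ i, (x i).natAbs ≤ 8 := natAbs_le8 (by rw [hn]; norm_num)
  rcases shapeN hx 48 hn (by norm_num) with ⟨-, h1, h2⟩ | ⟨h', -, -⟩
  swap
  · have := h none
    have := h' none
    omega
  rcases mem_leech_cases hx with ⟨-, hs, hc⟩ | ⟨h', -, -⟩
  swap
  · have := h none
    have := h' none
    omega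
  have hw := Cfsg.Agent.Lib.Helper3.code_weights _ hc
  rw [card_res2 hb] at hw
  have a8 : cN x 8 = 0 := by omega
  have a6 : cN x 6 ≤ 1 := by omega
  have a4 : cN x 4 ≤ 3 := by omega
  rcases hw with hw | hw | hw | hw | hw
  · exfalso
    have h4 : ∀ i, x i % 4 = 0 := by
      intro i
      have e2 : (x i).natAbs ≠ 2 := by
        intro e
        have := cN_pos e
        omega
      have e6 : (x i).natAbs ≠ 6 := by
        intro e
        have := cN_pos e
        omega
      have := h i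
      have := hb i
      omega
    choose q hq using fun i => four_sq (x i) (h4 i)
    have : sqNorm x = 32 * ∑ i, q i + 4 * ∑ i, x i := by
      unfold sqNorm
      rw [Finset.sum_congr rfl (fun i _ => hq i), Finset.sum_add_distrib, ← Finset.mul_sum,
        ← Finset.mul_sum]
    omega
  · right
    interval_cases h6 : cN x 6 <;> interval_cases h4 : cN x 4 <;> omega
  · left
    interval_cases h6 : cN x 6 <;> interval_cases h4 : cN x 4 <;> omega
  · exfalso
    omega
  · exfalso
    omega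

theorem shape48_odd {x : GolayPt → ℤ} (hx : x ∈ leechLattice) (hn : sqNorm x = 48)
    (h : ∀ i, x i % 2 = 1) :
    (cN x 1 = 21 ∧ cN x 3 = 3 ∧ cN x 5 = 0 ∧ cN x 7 = 0) ∨
    (cN x 1 = 23 ∧ cN x 3 = 0 ∧ cN x 5 = 1 ∧ cN x 7 = 0) := by
  rcases shapeN hx 48 hn (by norm_num) with ⟨h', -, -⟩ | ⟨-, h1, h2⟩
  · have := h none
    have := h' none
    omega
  have a7 : cN x 7 = 0 := by omega
  have a5 : cN x 5 ≤ 1 := by omega
  interval_cases h5 : cN x 5 <;> omega

theorem sum_v5sq (j : GolayPt) : ∑ i : GolayPt, (if i = j then (25 : ℤ) else 1) = 48 := by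
  revert j
  decide +kernel

theorem Q5 {x : GolayPt → ℤ} (hx : x ∈ leechLattice) (hn : sqNorm x = 48) {j : GolayPt}
    (hj : (x j).natAbs = 5) : Rel x (v5 none) := by
  rcases mem_leech_cases hx with ⟨h1, -, -⟩ | ⟨h1, -, h3⟩
  · have := h1 j; omega
  have hxy : Rel x (signCh (resSet x 3) x) := rel_sign hx h3
  set y := signCh (resSet x 3) x with hy
  have hy4 : ∀ i, y i % 4 = 1 := by
    intro i
    have := h1 i
    rw [hy]
    unfold signCh
    by_cases hi : i ∈ resSet x 3
    · rw [if_pos hi]; rw [mem_resSet] at hi; omega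
    · rw [if_neg hi]; rw [mem_resSet] at hi; omega
  have hyj : (y j).natAbs = 5 := by
    rw [hy]
    unfold signCh
    split_ifs <;> simp [hj]
  have hyn : sqNorm y = 48 := by rw [hxy.sqNorm_eq, hn]
  have hyj5 : y j = 5 := by
    have := hy4 j
    omega
  have hle : ∀ i, (if i = j then (25 : ℤ) else 1) ≤ y i ^ 2 := by
    intro i
    by_cases hi : i = j
    · rw [if_pos hi, hi, hyj5]; norm_num
    · rw [if_neg hi]
      have := hy4 i
      have : y i ≠ 0 := by omega
      have : 0 < y i ^ 2 := by positivity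
      omega
  have heq := eq_of_sum_eq hle (by
    rw [sum_v5sq]
    exact le_of_eq hyn)
  have hyv : y = v5 j := by
    funext i
    unfold v5
    by_cases hi : i = j
    · rw [if_pos hi, hi, hyj5]
    · rw [if_neg hi]
      have e := heq i
      rw [if_neg hi] at e
      have := hy4 i
      have e2 : y i = 1 ∨ y i = -1 := by
        have e3 : (y i - 1) * (y i + 1) = 0 := by linear_combination e
        rcases mul_eq_zero.1 e3 with e4 | e4
        · left; omega
        · right; omega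
      omega
  refine hxy.trans ?_
  rw [hyv]
  obtain ⟨σ, hσ, h⟩ := exists_M24_one j none
  have := rel_perm (hyv ▸ hxy.2.1) hσ
  rwa [permCh_v5, h] at this

theorem Q4 {x : GolayPt → ℤ} (hx : x ∈ leechLattice) (hn : sqNorm x = 48) {j : GolayPt}
    (hj : (x j).natAbs = 4) : Rel x (v5 none) := by
  have h4 := cN_pos hj
  have hev : ∀ i, x i % 2 = 0 := by
    rcases mem_leech_cases hx with ⟨h1, -, -⟩ | ⟨h1, -, -⟩
    · exact h1
    · have := h1 j; omega
  have hN2 : 3 ≤ cN x 2 := by
    rcases shape48_even hx hn hev with h | h <;> omega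
  obtain ⟨p, q, r, hp, hq, hr, hpq, hpr, hqr⟩ := pick3 _ hN2
  rw [mem_F] at hp hq hr
  have hnd : [j, p, q, r].Nodup := by
    have a1 : j ≠ p := ne_of_val (x := x) (by omega)
    have a2 : j ≠ q := ne_of_val (x := x) (by omega)
    have a3 : j ≠ r := ne_of_val (x := x) (by omega)
    simp [a1, a2, a3, hpq, hpr, hqr]
  obtain ⟨w, hw, hw0⟩ := big_move hx hnd
  have hwn : sqNorm w = 48 := by rw [hw.sqNorm_eq, hn]
  exact hw.trans (Q5 hw.2.1 hwn (j := pt 0) (by omega))

theorem Q2 {x : GolayPt → ℤ} (hx : x ∈ leechLattice) (hn : sqNorm x = 48) {j : GolayPt}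
    (hj : (x j).natAbs = 2) : Rel x (v5 none) := by
  have hev : ∀ i, x i % 2 = 0 := by
    rcases mem_leech_cases hx with ⟨h1, -, -⟩ | ⟨h1, -, -⟩
    · exact h1
    · have := h1 j; omega
  rcases shape48_even hx hn hev with h | h
  swap
  · obtain ⟨k, hk⟩ := exists_of_cN (show 1 ≤ cN x 4 by omega)
    exact Q4 hx hn hk
  have hcard : 3 ≤ ((Finset.univ.filter fun i => (x i).natAbs = 2).erase j).card := by
    rw [Finset.card_erase_of_mem (mem_F.2 hj)]
    have : (Finset.univ.filter fun i => (x i).natAbs = 2).card = 12 := h.2.1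
    omega
  obtain ⟨p, q, r, hp, hq, hr, hpq, hpr, hqr⟩ := pick3 _ hcard
  simp only [Finset.mem_erase, Finset.mem_filter, Finset.mem_univ, true_and] at hp hq hr
  have hnd : [j, p, q, r].Nodup := by
    simp [hp.1.symm, hq.1.symm, hr.1.symm, hpq, hpr, hqr]
  obtain ⟨w, hw, hw0⟩ := big_move hx hnd
  have hwn : sqNorm w = 48 := by rw [hw.sqNorm_eq, hn]
  exact hw.trans (Q4 hw.2.1 hwn (j := pt 0) (by omega))

theorem Q3 {x : GolayPt → ℤ} (hx : x ∈ leechLattice) (hn : sqNorm x = 48) {j : GolayPt}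
    (hj : (x j).natAbs = 3) : Rel x (v5 none) := by
  have h3 := cN_pos hj
  have hod : ∀ i, x i % 2 = 1 := by
    rcases mem_leech_cases hx with ⟨h1, -, -⟩ | ⟨h1, -, -⟩
    · have := h1 j; omega
    · exact h1
  have hN : 3 ≤ cN x 3 ∧ 1 ≤ cN x 1 := by
    rcases shape48_odd hx hn hod with h | h <;> omega
  obtain ⟨p, q, r, hp, hq, hr, hpq, hpr, hqr⟩ := pick3 _ hN.1
  obtain ⟨s, hs⟩ := exists_of_cN hN.2
  rw [mem_F] at hp hq hr
  have hnd : [p, q, r, s].Nodup := by
    have a1 : p ≠ s := ne_of_val (x := x) (by omega)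
    have a2 : q ≠ s := ne_of_val (x := x) (by omega)
    have a3 : r ≠ s := ne_of_val (x := x) (by omega)
    simp [a1, a2, a3, hpq, hpr, hqr]
  obtain ⟨w, hw, hw0⟩ := big_move hx hnd
  have hwn : sqNorm w = 48 := by rw [hw.sqNorm_eq, hn]
  exact hw.trans (Q5 hw.2.1 hwn (j := pt 0) (by omega))

/-- transitivity on the vectors of norm 48. -/
theorem rel48 {x : GolayPt → ℤ} (hx : x ∈ leechLattice) (hn : sqNorm x = 48) :
    Rel x (v5 none) := by
  rcases mem_leech_cases hx with ⟨h1, -, -⟩ | ⟨h1, -, -⟩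
  · obtain ⟨j, hj⟩ := exists_of_cN (show 1 ≤ cN x 2 by
      rcases shape48_even hx hn h1 with h | h <;> omega)
    exact Q2 hx hn hj
  · rcases shape48_odd hx hn h1 with h | h
    · obtain ⟨j, hj⟩ := exists_of_cN (show 1 ≤ cN x 3 by omega)
      exact Q3 hx hn hj
    · obtain ⟨j, hj⟩ := exists_of_cN (show 1 ≤ cN x 5 by omega)
      exact Q5 hx hn hj

end Cfsg.Agent.Lib.Helper3.Lee
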