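import Mathlib
import Cfsg.Agent.Lib.Helper3.Leech64
import Cfsg.Agent.S0396
import Cfsg.Agent.S0376

set_option autoImplicit false
open scoped Pointwise
open Cfsg Cfsg.Agent.Lib.Helper11

/-! The order of the automorphism group of the Leech lattice. -/

namespace Cfsg.Agent.Lib.Helper3.Lee

/-- a vector of norm 64 with a coordinate `±8` lies in the standard cross. -/
theorem std_of_eight {x : GolayPt → ℤ} (hn : sqNorm x = 64) {j : GolayPt}
    (hj : (x j).natAbs = 8) : x ∈ stdCross := by
  have h0 : ∀ i, i ≠ j → x i = 0 := by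
    intro i hi
    have h1 := sum_sq_le_sqNorm x {i, j}
    rw [Finset.sum_pair hi, hn] at h1
    have h2 : x j ^ 2 = 64 := by
      have : ((x j).natAbs : ℤ) ^ 2 = 64 := by rw [hj]; norm_num
      rwa [Int.natCast_natAbs, sq_abs] at this
    have h3 : x i ^ 2 ≤ 0 := by linarith
    exact pow_eq_zero_iff (two_ne_zero) |>.1 (le_antisymm h3 (sq_nonneg _))
  rw [mem_stdCross_iff]
  exact ⟨j, eq_vE_of_support h0 hn⟩

theorem arA {n0 n2 n4 n6 n8 : ℕ} (h1 : n0 + n2 + n4 + n6 + n8 = 24)
    (h2 : 4 * n2 + 16 * n4 + 36 * n6 + 64 * n8 = 64) (h : n0 ≤ 1) : False := by omega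

/-- the vectors of norm 64 congruent to a frame vector modulo twice the lattice. -/
theorem cross_vE {y z : GolayPt → ℤ} {i : GolayPt} (hy : y ∈ leechLattice) (hn : sqNorm y = 64)
    (hz : z ∈ leechLattice) (e : vE i - y = 2 • z) : y ∈ stdCross := by
  have hyj : ∀ j, y j = vE i j - 2 * z j := by
    intro j
    have := congrFun e j
    simp only [Pi.sub_apply, Pi.smul_apply, two_smul] at this
    omega
  have hev : ∀ j, y j % 2 = 0 := by
    intro j
    rw [hyj, vE_apply]
    split <;> omega
  rcases shapeN hy 64 hn le_rfl with ⟨-, h1, h2⟩ | ⟨h, -, -⟩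
  swap
  · have := h i
    have := hev i
    omega
  rcases mem_leech_cases hz with ⟨g, -, gC⟩ | ⟨g, -, -⟩
  · -- `z` even
    have h4 : ∀ j, y j % 4 = 0 := by
      intro j
      have := g j
      rw [hyj, vE_apply]
      split <;> omega
    have hN2 : cN y 2 = 0 := by
      rw [cN, Finset.card_eq_zero, Finset.filter_eq_empty_iff]
      intro j _ hj
      have := h4 j
      omega
    have hN6 : cN y 6 = 0 := by
      rw [cN, Finset.card_eq_zero, Finset.filter_eq_empty_iff]
      intro j _ hj
      have := h4 j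
      omega
    by_cases h8 : 1 ≤ cN y 8
    · obtain ⟨j, hj⟩ := exists_of_cN h8
      exact std_of_eight hn hj
    exfalso
    have hN4 : cN y 4 = 4 := by omega
    have hset : resSet z 2 = Finset.univ.filter fun j => (y j).natAbs = 4 := by
      ext j
      rw [mem_resSet, mem_F]
      have hb := natAbs_le8 (le_of_eq hn) j
      have h8' : (y j).natAbs ≠ 8 := fun h => h8 (cN_pos h)
      have a := h4 j
      have b := hyj j
      rw [vE_apply] at b
      constructor
      · intro hz2
        split at b <;> omega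
      · intro hy4
        have := g j
        split at b <;> omega
    have hw := code_weights _ gC
    rw [hset] at hw
    unfold cN at hN4
    omega
  · -- `z` odd
    exfalso
    apply arA h1 h2
    have hsub : (Finset.univ.filter fun j => (y j).natAbs = 0) ⊆ {i} := by
      intro j hj
      rw [mem_F] at hj
      rw [Finset.mem_singleton]
      by_contra hne
      have a := hyj j
      rw [vE_apply, if_neg hne] at a
      have := g j
      omega
    have := Finset.card_le_card hsub
    rwa [Finset.card_singleton] at this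

theorem neg_mem_stdCross {y : GolayPt → ℤ} (h : y ∈ stdCross) : -y ∈ stdCross := by
  rw [mem_stdCross_iff] at h ⊢
  obtain ⟨i, rfl | rfl⟩ := h
  · exact ⟨i, Or.inr rfl⟩
  · exact ⟨i, Or.inl (neg_neg _)⟩

/-- an automorphism fixing a frame vector preserves the standard cross. -/
theorem pres_of_fix {g : ↥Co0} {i : GolayPt} (h : g • lE i = lE i) : PresCross g := by
  have key : ∀ j, ((g • lE j : ↥leechLattice) : GolayPt → ℤ) ∈ stdCross := by
    intro j
    let t : ↥leechLattice := ⟨vTwo i j 4 (-4), vTwo_mem i j (by norm_num) (by norm_num)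
      (by norm_num)⟩
    have e1 : lE i = lE j + (t + t) := by
      apply Subtype.ext
      funext k
      show vE i k = vE j k + (vTwo i j 4 (-4) k + vTwo i j 4 (-4) k)
      rw [vE_apply, vE_apply, vTwo_apply]
      split_ifs <;> omega
    have e2 : lE i = g • lE j + (g • t + g • t) := by
      rw [← Co0_add, ← Co0_add, ← e1, h]
    apply cross_vE (i := i) (g • lE j).2 _ (g • t).2
    · have := congrArg (fun v : ↥leechLattice => (v : GolayPt → ℤ)) e2
      simp only [AddSubgroup.coe_add] at this
      have h3 : ((lE i : ↥leechLattice) : GolayPt → ℤ) = vE i := rfl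
      rw [h3] at this
      rw [this, two_smul]
      abel
    · rw [Co0_sqNorm]
      exact sqNorm_vE j
  intro v hv
  obtain ⟨j, hj | hj⟩ := (mem_stdCross_iff _).1 hv
  · have : v = lE j := Subtype.ext hj
    rw [this]
    exact key j
  · have : v = -lE j := Subtype.ext hj
    rw [this, Co0_neg]
    exact neg_mem_stdCross (key j)

theorem count_none : countRange (fun c => (fun m => !Nat.testBit m 23) (enc c)) 12 0 = 2048 := by
  decide +kernel

theorem card_CS_none : Nat.card {c : Finset GolayPt // c ∈ CS ∧ none ∉ c} = 2048 := by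
  have h := ncard_code (fun m => !Nat.testBit m 23)
  rw [count_none] at h
  rw [← h, ← Nat.card_coe_set_eq]
  apply Nat.card_congr
  apply Equiv.subtypeEquivRight
  intro c
  show _ ↔ _ ∧ _
  apply and_congr_right
  intro _
  rw [mem_iff_testBit]
  show _ ↔ (!(mask c).testBit 23) = true
  simp [idx]

theorem mono_fix_iff (σ : Equiv.Perm GolayPt) (hσ : σ ∈ M24) (c : Finset GolayPt) (hc : c ∈ CS) :
    monoCo0 σ hσ c hc • lE none = lE none ↔ σ none = none ∧ none ∉ c := by
  have h1 : monoCo0 σ hσ c hc • lE none = lE none ↔ signedPerm σ c (vE none) = vE none := by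
    constructor
    · intro h
      exact congrArg Subtype.val h
    · intro h
      exact Subtype.ext h
  rw [h1, signedPerm_vE]
  constructor
  · intro h
    by_cases hm : σ none ∈ c
    · rw [if_pos hm] at h
      have h2 := vE_injective (Or.inr h.symm)
      rw [← h2] at h
      have := congrFun h none
      simp [vE_apply] at this
    · rw [if_neg hm] at h
      have h2 := vE_injective (Or.inl h.symm)
      rw [← h2] at hm
      exact ⟨h2.symm, hm⟩
  · rintro ⟨h2, h3⟩
    rw [h2, if_neg h3]

theorem card_stab_lE : Nat.card (MulAction.stabilizer ↥Co0 (lE none)) = 10200960 * 2048 := by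
  have e : (↥(MulAction.stabilizer M24 (none : GolayPt)) ×
      {c : Finset GolayPt // c ∈ CS ∧ none ∉ c}) ≃ MulAction.stabilizer ↥Co0 (lE none) :=
    Equiv.ofBijective
      (fun p => ⟨monoCo0 p.1.1.1 p.1.1.2 p.2.1 p.2.2.1,
        (mono_fix_iff _ _ _ _).2 ⟨p.1.2, p.2.2.2⟩⟩) (by
      constructor
      · rintro ⟨⟨⟨σ, hσ⟩, h1⟩, ⟨c, hc⟩⟩ ⟨⟨⟨σ', hσ'⟩, h1'⟩, ⟨c', hc'⟩⟩ h
        obtain ⟨rfl, rfl⟩ := monoCo0_injective (congrArg Subtype.val h)
        rfl
      · rintro ⟨g, hg⟩
        obtain ⟨σ, hσ, c, hc, rfl⟩ := exists_mono_of_pres (pres_of_fix hg)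
        have h2 := (mono_fix_iff _ _ _ _).1 hg
        exact ⟨⟨⟨⟨σ, hσ⟩, h2.1⟩, ⟨c, hc, h2.2⟩⟩, rfl⟩)
  rw [← Nat.card_congr e, Nat.card_prod, Cfsg.Agent.S0376.result, card_CS_none]

theorem orbit_lE : MulAction.orbit ↥Co0 (lE none) =
    {v : ↥leechLattice | sqNorm (v : GolayPt → ℤ) = 64} := by
  ext v
  constructor
  · rintro ⟨g, rfl⟩
    show sqNorm ((g • lE none : ↥leechLattice) : GolayPt → ℤ) = 64
    rw [Co0_sqNorm]
    exact sqNorm_vE none
  · intro hv
    obtain ⟨_, _, g, hg⟩ := (rel64 v.2 hv).symm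
    exact ⟨g, hg⟩

theorem ncard_norm64 : {v : ↥leechLattice | sqNorm (v : GolayPt → ℤ) = 64}.ncard = 398034000 := by
  rw [← Cfsg.Agent.S0396.result, ← Set.ncard_image_of_injective _ Subtype.val_injective]
  congr 1
  ext x
  constructor
  · rintro ⟨v, hv, rfl⟩
    exact ⟨v.2, hv⟩
  · rintro ⟨hx, hn⟩
    exact ⟨⟨x, hx⟩, hn, rfl⟩

theorem card_Co0 : Nat.card ↥Co0 = 8315553613086720000 := by
  have h1 := (MulAction.stabilizer ↥Co0 (lE none)).card_mul_index
  rw [MulAction.index_stabilizer, orbit_lE, ncard_norm64, card_stab_lE] at h1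
  rw [← h1]

end Cfsg.Agent.Lib.Helper3.Lee
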