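import Mathlib
import Cfsg.Agent.Lib.Helper3.LeechOrder

set_option autoImplicit false
open scoped Pointwise
open Cfsg Cfsg.Agent.Lib.Helper11

/-! Orthogonal pairs of minimal vectors, and crosses. -/

namespace Cfsg.Agent.Lib.Helper3.Lee

theorem form4 {a : GolayPt → ℤ} (ha : a ∈ leechLattice) (hn : sqNorm a = 32) (h4 : a none = 4) :
    ∃ j, j ≠ none ∧ ∃ s : ℤ, (s = 4 ∨ s = -4) ∧ a = vTwo none j 4 s := by
  rcases L2_cases ha hn with ⟨c, -, j, rfl⟩ | ⟨o, -, c, -, rfl⟩ | ⟨p, q, hpq, s, t, hs, ht, rfl⟩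
  · exfalso
    rw [signCh_apply] at h4
    unfold vOdd at h4
    split_ifs at h4 <;> omega
  · exfalso
    rw [signCh_apply] at h4
    unfold vSet at h4
    split_ifs at h4 <;> omega
  · rw [vTwo_apply] at h4
    by_cases h1 : none = p
    · subst h1
      have h2 : ¬ (none = q) := hpq
      rw [if_pos rfl, if_neg h2] at h4
      refine ⟨q, fun h => h2 h.symm, t, ht, ?_⟩
      rw [show s = 4 by omega]
    · by_cases h2 : none = q
      · subst h2
        rw [if_neg h1, if_pos rfl] at h4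
        refine ⟨p, fun h => h1 h.symm, s, hs, ?_⟩
        rw [show t = 4 by omega]
        unfold vTwo
        rw [add_comm]
      · rw [if_neg h1, if_neg h2] at h4
        omega

theorem dot_add_right (x y z : GolayPt → ℤ) : dotInt x (y + z) = dotInt x y + dotInt x z := by
  unfold dotInt
  rw [← Finset.sum_add_distrib]
  apply Finset.sum_congr rfl
  intro i _
  simp only [Pi.add_apply]
  ring

theorem dot_self (x : GolayPt → ℤ) : dotInt x x = sqNorm x := by
  unfold dotInt sqNorm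
  apply Finset.sum_congr rfl
  intro i _
  ring

/-- a monomial automorphism fixing a frame vector and moving one minimal vector to another. -/
theorem exists_mono_move {j j' : GolayPt} (hj : j ≠ none) (hj' : j' ≠ none) {s s' : ℤ}
    (hs : s = 4 ∨ s = -4) (hs' : s' = 4 ∨ s' = -4) (h1 : vTwo none j 4 s ∈ leechLattice)
    (h2 : vTwo none j' 4 s' ∈ leechLattice) :
    ∃ n : ↥Co0, n • lE none = lE none ∧
      n • (⟨vTwo none j 4 s, h1⟩ : ↥leechLattice) = ⟨vTwo none j' 4 s', h2⟩ := by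
  obtain ⟨σ, hσ, e1, e2⟩ := exists_M24_two (Ne.symm hj) (Ne.symm hj')
  obtain ⟨c, hc, c1, c2⟩ := exists_CS_two (Ne.symm hj') False (s ≠ s')
  refine ⟨monoCo0 σ hσ c hc, (mono_fix_iff _ _ _ _).2 ⟨e1, fun h => c1.1 h⟩, ?_⟩
  apply Subtype.ext
  rw [monoCo0_smul]
  show signedPerm σ c (vTwo none j 4 s) = vTwo none j' 4 s'
  rw [signedPerm_eq, permCh_vTwo, e1, e2, signCh_vTwo, if_neg (fun h => c1.1 h)]
  congr 1
  by_cases h : s = s'
  · rw [if_neg (fun h' => (c2.1 h') h), h]
  · rw [if_pos (c2.2 h)]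
    rcases hs with rfl | rfl <;> rcases hs' with rfl | rfl <;> first | rfl | exact absurd rfl h

/-- the stabiliser of a minimal vector is transitive on the minimal vectors orthogonal to it. -/
theorem orth_trans (v w w' : ↥leechLattice) (hv : sqNorm (v : GolayPt → ℤ) = 32)
    (hw : sqNorm (w : GolayPt → ℤ) = 32) (hw' : sqNorm (w' : GolayPt → ℤ) = 32)
    (hd : dotInt (v : GolayPt → ℤ) (w : GolayPt → ℤ) = 0)
    (hd' : dotInt (v : GolayPt → ℤ) (w' : GolayPt → ℤ) = 0) :
    ∃ g : ↥Co0, g • v = v ∧ g • w = w' := by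
  have key : ∀ u : ↥leechLattice, sqNorm (u : GolayPt → ℤ) = 32 →
      dotInt (v : GolayPt → ℤ) (u : GolayPt → ℤ) = 0 →
      ∃ g : ↥Co0, g • (v + u) = lE none ∧ ∃ j, j ≠ none ∧ ∃ s : ℤ, (s = 4 ∨ s = -4) ∧
        ((g • v : ↥leechLattice) : GolayPt → ℤ) = vTwo none j 4 s := by
    intro u hu hdu
    have hx : sqNorm ((v + u : ↥leechLattice) : GolayPt → ℤ) = 64 := by
      rw [AddSubgroup.coe_add, sqNorm_add, hv, hdu, hu]; norm_num
    obtain ⟨_, _, g, hg⟩ := rel64 (v + u).2 hx
    have hg' : g • (v + u) = lE none := hg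
    refine ⟨g, hg', ?_⟩
    apply form4 (g • v).2
    · rw [Co0_sqNorm, hv]
    · have h1 := Co0_dot g v (v + u)
      rw [hg', AddSubgroup.coe_add, dot_add_right, dot_self, hv, hdu] at h1
      have h2 : dotInt ((g • v : ↥leechLattice) : GolayPt → ℤ)
          ((lE none : ↥leechLattice) : GolayPt → ℤ) = 8 * (g • v).1 none := dot_vE _ _
      rw [h2] at h1
      have h3 : (g • v).1 none = ((g • v : ↥leechLattice) : GolayPt → ℤ) none := rfl
      omega
  obtain ⟨g1, a1, j, hj, s, hs, b1⟩ := key w hw hd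
  obtain ⟨g2, a2, j', hj', s', hs', b2⟩ := key w' hw' hd'
  obtain ⟨n, n1, n2⟩ := exists_mono_move hj hj' hs hs' (b1 ▸ (g1 • v).2) (b2 ▸ (g2 • v).2)
  have c1 : g1 • v = ⟨vTwo none j 4 s, b1 ▸ (g1 • v).2⟩ := Subtype.ext b1
  have c2 : g2 • v = ⟨vTwo none j' 4 s', b2 ▸ (g2 • v).2⟩ := Subtype.ext b2
  have hv' : (g2⁻¹ * n * g1) • v = v := by
    rw [mul_smul, mul_smul, c1, n2, ← c2, inv_smul_smul]
  have hx' : (g2⁻¹ * n * g1) • (v + w) = v + w' := by
    rw [mul_smul, mul_smul, a1, n1, ← a2, inv_smul_smul]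
  refine ⟨g2⁻¹ * n * g1, hv', ?_⟩
  rw [Co0_add, hv'] at hx'
  exact add_left_cancel hx'

/-- the cross of a frame vector. -/
theorem cross_vE_eq : cross (vE none) = stdCross := by
  ext y
  constructor
  · rintro ⟨hy, hn, z, hz, e⟩
    rw [sqNorm_vE] at hn
    exact cross_vE hy hn hz e
  · intro hy
    obtain ⟨j, rfl | rfl⟩ := (mem_stdCross_iff _).1 hy
    · refine ⟨vE_mem j, by rw [sqNorm_vE, sqNorm_vE], vTwo none j 4 (-4),
        vTwo_mem _ _ (by norm_num) (by norm_num) (by norm_num), ?_⟩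
      funext k
      simp only [Pi.sub_apply, Pi.smul_apply, two_smul]
      rw [vE_apply, vE_apply, vTwo_apply]
      split_ifs <;> omega
    · refine ⟨neg_mem (vE_mem j), by rw [sqNorm_neg, sqNorm_vE, sqNorm_vE], vTwo none j 4 4,
        vTwo_mem _ _ (by norm_num) (by norm_num) (by norm_num), ?_⟩
      funext k
      simp only [Pi.sub_apply, Pi.smul_apply, two_smul, Pi.neg_apply]
      rw [vE_apply, vE_apply, vTwo_apply]
      split_ifs <;> omega

theorem ncard_stdCross : stdCross.ncard = 48 := by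
  have h : stdCross = (fun p : GolayPt × Bool => if p.2 then vE p.1 else -vE p.1) '' Set.univ := by
    ext y
    rw [mem_stdCross_iff]
    constructor
    · rintro ⟨i, rfl | rfl⟩
      · exact ⟨(i, true), trivial, rfl⟩
      · exact ⟨(i, false), trivial, rfl⟩
    · rintro ⟨⟨i, b⟩, -, rfl⟩
      cases b
      · exact ⟨i, Or.inr rfl⟩
      · exact ⟨i, Or.inl rfl⟩
  rw [h, Set.ncard_image_of_injective, Set.ncard_univ, Nat.card_eq_fintype_card]
  · rfl
  · rintro ⟨i, b⟩ ⟨i', b'⟩ e
    have hne : ∀ k, vE k ≠ -vE k := by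
      intro k hk
      have := congrFun hk k
      simp [vE_apply] at this
    cases b <;> cases b' <;> simp only [if_true, Bool.false_eq_true, if_false] at e
    · have := vE_injective (Or.inl (neg_injective e))
      rw [this]
    · have := vE_injective (Or.inr e.symm)
      subst this
      exact absurd e.symm (hne _)
    · have := vE_injective (Or.inr e)
      subst this
      exact absurd e (hne _)
    · have := vE_injective (Or.inl e)
      rw [this]

/-- the image of a cross under an automorphism. -/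
theorem ncard_cross_smul (g : ↥Co0) (x : ↥leechLattice) :
    (cross ((g • x : ↥leechLattice) : GolayPt → ℤ)).ncard = (cross (x : GolayPt → ℤ)).ncard := by
  have hS : ∀ u : ↥leechLattice, cross (u : GolayPt → ℤ) =
      Subtype.val '' {y : ↥leechLattice | (y : GolayPt → ℤ) ∈ cross (u : GolayPt → ℤ)} := by
    intro u
    ext y
    constructor
    · intro hy
      exact ⟨⟨y, hy.1⟩, hy, rfl⟩
    · rintro ⟨y, hy, rfl⟩
      exact hy
  rw [hS, hS x, Set.ncard_image_of_injective _ Subtype.val_injective,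
    Set.ncard_image_of_injective _ Subtype.val_injective,
    ← Set.ncard_image_of_injective _ (MulAction.injective g⁻¹)]
  have fwd : ∀ (h : ↥Co0) (u y : ↥leechLattice), (y : GolayPt → ℤ) ∈ cross (u : GolayPt → ℤ) →
      ((h • y : ↥leechLattice) : GolayPt → ℤ) ∈ cross ((h • u : ↥leechLattice) : GolayPt → ℤ) := by
    rintro h u y ⟨-, hn, z, hz, e⟩
    refine ⟨(h • y).2, by rw [Co0_sqNorm, Co0_sqNorm, hn], (h • (⟨z, hz⟩ : ↥leechLattice)).1,
      (h • (⟨z, hz⟩ : ↥leechLattice)).2, ?_⟩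
    have e1 : u = y + ((⟨z, hz⟩ : ↥leechLattice) + ⟨z, hz⟩) := by
      apply Subtype.ext
      show (u : GolayPt → ℤ) = y + (z + z)
      rw [← two_smul ℕ z, ← e]
      abel
    have e2 := congrArg (fun t : ↥leechLattice => ((h • t : ↥leechLattice) : GolayPt → ℤ)) e1
    simp only [Co0_add, AddSubgroup.coe_add] at e2
    rw [e2, two_smul]
    abel
  congr 1
  ext y
  constructor
  · rintro ⟨y, hy, rfl⟩
    have := fwd g⁻¹ _ _ hy
    rwa [inv_smul_smul] at this
  · intro hy
    exact ⟨g • y, fwd g _ _ hy, inv_smul_smul g y⟩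

theorem ncard_cross {x : GolayPt → ℤ} (hx : x ∈ leechLattice) (hn : sqNorm x = 64) :
    (cross x).ncard = 48 := by
  obtain ⟨_, _, g, hg⟩ := rel64 hx hn
  have h := ncard_cross_smul g ⟨x, hx⟩
  rw [hg] at h
  rw [← ncard_stdCross, ← cross_vE_eq]
  exact h.symm

end Cfsg.Agent.Lib.Helper3.Lee
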