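import Mathlib

set_option autoImplicit false

namespace Cfsg.Agent.Lib.Helper3

theorem unpack3 {β : Type*} {F : Set β} {O : Fin 3 → Set β} (h : F = ⋃ j, O j) :
    F = O 0 ∪ O 1 ∪ O 2 := by
  rw [h]; ext x
  constructor
  · intro hx
    obtain ⟨j, hj⟩ := Set.mem_iUnion.1 hx
    fin_cases j
    · exact Or.inl (Or.inl hj)
    · exact Or.inl (Or.inr hj)
    · exact Or.inr hj
  · rintro ((hx | hx) | hx) <;> exact Set.mem_iUnion.2 ⟨_, hx⟩

theorem unpack4 {β : Type*} {F : Set β} {O : Fin 4 → Set β} (h : F = ⋃ j, O j) :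
    F = O 0 ∪ O 1 ∪ O 2 ∪ O 3 := by
  rw [h]; ext x
  constructor
  · intro hx
    obtain ⟨j, hj⟩ := Set.mem_iUnion.1 hx
    fin_cases j
    · exact Or.inl (Or.inl (Or.inl hj))
    · exact Or.inl (Or.inl (Or.inr hj))
    · exact Or.inl (Or.inr hj)
    · exact Or.inr hj
  · rintro (((hx | hx) | hx) | hx) <;> exact Set.mem_iUnion.2 ⟨_, hx⟩

theorem unpack5 {β : Type*} {F : Set β} {O : Fin 5 → Set β} (h : F = ⋃ j, O j) :
    F = O 0 ∪ O 1 ∪ O 2 ∪ O 3 ∪ O 4 := by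
  rw [h]; ext x
  constructor
  · intro hx
    obtain ⟨j, hj⟩ := Set.mem_iUnion.1 hx
    fin_cases j
    · exact Or.inl (Or.inl (Or.inl (Or.inl hj)))
    · exact Or.inl (Or.inl (Or.inl (Or.inr hj)))
    · exact Or.inl (Or.inl (Or.inr hj))
    · exact Or.inl (Or.inr hj)
    · exact Or.inr hj
  · rintro ((((hx | hx) | hx) | hx) | hx) <;> exact Set.mem_iUnion.2 ⟨_, hx⟩

end Cfsg.Agent.Lib.Helper3
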