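import Mathlib
import Cfsg.Agent.Lib.Helper3.TrioTable
import Cfsg.Agent.Lib.Helper3.Families
import Cfsg.Agent.Lib.Helper3.Unpack

set_option autoImplicit false
open scoped Pointwise
open Cfsg

namespace Cfsg.Agent.Lib.Helper3

/-- the standard sextet. -/
def S0 : Finset (Finset GolayPt) := sextetOf (unmask 15)

/-- the standard trio. -/
def T0 : Finset (Finset GolayPt) := trioOf O0 (unmask 0xb66020)

theorem card_unmask15 : (unmask 15).card = 4 := by
  rw [card_eq_pc, mask_unmask (by norm_num)]; decide +kernel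

theorem S0_mem : S0 ∈ sextets := sextetOf_mem card_unmask15

theorem chkS0 : allW (fun x => !Nat.beq (cz x) (cz 15) ||
    [0xf, 0x1490, 0x98100, 0x342000, 0x400a40, 0x824020].contains x) 24 4 0 = true := by
  decide +kernel

theorem famOf_S0 : famOf [0xf, 0x1490, 0x98100, 0x342000, 0x400a40, 0x824020] = S0 := by
  ext u
  unfold S0
  rw [mem_sextetOf, mask_unmask (by norm_num)]
  unfold famOf
  rw [List.mem_toFinset, List.mem_map]
  constructor
  · rintro ⟨m, hm, rfl⟩
    simp only [List.mem_cons, List.not_mem_nil, or_false] at hm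
    rcases hm with rfl | rfl | rfl | rfl | rfl | rfl <;>
    · rw [card_eq_pc, mask_unmask (by norm_num)]
      constructor <;> decide +kernel
  · rintro ⟨h4, hz⟩
    have h := forall_card _ 4 chkS0 u h4
    rw [Bool.or_eq_true, Bool.not_eq_true', ← Bool.not_eq_true, Nat.beq_eq] at h
    rcases h with h | h
    · exact absurd hz h
    · refine ⟨mask u, by simpa using h, unmask_mask u⟩

theorem sextet_to_S0 {S : Finset (Finset GolayPt)} (hS : S ∈ sextets) : ∃ u ∈ M24, u • S = S0 := by
  obtain ⟨t, ht, _⟩ := sextet_covers hS (pt 23)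
  obtain ⟨u, hu, h⟩ := set_to_base t (hS.2.1 t ht) (by norm_num) (m := 15) rfl
  refine ⟨u, hu, ?_⟩
  rw [eq_sextetOf hS ht, smul_sextetOf hu, h, S0]

theorem orbit_M24_sextet {S : Finset (Finset GolayPt)} (hS : S ∈ sextets) :
    MulAction.orbit M24 S = sextets := by
  ext R
  rw [mem_orbit_M24_iff]
  constructor
  · rintro ⟨g, hg, rfl⟩
    exact smul_mem_sextets hg hS
  · intro hR
    obtain ⟨u, hu, h⟩ := sextet_to_S0 hS
    obtain ⟨v, hv, h'⟩ := sextet_to_S0 hR
    refine ⟨v⁻¹ * u, M24.mul_mem (M24.inv_mem hv) hu, ?_⟩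
    rw [mul_smul, h, ← h', inv_smul_smul]

theorem cnt_tetrads23 : countW (fun x => Nat.testBit x 23) 24 4 0 = 1771 := by decide +kernel

theorem ncard_sextets : sextets.ncard = 1771 := by
  rw [sextets_eq_image, Set.InjOn.ncard_image sextetOf_injOn, ← cnt_tetrads23, ← ncard_card]
  congr 1
  ext t
  simp only [Set.mem_ofPred_eq]
  rw [testBit_mask]
  simp

theorem card_stab_sextet {S : Finset (Finset GolayPt)} (hS : S ∈ sextets) :
    Nat.card (MulAction.stabilizer M24 S) = 138240 := by
  have h := card_stab_mul_orbit S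
  rw [orbit_M24_sextet hS, ncard_sextets] at h
  omega

theorem O1_mem : unmask 0xb66020 ∈ octads := (unmask_mem_octads (by decide +kernel)).1

theorem O0_disj_O1 : Disjoint O0 (unmask 0xb66020) := by
  rw [Finset.disjoint_iff_inter_eq_empty]
  apply mask_injective
  rw [mask_inter, O0, mask_unmask (by norm_num), mask_unmask (by norm_num)]
  decide +kernel

theorem T0_mem : T0 ∈ trios := trioOf_mem O0_mem O1_mem O0_disj_O1

theorem famOf_T0 : famOf [0x149f, 0xb66020, 0x498b40] = T0 := by
  have h1 : unmask 0x498b40 = (O0 ∪ unmask 0xb66020)ᶜ := by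
    apply mask_injective
    rw [mask_compl, mask_union, O0, mask_unmask (by norm_num), mask_unmask (by norm_num),
      mask_unmask (by norm_num)]
    decide +kernel
  simp only [famOf, List.map_cons, List.map_nil, List.toFinset_cons, List.toFinset_nil, h1]
  rfl

theorem trio_to_T0 {T : Finset (Finset GolayPt)} (hT : T ∈ trios) : ∃ u ∈ M24, u • T = T0 := by
  have hne : T.Nonempty := by
    rw [← Finset.card_pos, hT.1]; norm_num
  obtain ⟨a, ha⟩ := hne
  obtain ⟨b, hb, hab⟩ := exists_two_of_trio hT ha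
  obtain ⟨u, hu, hua⟩ := octad_to_O0 (hT.2.1 a ha)
  have hd : Disjoint a b := hT.2.2 a ha b hb hab
  have hub : u • b ∈ octads := smul_mem_octads hu (hT.2.1 b hb)
  obtain ⟨σ, hσ, h⟩ := octad_to_rep hub
  have hc : (O0 ∩ u • b).card = 0 := by
    rw [← hua, ← Finset.smul_finset_inter, Finset.card_smul_finset, Finset.card_eq_zero,
      ← Finset.disjoint_iff_inter_eq_empty]
    exact hd
  rw [hc] at h
  obtain ⟨hσ1, hσ2⟩ := StabM_one hσ
  refine ⟨σ * u, M24.mul_mem hσ1 hu, ?_⟩
  rw [eq_trioOf hT ha hb hab, smul_trioOf, mul_smul, mul_smul, hua, T0]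
  congr 1
  apply mask_injective
  rw [h, mask_unmask (by norm_num)]
  rfl

theorem orbit_M24_trio {T : Finset (Finset GolayPt)} (hT : T ∈ trios) :
    MulAction.orbit M24 T = trios := by
  ext R
  rw [mem_orbit_M24_iff]
  constructor
  · rintro ⟨g, hg, rfl⟩
    exact smul_mem_trios hg hT
  · intro hR
    obtain ⟨u, hu, h⟩ := trio_to_T0 hT
    obtain ⟨v, hv, h'⟩ := trio_to_T0 hR
    refine ⟨v⁻¹ * u, M24.mul_mem (M24.inv_mem hv) hu, ?_⟩
    rw [mul_smul, h, ← h', inv_smul_smul]

theorem card_stab_trio {T : Finset (Finset GolayPt)} (hT : T ∈ trios) :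
    Nat.card (MulAction.stabilizer M24 T) = 64512 := by
  have h := card_stab_mul_orbit T
  rw [orbit_M24_trio hT, ncard_trios] at h
  omega

theorem card_stab_three {Y : Finset GolayPt} (hY : Y.card = 3) :
    Nat.card (MulAction.stabilizer M24 Y) = 120960 := by
  have h := card_stab_mul_orbit Y
  rw [orbit_M24_card hY (by norm_num), ncard_card_eq] at h
  have h2 : Nat.choose 24 3 = 2024 := by decide +kernel
  rw [h2] at h
  omega

/-- maximality of a stabiliser from its orbit lengths on the orbit of the stabilised object. -/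
theorem isCoatom_of_orbits {β : Type*} [MulAction (Equiv.Perm GolayPt) β] (Y : β) (F : Set β)
    (hF : MulAction.orbit M24 Y = F) {k : ℕ} (X : Fin (k + 1) → β) (n : Fin (k + 1) → ℕ) (N : ℕ)
    (hN : F.ncard = N) (hN1 : 1 < N)
    (h2 : ∀ j, (MulAction.orbit (MulAction.stabilizer M24 Y) (X j)).ncard = n j)
    (h3 : F = ⋃ j, MulAction.orbit (MulAction.stabilizer M24 Y) (X j))
    (hinj : Function.Injective n) (h0 : n 0 = 1)
    (harith : ∀ J : Finset (Fin k), J.Nonempty → (1 + ∑ j ∈ J, n j.succ) ∣ N → J = Finset.univ) :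
    MulAction.orbit (MulAction.stabilizer M24 Y) (X 0) = {Y} ∧
      IsCoatom (MulAction.stabilizer M24 Y) := by
  have hYo : MulAction.orbit (MulAction.stabilizer M24 Y) Y = {Y} := by
    ext x
    constructor
    · rintro ⟨g, rfl⟩
      exact g.2
    · rintro rfl
      exact MulAction.mem_orbit_self _
  have hY : Y ∈ F := by rw [← hF]; exact MulAction.mem_orbit_self _
  have hX0 : MulAction.orbit (MulAction.stabilizer M24 Y) (X 0) = {Y} := by
    rw [h3] at hY
    obtain ⟨j, hj⟩ := Set.mem_iUnion.1 hY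
    have h4 := MulAction.orbit_eq_iff.2 hj
    have h5 : n j = 1 := by rw [← h2, ← h4, hYo, Set.ncard_singleton]
    have h6 : j = 0 := hinj (h5.trans h0.symm)
    rw [← h6, ← h4, hYo]
  refine ⟨hX0, ?_⟩
  apply isCoatom_stabilizer_of_classes Y
    (fun i : Fin k => MulAction.orbit (MulAction.stabilizer M24 Y) (X i.succ))
    (fun i => n i.succ) N (by rw [hF, hN]) hN1
  · intro x hx
    rw [hF, h3] at hx
    obtain ⟨j, hj⟩ := Set.mem_iUnion.1 hx
    rcases Fin.eq_zero_or_eq_succ j with rfl | ⟨i, rfl⟩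
    · left
      rw [hX0] at hj
      exact hj
    · exact Or.inr ⟨i, hj⟩
  · intro i x hx
    rw [hF, h3]
    exact Set.mem_iUnion.2 ⟨_, hx⟩
  · intro i hx
    have h4 := MulAction.orbit_eq_iff.2 hx
    have h5 : n i.succ = 1 := by rw [← h2, ← h4, hYo, Set.ncard_singleton]
    exact Fin.succ_ne_zero i (hinj (h5.trans h0.symm))
  · intro i j hij
    rw [Set.disjoint_left]
    intro x hx hx'
    apply hij
    have h4 := (MulAction.orbit_eq_iff.2 hx).symm.trans (MulAction.orbit_eq_iff.2 hx')
    have h5 : n i.succ = n j.succ := by rw [← h2, ← h2, h4]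
    exact Fin.succ_injective _ (hinj h5)
  · intro i x hx x' hx'
    have h4 : x' ∈ MulAction.orbit (MulAction.stabilizer M24 Y) x := by
      rw [MulAction.orbit_eq_iff.2 hx]; exact hx'
    obtain ⟨g, rfl⟩ := h4
    exact ⟨g.1, g.2, rfl⟩
  · intro i
    exact h2 _
  · exact harith

end Cfsg.Agent.Lib.Helper3
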