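import Mathlib
import Cfsg.Agent.Lib.Helper3.ClassFix
import Cfsg.Agent.Lib.Helper3.SxTrBase

set_option autoImplicit false
open scoped Pointwise
open Cfsg

namespace Cfsg.Agent.Lib.Helper3

theorem ncard_idxQ (Q : ℕ → Bool) :
    {i | i < 4096 ∧ Q i = true}.ncard = countRange Q 12 0 := by
  rw [countRange_zero, ← Set.ncard_coe_finset]
  congr 1
  ext i
  simp only [Set.mem_ofPred_eq, Finset.coe_filter, Finset.mem_range]
  norm_num

theorem sextets_eq_sxt : sextets = sxt '' {i | i < 4096 ∧ tet i ≠ 0} := by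
  ext X
  constructor
  · intro hX
    obtain ⟨t, ht, _⟩ := sextet_covers hX (pt 23)
    have ht4 := hX.2.1 t ht
    obtain ⟨h1, h2, h3⟩ := tet_complete ht4
    refine ⟨_, ⟨h1, h2⟩, ?_⟩
    rw [eq_sextetOf hX ht, sxt, sextetOf_eq_iff (tet_spec h1 h2).1, mask_unmask (tet_lt _), h3]
  · rintro ⟨i, ⟨hi, hc⟩, rfl⟩
    exact sextetOf_mem (tet_spec hi hc).1

theorem trios_eq_trd : trios = trd '' {i | i < 4096 ∧ i < 3795} := by
  symm
  apply Set.eq_of_subset_of_ncard_le
  · rintro _ ⟨i, ⟨_, hc⟩, rfl⟩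
    exact trd_mem hc
  · rw [Set.InjOn.ncard_image (trd_injOn (P := fun i => i < 3795) (fun i _ hc => hc)), ncard_trios]
    have : {i | i < 4096 ∧ i < 3795} = ↑(Finset.range 3795) := by
      ext i
      simp only [Set.mem_ofPred_eq, Finset.coe_range, Set.mem_Iio]
      omega
    rw [this, Set.ncard_coe_finset, Finset.card_range]
  · exact Set.toFinite _

/-- the number of words of given weight fixed by a permutation. -/
theorem ncard_fixed_code {σ : Equiv.Perm GolayPt} {T : ℕ}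
    (hT : ∀ s : Finset GolayPt, mask (σ • s) = pmU T (mask s)) (w : ℕ) :
    {o : Finset GolayPt | (o ∈ CS ∧ o.card = w) ∧ σ • o = o}.ncard =
      countRange (fun c => Nat.beq (pcF (encF c)) w && Nat.beq (pmU T (encF c)) (encF c)) 12 0 := by
  rw [← ncard_codeF (fun x => Nat.beq (pcF x) w && Nat.beq (pmU T x) x)]
  congr 1
  ext o
  simp only [Set.mem_ofPred_eq, Bool.and_eq_true, Nat.beq_eq, ← card_eq_pcF, ← hT, and_assoc]
  refine and_congr_right fun _ => and_congr_right fun _ => ?_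
  exact ⟨fun h => by rw [h], fun h => mask_injective h⟩

/-- the number of sextets fixed by an element of the group. -/
theorem ncard_fixed_sextets {σ : Equiv.Perm GolayPt} (hσ : σ ∈ M24) {T : ℕ}
    (hT : ∀ s : Finset GolayPt, mask (σ • s) = pmU T (mask s)) :
    {S : Finset (Finset GolayPt) | S ∈ sextets ∧ σ • S = S}.ncard =
      countRange (fun c => !Nat.beq (tet c) 0 && Nat.beq (cz (pmU T (tet c))) (cz (tet c))) 12 0 := by
  rw [← ncard_idxQ]
  have hinj := sxt_injOn (P := fun c => (!Nat.beq (tet c) 0 &&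
      Nat.beq (cz (pmU T (tet c))) (cz (tet c))) = true) (by
    intro i _ h
    rw [Bool.and_eq_true, Bool.not_eq_true', ← Bool.not_eq_true, Nat.beq_eq] at h
    exact h.1)
  rw [← Set.InjOn.ncard_image hinj]
  congr 1
  have key : ∀ i < 4096, tet i ≠ 0 →
      (σ • sxt i = sxt i ↔ cz (pmU T (tet i)) = cz (tet i)) := by
    intro i hi h0
    have h4 := (tet_spec hi h0).1
    rw [sxt, smul_sextetOf hσ, sextetOf_eq_iff (by rw [Finset.card_smul_finset]; exact h4), hT,
      mask_unmask (tet_lt _)]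
  ext S
  constructor
  · rintro ⟨hS, hfix⟩
    rw [sextets_eq_sxt] at hS
    obtain ⟨i, ⟨hi, h0⟩, rfl⟩ := hS
    refine ⟨i, ⟨hi, ?_⟩, rfl⟩
    rw [Bool.and_eq_true, Bool.not_eq_true', ← Bool.not_eq_true, Nat.beq_eq, Nat.beq_eq]
    exact ⟨h0, (key i hi h0).1 hfix⟩
  · rintro ⟨i, ⟨hi, h⟩, rfl⟩
    rw [Bool.and_eq_true, Bool.not_eq_true', ← Bool.not_eq_true, Nat.beq_eq, Nat.beq_eq] at h
    exact ⟨sextetOf_mem (tet_spec hi h.1).1, (key i hi h.1).2 h.2⟩

theorem mem3_iff {s : Finset GolayPt} {r : ℕ} (hr : r < 3795) :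
    mem3 (mask s) r = true ↔ s ∈ trd r := by
  refine ⟨mem3_spec hr, fun h => ?_⟩
  obtain ⟨_, a2, _, b2, _⟩ := tre_spec hr
  unfold mem3
  simp only [Bool.or_eq_true, Nat.beq_eq]
  simp only [trd, trioOf, Finset.mem_insert, Finset.mem_singleton] at h
  rcases h with h | h | h
  · left; left; rw [h, mask_unmask a2]
  · left; right; rw [h, mask_unmask b2]
  · right; rw [h, mask_third a2 b2]; rfl

/-- the number of trios fixed by an element of the group. -/
theorem ncard_fixed_trios {σ : Equiv.Perm GolayPt} {T : ℕ}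
    (hT : ∀ s : Finset GolayPt, mask (σ • s) = pmU T (mask s)) :
    {S : Finset (Finset GolayPt) | S ∈ trios ∧ σ • S = S}.ncard =
      countRange (fun i => Nat.blt i 3795 && mem3 (pmU T (tra i)) i && mem3 (pmU T (trb i)) i)
        12 0 := by
  rw [← ncard_idxQ]
  have hinj := trd_injOn (P := fun i => (Nat.blt i 3795 && mem3 (pmU T (tra i)) i &&
      mem3 (pmU T (trb i)) i) = true) (by
    intro i _ h
    rw [Bool.and_eq_true, Bool.and_eq_true, Nat.blt_eq] at h
    exact h.1.1)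
  rw [← Set.InjOn.ncard_image hinj]
  congr 1
  have key : ∀ i < 3795, (σ • trd i = trd i ↔
      (mem3 (pmU T (tra i)) i = true ∧ mem3 (pmU T (trb i)) i = true)) := by
    intro i hi
    obtain ⟨a1, a2, b1, b2, hd, _⟩ := tre_spec hi
    have ea : pmU T (tra i) = mask (σ • unmask (tra i)) := by rw [hT, mask_unmask a2]
    have eb : pmU T (trb i) = mask (σ • unmask (trb i)) := by rw [hT, mask_unmask b2]
    rw [ea, eb, mem3_iff hi, mem3_iff hi]
    constructor
    · intro h
      constructor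
      · rw [← h]; apply Finset.smul_mem_smul_finset; simp [trd, trioOf]
      · rw [← h]; apply Finset.smul_mem_smul_finset; simp [trd, trioOf]
    · rintro ⟨h1, h2⟩
      have hne : σ • unmask (tra i) ≠ σ • unmask (trb i) := by
        intro h
        exact ne_of_disjoint_octads a1 hd (MulAction.injective σ h)
      have e1 : σ • trd i = trioOf (σ • unmask (tra i)) (σ • unmask (trb i)) := by
        unfold trd; exact smul_trioOf _ _ _
      rw [e1]
      exact (eq_trioOf (trd_mem hi) h1 h2 hne).symm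
  ext S
  constructor
  · rintro ⟨hS, hfix⟩
    rw [trios_eq_trd] at hS
    obtain ⟨i, ⟨hi, h0⟩, rfl⟩ := hS
    refine ⟨i, ⟨hi, ?_⟩, rfl⟩
    rw [Bool.and_eq_true, Bool.and_eq_true, Nat.blt_eq]
    exact ⟨⟨h0, ((key i h0).1 hfix).1⟩, ((key i h0).1 hfix).2⟩
  · rintro ⟨i, ⟨hi, h⟩, rfl⟩
    rw [Bool.and_eq_true, Bool.and_eq_true, Nat.blt_eq] at h
    exact ⟨trd_mem h.1.1, (key i h.1.1).2 ⟨h.1.2, h.2⟩⟩

/-- transfer of the number of fixed objects to a conjugate. -/
theorem ncard_fixed_conj {β : Type*} [MulAction (Equiv.Perm GolayPt) β] (F : Set β)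
    (hF : ∀ g ∈ M24, ∀ x ∈ F, g • x ∈ F) {k g z : Equiv.Perm GolayPt} (hk : k ∈ M24)
    (h : k * g * k⁻¹ = z) :
    {x | x ∈ F ∧ g • x = x}.ncard = {x | x ∈ F ∧ z • x = x}.ncard := by
  have : {x | x ∈ F ∧ z • x = x} = (fun x => k • x) '' {x | x ∈ F ∧ g • x = x} := by
    ext x
    constructor
    · rintro ⟨hx, hz⟩
      refine ⟨k⁻¹ • x, ⟨hF _ (M24.inv_mem hk) x hx, ?_⟩, smul_inv_smul k x⟩
      rw [← h, mul_smul, mul_smul] at hz
      rw [eq_inv_smul_iff]; exact hz
    · rintro ⟨y, ⟨hy, hg⟩, rfl⟩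
      refine ⟨hF k hk y hy, ?_⟩
      rw [← h, mul_smul, mul_smul, inv_smul_smul, hg]
  rw [this, Set.ncard_image_of_injective _ (MulAction.injective k)]

end Cfsg.Agent.Lib.Helper3
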