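import Mathlib
import Cfsg.Agent.Lib.Helper3.OctStab

set_option autoImplicit false

namespace Cfsg.Agent.Lib.Helper3

open Cfsg
open scoped Pointwise

theorem ncard_idx (cls : ℕ → ℕ) (j : ℕ) :
    {i | i < 4096 ∧ cls i = j}.ncard = countRange (fun i => Nat.beq (cls i) j) 12 0 := by
  rw [countRange_zero, ← Set.ncard_coe_finset]
  congr 1
  ext i
  simp only [Set.mem_ofPred_eq, Finset.coe_filter, Finset.mem_range, Nat.beq_eq]
  norm_num

/-- orbits of a stabiliser on a family coded by indices below `4096`. -/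
theorem coded_orbits {α β : Type*} [MulAction (Equiv.Perm GolayPt) α]
    [MulAction (Equiv.Perm GolayPt) β] (Y : α) (F : Set β) (dec : ℕ → β) (cls : ℕ → ℕ) {k : ℕ}
    (r : Fin k → ℕ) (n : Fin k → ℕ) (N : ℕ)
    (hF : F = dec '' {i | i < 4096 ∧ cls i < k})
    (hinj : Set.InjOn dec {i | i < 4096 ∧ cls i < k})
    (hFinv : ∀ g ∈ M24, ∀ x ∈ F, g • x ∈ F)
    (hr : ∀ j : Fin k, r j < 4096 ∧ cls (r j) = j)
    (htr : ∀ i, i < 4096 → ∀ h : cls i < k,
      ∃ σ ∈ M24, σ • Y = Y ∧ σ • dec i = dec (r ⟨cls i, h⟩))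
    (hn : ∀ j : Fin k, countRange (fun i => Nat.beq (cls i) j) 12 0 = n j)
    (hN : Nat.card (MulAction.stabilizer M24 Y) = N)
    (harith : ∀ J : Finset (Fin k), 2 ≤ J.card → ¬ (∑ j ∈ J, n j) ∣ N) :
    (∀ j, dec (r j) ∈ F) ∧
    (∀ j, (MulAction.orbit (MulAction.stabilizer M24 Y) (dec (r j))).ncard = n j) ∧
    F = ⋃ j, MulAction.orbit (MulAction.stabilizer M24 Y) (dec (r j)) ∧
    ∀ j : Fin k, MulAction.orbit (MulAction.stabilizer M24 Y) (dec (r j)) =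
      dec '' {i | i < 4096 ∧ cls i = j} := by
  have hsub : ∀ j : Fin k, {i | i < 4096 ∧ cls i = j} ⊆ {i | i < 4096 ∧ cls i < k} := by
    intro j i hi
    exact ⟨hi.1, by rw [hi.2]; exact j.2⟩
  have hmem : ∀ j, dec (r j) ∈ F := by
    intro j
    rw [hF]
    exact ⟨r j, ⟨(hr j).1, by rw [(hr j).2]; exact j.2⟩, rfl⟩
  have hncard : ∀ j : Fin k, (dec '' {i | i < 4096 ∧ cls i = j}).ncard = n j := by
    intro j
    rw [Set.InjOn.ncard_image (hinj.mono (hsub j)), ncard_idx, hn]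
  have key : ∀ j : Fin k, MulAction.orbit (MulAction.stabilizer M24 Y) (dec (r j)) =
      dec '' {i | i < 4096 ∧ cls i = j} := by
    apply orbit_eq_of_classes (G := MulAction.stabilizer M24 Y)
      (fun j : Fin k => dec '' {i | i < 4096 ∧ cls i = j}) (fun j => dec (r j)) n
    · rintro ⟨⟨g, hg⟩, _⟩ j
      have h1 : g • dec (r j) ∈ F := hFinv g hg _ (hmem j)
      rw [hF] at h1
      obtain ⟨i, ⟨hi1, hi2⟩, hi3⟩ := h1
      exact ⟨⟨cls i, hi2⟩, i, ⟨hi1, rfl⟩, hi3⟩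
    · intro j j' hjj'
      rw [Set.disjoint_left]
      rintro _ ⟨i, hi, rfl⟩ ⟨i', hi', h⟩
      have := hinj (hsub j' hi') (hsub j hi) h
      apply hjj'
      apply Fin.ext
      rw [← hi.2, ← hi'.2, this]
    · rintro j _ ⟨i, ⟨hi1, hi2⟩, rfl⟩
      obtain ⟨σ, hσ, hσY, h⟩ := htr i hi1 (by rw [hi2]; exact j.2)
      have hj : (⟨cls i, by rw [hi2]; exact j.2⟩ : Fin k) = j := Fin.ext hi2
      rw [hj] at h
      refine ⟨⟨⟨σ⁻¹, M24.inv_mem hσ⟩, ?_⟩, ?_⟩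
      · show σ⁻¹ • Y = Y
        rw [inv_smul_eq_iff, hσY]
      · show σ⁻¹ • dec (r j) = dec i
        rw [inv_smul_eq_iff, h]
    · exact hncard
    · rw [hN]; exact harith
  refine ⟨hmem, fun j => by rw [key, hncard], ?_, key⟩
  rw [hF]
  ext x
  simp only [Set.mem_image, Set.mem_iUnion, key]
  constructor
  · rintro ⟨i, ⟨hi1, hi2⟩, rfl⟩
    exact ⟨⟨cls i, hi2⟩, i, ⟨hi1, rfl⟩, rfl⟩
  · rintro ⟨j, i, hi, rfl⟩
    exact ⟨i, hsub j hi, rfl⟩

/-- transfer of an orbit decomposition to a conjugate stabiliser. -/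
theorem orbits_transfer {α β : Type*} [MulAction (Equiv.Perm GolayPt) α]
    [MulAction (Equiv.Perm GolayPt) β] {g : Equiv.Perm GolayPt} (hg : g ∈ M24) (Y : α) (F : Set β)
    (hFinv : ∀ g ∈ M24, ∀ x ∈ F, g • x ∈ F) {k : ℕ} (X : Fin k → β) (n : Fin k → ℕ)
    (h1 : ∀ j, X j ∈ F)
    (h2 : ∀ j, (MulAction.orbit (MulAction.stabilizer M24 Y) (X j)).ncard = n j)
    (h3 : F = ⋃ j, MulAction.orbit (MulAction.stabilizer M24 Y) (X j)) :
    (∀ j, g • X j ∈ F) ∧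
    (∀ j, (MulAction.orbit (MulAction.stabilizer M24 (g • Y)) (g • X j)).ncard = n j) ∧
    F = ⋃ j, MulAction.orbit (MulAction.stabilizer M24 (g • Y)) (g • X j) := by
  have e : ∀ j, MulAction.orbit (MulAction.stabilizer M24 (g • Y)) (g • X j) =
      (fun z => g • z) '' MulAction.orbit (MulAction.stabilizer M24 Y) (X j) :=
    fun j => orbit_stabilizer_smul (⟨g, hg⟩ : ↥M24) Y (X j)
  refine ⟨fun j => hFinv g hg _ (h1 j), fun j => ?_, ?_⟩
  · rw [e, Set.ncard_image_of_injective _ (MulAction.injective g), h2]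
  · simp only [e]
    rw [← Set.image_iUnion, ← h3]
    ext x
    constructor
    · intro hx
      exact ⟨g⁻¹ • x, hFinv _ (M24.inv_mem hg) _ hx, by simp⟩
    · rintro ⟨y, hy, rfl⟩
      exact hFinv g hg _ hy

end Cfsg.Agent.Lib.Helper3
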