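import Mathlib
import Cfsg.Prelude.Def_Sporadic_a

set_option autoImplicit false

namespace Cfsg.Agent.Lib.Helper3.CL

open Finset

variable {ι : Type*} [Fintype ι] [DecidableEq ι]

/-- the indicator word of a set of coordinates. -/
def ind (s : Finset ι) : ι → ZMod 2 := fun i => if i ∈ s then 1 else 0

theorem ind_add (s t : Finset ι) : ind s + ind t = ind (symmDiff s t) := by
  ext i
  simp only [ind, Pi.add_apply, Finset.mem_symmDiff]
  by_cases h1 : i ∈ s <;> by_cases h2 : i ∈ t <;> simp [h1, h2]
  rfl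

theorem ind_sub (s t : Finset ι) : ind s - ind t = ind (symmDiff s t) := by
  rw [← ind_add]
  ext i
  exact CharTwo.sub_eq_add _ _

theorem norm_ind (s : Finset ι) : hammingNorm (ind s) = s.card := by
  unfold hammingNorm
  congr 1
  ext i
  simp [ind]

theorem ind_injective : Function.Injective (ind : Finset ι → ι → ZMod 2) := by
  intro s t h
  ext i
  have := congrFun h i
  by_cases h1 : i ∈ s <;> by_cases h2 : i ∈ t <;> simp_all [ind]

theorem ind_empty : ind (∅ : Finset ι) = 0 := by
  ext i
  simp [ind]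

theorem ind_supp (w : ι → ZMod 2) : ind (univ.filter fun i => w i ≠ 0) = w := by
  ext i
  have h : ∀ a : ZMod 2, a = 0 ∨ a = 1 := by decide
  rcases h (w i) with h1 | h1 <;> simp [ind, h1]

theorem card_symmDiff' (s t : Finset ι) :
    (symmDiff s t).card + 2 * (s ∩ t).card = s.card + t.card := by
  have h1 := Finset.card_sdiff_add_card_inter s t
  have h2 := Finset.card_sdiff_add_card_inter t s
  have h3 : (symmDiff s t).card = (s \ t).card + (t \ s).card := by
    rw [symmDiff_def, Finset.sup_eq_union, Finset.card_union_of_disjoint]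
    exact disjoint_sdiff_sdiff
  rw [Finset.inter_comm t s] at h2
  omega

section code

variable (C : Submodule (ZMod 2) (ι → ZMod 2))

/-- the coset of the indicator word. -/
def cs (s : Finset ι) : (ι → ZMod 2) ⧸ C := C.mkQ (ind s)

variable {C}

theorem cs_eq_iff {s t : Finset ι} : cs C s = cs C t ↔ ind (symmDiff s t) ∈ C := by
  unfold cs
  rw [Submodule.mkQ_apply, Submodule.mkQ_apply, Submodule.Quotient.eq, ind_sub]

variable (hmin : ∀ w ∈ C, w ≠ 0 → 8 ≤ hammingNorm w)

include hmin

theorem far {s t : Finset ι} (hne : s ≠ t) (h : cs C s = cs C t) : 8 ≤ (symmDiff s t).card := by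
  rw [cs_eq_iff] at h
  have h2 := hmin _ h (by
    intro h0
    apply hne
    rw [← ind_empty] at h0
    exact symmDiff_eq_bot.mp (ind_injective h0))
  rwa [norm_ind] at h2

theorem disj4 {s t : Finset ι} (hs : s.card = 4) (ht : t.card = 4) (hne : s ≠ t)
    (h : cs C s = cs C t) : Disjoint s t := by
  have h1 := far hmin hne h
  have h2 := card_symmDiff' s t
  rw [Finset.disjoint_iff_inter_eq_empty, ← Finset.card_eq_zero]
  omega

theorem eq3 {s t : Finset ι} (hs : s.card ≤ 3) (ht : t.card ≤ 4) (h : cs C s = cs C t) : s = t := by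
  by_contra hne
  have h1 := far hmin hne h
  have h2 := card_symmDiff' s t
  omega

end code

/-- the sets of at most three coordinates. -/
def A3 : Finset (Finset ι) := (range 4).biUnion (fun k => powersetCard k univ)

/-- the sets of four coordinates. -/
def A4 : Finset (Finset ι) := powersetCard 4 univ

theorem mem_A3 {s : Finset ι} : s ∈ (A3 : Finset (Finset ι)) ↔ s.card ≤ 3 := by
  unfold A3
  simp only [mem_biUnion, mem_range, mem_powersetCard_univ]
  constructor
  · rintro ⟨k, hk, h⟩
    omega
  · intro h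
    exact ⟨s.card, by omega, rfl⟩

theorem mem_A4 {s : Finset ι} : s ∈ (A4 : Finset (Finset ι)) ↔ s.card = 4 := by
  unfold A4
  rw [mem_powersetCard_univ]

theorem card_A3 (hι : Fintype.card ι = 24) : (A3 : Finset (Finset ι)).card = 2325 := by
  unfold A3
  rw [card_biUnion (fun i _ j _ hij => pairwise_disjoint_powersetCard univ hij)]
  simp only [card_powersetCard, card_univ, hι]
  decide

theorem card_A4 (hι : Fintype.card ι = 24) : (A4 : Finset (Finset ι)).card = 10626 := by
  unfold A4
  rw [card_powersetCard, card_univ, hι]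
  decide

section count

open Classical

variable {C : Submodule (ZMod 2) (ι → ZMod 2)}

theorem card_quot (hι : Fintype.card ι = 24) (hC : Nat.card C = 4096) :
    Nat.card ((ι → ZMod 2) ⧸ C) = 4096 := by
  have h := Submodule.card_eq_card_quotient_mul_card C
  rw [hC, Nat.card_eq_fintype_card, Fintype.card_fun, ZMod.card, hι] at h
  have h2 : (2 : ℕ) ^ 24 = 4096 * 4096 := by norm_num
  rw [h2] at h
  omega

variable (hmin : ∀ w ∈ C, w ≠ 0 → 8 ≤ hammingNorm w)

include hmin

theorem fibre_union (q : (ι → ZMod 2) ⧸ C) :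
    ((A4.filter (fun s => cs C s = q)).biUnion id).card =
      4 * (A4.filter (fun s => cs C s = q)).card := by
  rw [card_biUnion]
  · rw [sum_const_nat (m := 4), mul_comm]
    intro t ht
    exact mem_A4.mp (mem_filter.mp ht).1
  · intro s hs t ht hne
    rw [mem_coe, mem_filter, mem_A4] at hs ht
    exact disj4 hmin hs.1 ht.1 hne (hs.2.trans ht.2.symm)

theorem bound (hι : Fintype.card ι = 24) (q : (ι → ZMod 2) ⧸ C) :
    6 * (A3.filter (fun s => cs C s = q)).card + (A4.filter (fun s => cs C s = q)).card ≤ 6 := by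
  by_cases h : (A3.filter (fun s => cs C s = q)).Nonempty
  · obtain ⟨s, hs⟩ := h
    rw [mem_filter, mem_A3] at hs
    have h3 : A3.filter (fun s => cs C s = q) = {s} := by
      ext t
      rw [mem_filter, mem_A3, mem_singleton]
      constructor
      · rintro ⟨ht, htq⟩
        exact (eq3 hmin hs.1 (by omega) (hs.2.trans htq.symm)).symm
      · rintro rfl
        exact hs
    have h4 : A4.filter (fun s => cs C s = q) = ∅ := by
      rw [filter_eq_empty_iff]
      intro t ht htq
      rw [mem_A4] at ht
      have := eq3 hmin hs.1 (by omega) (hs.2.trans htq.symm)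
      rw [this] at hs
      omega
    rw [h3, h4]
    simp
  · rw [not_nonempty_iff_eq_empty] at h
    rw [h, card_empty, mul_zero, zero_add]
    have h1 := fibre_union hmin q
    have h2 := card_le_univ ((A4.filter (fun s => cs C s = q)).biUnion id)
    rw [hι] at h2
    omega

theorem all_eq (hι : Fintype.card ι = 24) (hC : Nat.card C = 4096) (q : (ι → ZMod 2) ⧸ C) :
    6 * (A3.filter (fun s => cs C s = q)).card + (A4.filter (fun s => cs C s = q)).card = 6 := by
  haveI : Fintype ((ι → ZMod 2) ⧸ C) := Fintype.ofFinite _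
  have hsum : ∑ q : (ι → ZMod 2) ⧸ C, (6 * (A3.filter (fun s => cs C s = q)).card +
      (A4.filter (fun s => cs C s = q)).card) = ∑ _q : (ι → ZMod 2) ⧸ C, 6 := by
    have e3 : (A3 : Finset (Finset ι)).card =
        ∑ q : (ι → ZMod 2) ⧸ C, (A3.filter (fun s => cs C s = q)).card := by
      convert card_eq_sum_card_fiberwise (f := cs C) (s := A3) (t := univ)
        (fun _ _ => mem_coe.mpr (mem_univ _))
    have e4 : (A4 : Finset (Finset ι)).card =
        ∑ q : (ι → ZMod 2) ⧸ C, (A4.filter (fun s => cs C s = q)).card := by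
      convert card_eq_sum_card_fiberwise (f := cs C) (s := A4) (t := univ)
        (fun _ _ => mem_coe.mpr (mem_univ _))
    rw [sum_add_distrib, ← mul_sum, ← e3, ← e4, card_A3 hι, card_A4 hι, sum_const,
      card_univ, ← Nat.card_eq_fintype_card, card_quot hι hC]
    norm_num
  exact (sum_eq_sum_iff_of_le (fun q _ => bound hmin hι q)).mp hsum q (mem_univ q)

theorem exists_tetrad (hι : Fintype.card ι = 24) (hC : Nat.card C = 4096) (T : Finset ι)
    (hT : T.card = 4) (p : ι) (hp : p ∉ T) :
    ∃ T' : Finset ι, T'.card = 4 ∧ Disjoint T T' ∧ p ∈ T' ∧ ind (T ∪ T') ∈ C := by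
  have h1 := all_eq hmin hι hC (cs C T)
  have h2 : T ∈ A4.filter (fun s => cs C s = cs C T) := mem_filter.mpr ⟨mem_A4.mpr hT, rfl⟩
  have h3 : 0 < (A4.filter (fun s => cs C s = cs C T)).card := card_pos.mpr ⟨T, h2⟩
  have h4 := fibre_union hmin (cs C T)
  have h5 : (A4.filter (fun s => cs C s = cs C T)).biUnion id = univ := by
    apply eq_univ_of_card
    rw [h4, hι]
    omega
  have h6 : p ∈ (A4.filter (fun s => cs C s = cs C T)).biUnion id := by
    rw [h5]
    exact mem_univ p
  obtain ⟨T', hT', hpT'⟩ := mem_biUnion.mp h6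
  rw [mem_filter, mem_A4] at hT'
  have hne : T ≠ T' := by
    rintro rfl
    exact hp hpT'
  have hd := disj4 hmin hT hT'.1 hne hT'.2.symm
  refine ⟨T', hT'.1, hd, hpT', ?_⟩
  have h7 := cs_eq_iff.mp hT'.2.symm
  rwa [hd.symmDiff_eq_sup] at h7

/-- the words of weight eight. -/
def oct (C : Submodule (ZMod 2) (ι → ZMod 2)) : Set (Finset ι) := {b | ind b ∈ C ∧ b.card = 8}

theorem steiner (hι : Fintype.card ι = 24) (hC : Nat.card C = 4096) :
    Cfsg.IsSteinerSystem 5 8 (oct C) := by
  refine ⟨fun b hb => hb.2, fun s hs => ?_⟩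
  obtain ⟨p, hp⟩ : s.Nonempty := card_pos.mp (by omega)
  obtain ⟨T', hT', hd, hpT', hmem⟩ := exists_tetrad hmin hι hC (s.erase p)
    (by rw [card_erase_of_mem hp, hs]) p (notMem_erase p s)
  have hsub : s ⊆ s.erase p ∪ T' := by
    intro x hx
    by_cases hxp : x = p
    · rw [hxp]
      exact mem_union_right _ hpT'
    · exact mem_union_left _ (mem_erase.mpr ⟨hxp, hx⟩)
  refine ⟨s.erase p ∪ T', ⟨⟨hmem, ?_⟩, hsub⟩, ?_⟩
  · rw [card_union_of_disjoint hd, card_erase_of_mem hp, hs, hT']
  · rintro b ⟨⟨hb1, hb2⟩, hb3⟩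
    by_contra hne
    have hc : cs C b = cs C (s.erase p ∪ T') := by
      rw [cs_eq_iff, ← ind_add]
      exact C.add_mem hb1 hmem
    have h1 := far hmin hne hc
    have h2 := card_symmDiff' b (s.erase p ∪ T')
    have h3 : (s.erase p ∪ T').card = 8 := by
      rw [card_union_of_disjoint hd, card_erase_of_mem hp, hs, hT']
    have h4 : s.card ≤ (b ∩ (s.erase p ∪ T')).card := card_le_card (subset_inter hb3 hsub)
    omega

end count

end Cfsg.Agent.Lib.Helper3.CL
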