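import Mathlib
import Cfsg.Agent.Lib.Helper3.RankData

set_option autoImplicit false

namespace Cfsg.Agent.Lib.Helper3

open Cfsg
open scoped Pointwise

/-- a set together with its complement. -/
def cpair (x : Finset GolayPt) : Finset (Finset GolayPt) := {x, xᶜ}

theorem smul_cpair (g : Equiv.Perm GolayPt) (x : Finset GolayPt) :
    g • cpair x = cpair (g • x) := by
  unfold cpair
  have h : g • xᶜ = (g • x)ᶜ := by
    ext p
    rw [Finset.mem_compl, ← Finset.inv_smul_mem_iff, ← Finset.inv_smul_mem_iff, Finset.mem_compl]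
  rw [Finset.smul_finset_insert, Finset.smul_finset_singleton, h]

theorem cpair_compl (x : Finset GolayPt) : cpair xᶜ = cpair x := by
  unfold cpair
  rw [compl_compl, Finset.pair_comm]

theorem cpair_eq_iff {x x' : Finset GolayPt} : cpair x = cpair x' ↔ x = x' ∨ x = x'ᶜ := by
  constructor
  · intro h
    have : x ∈ cpair x' := by rw [← h]; simp [cpair]
    simpa [cpair] using this
  · rintro (rfl | rfl)
    · rfl
    · exact cpair_compl _

theorem compl_mem_dodecads {x : Finset GolayPt} (hx : x ∈ dodecads) : xᶜ ∈ dodecads := by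
  rw [mem_dodecads_iff] at *
  have h1 : InC 0xFFFFFF := by decide +kernel
  rw [mask_compl]
  refine ⟨inC_xor hx.1 h1, ?_⟩
  rw [← mask_compl, ← card_eq_pc, Finset.card_compl, card_eq_pc, hx.2]
  rfl

/-- dodecads through the first point, with a condition on the intersection with the dodecad of
squares. -/
def dodQ (a b x : ℕ) : Bool :=
  Nat.beq (pcF x) 12 && Nat.beq (Nat.land 1 x) 1 &&
    (Nat.beq (pcF (Nat.land 0x5335f x)) a || Nat.beq (pcF (Nat.land 0x5335f x)) b)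

theorem cnt_dodQ_48 : countRange (fun c => dodQ 4 8 (encF c)) 12 0 = 495 := by decide +kernel
theorem cnt_dodQ_6 : countRange (fun c => dodQ 6 6 (encF c)) 12 0 = 792 := by decide +kernel

/-- dodecads through the first point. -/
def dodP (x : ℕ) : Bool := Nat.beq (pcF x) 12 && Nat.beq (Nat.land 1 x) 1

theorem cnt_dodP : countRange (fun c => dodP (encF c)) 12 0 = 1288 := by decide +kernel

theorem land_one_iff (s : Finset GolayPt) : Nat.land 1 (mask s) = 1 ↔ pt 0 ∈ s := by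
  rw [mem_iff_testBit, idx_pt (by norm_num)]
  show 1 &&& mask s = 1 ↔ _
  rw [Nat.and_comm, Nat.and_one_is_mod, Nat.testBit_zero]
  simp

theorem cpair_injOn : Set.InjOn cpair {x | pt 0 ∈ x} := by
  intro x hx x' hx' h
  rcases cpair_eq_iff.1 h with h | h
  · exact h
  · exfalso
    have h1 : pt 0 ∈ x := hx
    rw [h, Finset.mem_compl] at h1
    exact h1 hx'

theorem orbit_cpair {d : Finset GolayPt} (hd : d ∈ dodecads) :
    MulAction.orbit M24 (cpair d) = cpair '' {x | x ∈ dodecads ∧ pt 0 ∈ x} := by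
  ext X
  rw [mem_orbit_M24_iff]
  constructor
  · rintro ⟨g, hg, rfl⟩
    rw [smul_cpair]
    by_cases h : pt 0 ∈ g • d
    · exact ⟨g • d, ⟨smul_mem_dodecads hg hd, h⟩, rfl⟩
    · exact ⟨(g • d)ᶜ, ⟨compl_mem_dodecads (smul_mem_dodecads hg hd), by simpa using h⟩,
        cpair_compl _⟩
  · rintro ⟨x, ⟨hx, _⟩, rfl⟩
    obtain ⟨g, hg, h⟩ := trans_dodecads hd hx
    exact ⟨g, hg, by rw [smul_cpair, h]⟩

theorem ncard_dodP : {x : Finset GolayPt | x ∈ dodecads ∧ pt 0 ∈ x}.ncard = 1288 := by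
  rw [← cnt_dodP, ← ncard_codeF dodP]
  congr 1
  ext s
  simp only [dodecads, wordsOfWeight, Set.mem_ofPred_eq, dodP, Bool.and_eq_true, Nat.beq_eq,
    ← card_eq_pcF, land_one_iff, and_assoc]

theorem ncard_dodQ (a b : ℕ) : {x : Finset GolayPt | x ∈ dodecads ∧ pt 0 ∈ x ∧
    ((D0 ∩ x).card = a ∨ (D0 ∩ x).card = b)}.ncard = countRange (fun c => dodQ a b (encF c)) 12 0 := by
  rw [← ncard_codeF (dodQ a b)]
  congr 1
  ext s
  simp only [dodecads, wordsOfWeight, Set.mem_ofPred_eq, dodQ, Bool.and_eq_true, Nat.beq_eq,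
    Bool.or_eq_true, land_mask _ (show (0x5335f : ℕ) < 2 ^ 24 by norm_num),
    ← card_eq_pcF, land_one_iff, and_assoc]
  rfl

theorem dodecad_pair_trans {d d' d'' : Finset GolayPt} (hd : d ∈ dodecads) (hd' : d' ∈ dodecads)
    (hd'' : d'' ∈ dodecads) (h : (d ∩ d').card = (d ∩ d'').card) :
    ∃ g ∈ M24, g • d = d ∧ g • d' = d'' := by
  obtain ⟨u, hu, huo⟩ := dodecad_to_D0 hd
  obtain ⟨σ', hσ', h'⟩ := dodecad_to_rep (smul_mem_dodecads hu hd')
  obtain ⟨σ'', hσ'', h''⟩ := dodecad_to_rep (smul_mem_dodecads hu hd'')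
  refine transfer_pair (S := StabM [0x5335f]) (Y0 := D0) (fun σ hσ => StabM_one hσ) hu huo hσ' hσ'' ?_
  apply mask_injective
  rw [h', h'', ← huo, card_smul_inter, card_smul_inter, h]

theorem dodecad_inter_cases {d d' : Finset GolayPt} (hd : d ∈ dodecads) (hd' : d' ∈ dodecads) :
    d' = d ∨ (d ∩ d').card = 0 ∨ (d ∩ d').card = 4 ∨ (d ∩ d').card = 6 ∨ (d ∩ d').card = 8 := by
  have hw := code_weights _ (supports_symmDiff hd.1 hd'.1)
  have hc := card_symmDiff_add d d'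
  have e1 : d.card = 12 := hd.2
  have e2 : d'.card = 12 := hd'.2
  by_cases h12 : (d ∩ d').card = 12
  · left
    have h1 : d ∩ d' = d := Finset.eq_of_subset_of_card_le Finset.inter_subset_left (by omega)
    have h2 : d ∩ d' = d' := Finset.eq_of_subset_of_card_le Finset.inter_subset_right (by omega)
    rw [← h2, h1]
  · right; omega

theorem card_inter_compl (d x : Finset GolayPt) : (d ∩ xᶜ).card + (d ∩ x).card = d.card := by
  rw [← Finset.sdiff_eq_inter_compl]
  exact Finset.card_sdiff_add_card_inter d x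

theorem isCoatom_stab_cpair_D0 : IsCoatom (MulAction.stabilizer M24 (cpair D0)) := by
  have h0 : pt 0 ∈ D0 := by rw [D0, mem_unmask]; decide
  apply isCoatom_stabilizer_of_classes (cpair D0)
    (fun i : Fin 2 => cpair '' {x | x ∈ dodecads ∧ pt 0 ∈ x ∧
      ((D0 ∩ x).card = ![4, 6] i ∨ (D0 ∩ x).card = ![8, 6] i)}) ![495, 792] 1288
  · rw [orbit_cpair D0_mem, Set.InjOn.ncard_image (cpair_injOn.mono (fun x hx => hx.2)), ncard_dodP]
  · norm_num
  · intro X hX
    rw [orbit_cpair D0_mem] at hX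
    obtain ⟨x, ⟨hx, hx0⟩, rfl⟩ := hX
    rcases dodecad_inter_cases D0_mem hx with h | h | h | h | h
    · left; rw [h]
    · exfalso
      have : pt 0 ∈ D0 ∩ x := Finset.mem_inter.2 ⟨h0, hx0⟩
      rw [Finset.card_eq_zero.1 h] at this
      simp at this
    · exact Or.inr ⟨0, x, ⟨hx, hx0, Or.inl h⟩, rfl⟩
    · exact Or.inr ⟨1, x, ⟨hx, hx0, Or.inl h⟩, rfl⟩
    · exact Or.inr ⟨0, x, ⟨hx, hx0, Or.inr h⟩, rfl⟩
  · rintro i _ ⟨x, ⟨hx, hx0, _⟩, rfl⟩
    rw [orbit_cpair D0_mem]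
    exact ⟨x, ⟨hx, hx0⟩, rfl⟩
  · rintro i ⟨x, ⟨hx, hx0, hc⟩, h⟩
    have h1 := cpair_injOn (show x ∈ {x | pt 0 ∈ x} from hx0) (show D0 ∈ {x | pt 0 ∈ x} from h0) h
    rw [h1, Finset.inter_self, D0_mem.2] at hc
    fin_cases i <;> simp at hc
  · intro i j hij
    rw [Set.disjoint_left]
    rintro _ ⟨x, ⟨_, hx0, hc⟩, rfl⟩ ⟨x', ⟨_, hx0', hc'⟩, h⟩
    have h1 := cpair_injOn (show x' ∈ {x | pt 0 ∈ x} from hx0') (show x ∈ {x | pt 0 ∈ x} from hx0) h
    rw [h1] at hc'
    apply hij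
    fin_cases i <;> fin_cases j <;> simp_all
  · rintro i _ ⟨x, ⟨hx, _, hc⟩, rfl⟩ _ ⟨x', ⟨hx', _, hc'⟩, rfl⟩
    rw [exists_stab_iff]
    by_cases he : (D0 ∩ x).card = (D0 ∩ x').card
    · obtain ⟨g, hg, h1, h2⟩ := dodecad_pair_trans D0_mem hx hx' he
      exact ⟨g, hg, by rw [smul_cpair, h1], by rw [smul_cpair, h2]⟩
    · have h3 := card_inter_compl D0 x'
      rw [D0_mem.2] at h3
      have he' : (D0 ∩ x).card = (D0 ∩ x'ᶜ).card := by
        fin_cases i <;> simp at hc hc' <;> omega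
      obtain ⟨g, hg, h1, h2⟩ := dodecad_pair_trans D0_mem hx (compl_mem_dodecads hx') he'
      exact ⟨g, hg, by rw [smul_cpair, h1], by rw [smul_cpair, h2, cpair_compl]⟩
  · intro i
    rw [Set.InjOn.ncard_image (cpair_injOn.mono (fun x hx => hx.2.1)), ncard_dodQ]
    fin_cases i
    · exact cnt_dodQ_48
    · exact cnt_dodQ_6
  · decide

end Cfsg.Agent.Lib.Helper3
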