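import Mathlib
import Cfsg.Agent.Lib.Helper3.SubsetData

set_option autoImplicit false

namespace Cfsg.Agent.Lib.Helper3

open Cfsg
open scoped Pointwise

/-- a set of at most five points can be moved to the set of the first base points. -/
theorem set_to_base (T : Finset GolayPt) {k m : ℕ} (hT : T.card = k) (hk : k ≤ 5)
    (hm : m = 2 ^ k - 1) : ∃ u ∈ M24, u • T = unmask m := by
  obtain ⟨u, hu, h1, _⟩ := exists_map_list Finset.univ (by decide) T.toList T.nodup_toList
    (by simp) (by rw [Finset.length_toList, hT]; exact hk)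
  refine ⟨u, hu, ?_⟩
  apply Finset.eq_of_subset_of_card_le
  · intro q hq
    obtain ⟨p, hp, rfl⟩ := Finset.mem_smul_finset.1 hq
    obtain ⟨j, hj, rfl⟩ := List.mem_iff_getElem.1 (Finset.mem_toList.2 hp)
    have hj' : j < k := by rwa [Finset.length_toList, hT] at hj
    show u _ ∈ _
    rw [h1 j hj, mem_unmask, idx_bpt, hm, Nat.testBit_two_pow_sub_one]
    have : bidx j = j := by
      have : j < 5 := by omega
      interval_cases j <;> rfl
    rw [this]; simpa using hj'
  · rw [Finset.card_smul_finset, hT, hm, card_eq_pc, mask_unmask]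
    · interval_cases k <;> decide +kernel
    · have h0 : 0 < 2 ^ k := by positivity
      have h2 : 2 ^ k ≤ 2 ^ 24 := Nat.pow_le_pow_right (by norm_num) (by omega)
      omega

theorem exists_octad_smul_iff {u : Equiv.Perm GolayPt} (hu : u ∈ M24) (W : Finset GolayPt) :
    (∃ o ∈ octads, u • W ⊆ o) ↔ ∃ o ∈ octads, W ⊆ o := by
  constructor
  · rintro ⟨o, ho, h⟩
    refine ⟨u⁻¹ • o, smul_mem_octads (M24.inv_mem hu) ho, ?_⟩
    rw [← Finset.smul_finset_subset_smul_finset_iff (a := u), smul_inv_smul]; exact h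
  · rintro ⟨o, ho, h⟩
    exact ⟨u • o, smul_mem_octads hu ho, Finset.smul_finset_subset_smul_finset_iff.2 h⟩

open Classical in
theorem clsT3_eq (V : Finset GolayPt) : clsT3 (mask V) =
    2 * (unmask 7 ∩ V).card + (if ∃ o ∈ octads, unmask 7 ∪ V ⊆ o then 1 else 0) := by
  unfold clsT3
  rw [land_mask _ (by norm_num), ← card_eq_pcF]
  show 2 * _ + _ = _
  congr 1
  by_cases h : ∃ o ∈ octads, unmask 7 ∪ V ⊆ o
  · rw [if_pos h, (inAny_iff (by norm_num) L21_1 L21_2 V).1 h]; rfl
  · rw [if_neg h]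
    have : inAny L21 (mask V) = false := by
      rw [← Bool.not_eq_true]
      exact fun hc => h ((inAny_iff (by norm_num) L21_1 L21_2 V).2 hc)
    rw [this]; rfl

theorem triple_trans {V V' : Finset GolayPt} (hV : V.card = 3) (hV' : V'.card = 3)
    (h : clsT3 (mask V) = clsT3 (mask V')) : ∃ g ∈ StabM [7], g • V = V' := by
  obtain ⟨σ, hσ, h1⟩ := orbit_card gensT3 orbT3 V hV
  obtain ⟨σ', hσ', h1'⟩ := orbit_card gensT3 orbT3 V' hV'
  unfold finT3 at h1 h1'
  rw [Nat.beq_eq] at h1 h1'
  refine ⟨σ'⁻¹ * σ, Subgroup.mul_mem _ (Subgroup.inv_mem _ hσ') hσ, ?_⟩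
  rw [mul_smul, inv_smul_eq_iff]
  apply mask_injective
  rw [h1, h1', h]

theorem ncard_clsT3 (i : ℕ) : {V : Finset GolayPt | V.card = 3 ∧ clsT3 (mask V) = i}.ncard =
    countW (fun x => Nat.beq (clsT3 x) i) 24 3 0 := by
  rw [← ncard_card]
  congr 1
  ext V
  simp only [Set.mem_ofPred_eq, Nat.beq_eq]

theorem orbit_M24_card {T : Finset GolayPt} {k : ℕ} (hT : T.card = k) (hk : k ≤ 5) :
    MulAction.orbit M24 T = {U | U.card = k} := by
  ext U
  rw [mem_orbit_M24_iff]
  constructor
  · rintro ⟨g, _, rfl⟩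
    show (g • T).card = k
    rw [Finset.card_smul_finset, hT]
  · intro hU
    obtain ⟨u, hu, h1⟩ := set_to_base T hT hk rfl
    obtain ⟨v, hv, h2⟩ := set_to_base U hU hk rfl
    exact ⟨v⁻¹ * u, M24.mul_mem (M24.inv_mem hv) hu, by rw [mul_smul, h1, ← h2, inv_smul_smul]⟩

theorem ncard_card_eq (k : ℕ) : {U : Finset GolayPt | U.card = k}.ncard = Nat.choose 24 k := by
  have : {U : Finset GolayPt | U.card = k} = ↑(Finset.powersetCard k (Finset.univ : Finset GolayPt)) := by
    ext U; simp [Finset.mem_powersetCard]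
  rw [this, Set.ncard_coe_finset, Finset.card_powersetCard]
  rfl

theorem clsT3_cases : allW (fun x => Nat.beq x 7 || Nat.beq (clsT3 x) 5 || Nat.beq (clsT3 x) 3 ||
    Nat.beq (clsT3 x) 1 || Nat.beq (clsT3 x) 0) 24 3 0 = true := by decide +kernel

theorem isCoatom_stab_T3 : IsCoatom (MulAction.stabilizer M24 (unmask 7)) := by
  have hc7 : (unmask 7).card = 3 := by
    rw [card_eq_pc, mask_unmask (by norm_num)]; decide +kernel
  apply isCoatom_stabilizer_of_classes (unmask 7)
    (fun i : Fin 4 => {V | V.card = 3 ∧ clsT3 (mask V) = ![5, 3, 1, 0] i}) ![63, 630, 210, 1120] 2024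
  · rw [orbit_M24_card hc7 (by norm_num), ncard_card_eq]; rfl
  · norm_num
  · intro x hx
    rw [orbit_M24_card hc7 (by norm_num)] at hx
    have h := forall_card _ 3 clsT3_cases x hx
    simp only [Bool.or_eq_true, Nat.beq_eq] at h
    rcases h with (((h | h) | h) | h) | h
    · left
      apply mask_injective; rw [h, mask_unmask (by norm_num)]
    · exact Or.inr ⟨0, hx, h⟩
    · exact Or.inr ⟨1, hx, h⟩
    · exact Or.inr ⟨2, hx, h⟩
    · exact Or.inr ⟨3, hx, h⟩
  · intro i x hx
    rw [orbit_M24_card hc7 (by norm_num)]; exact hx.1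
  · intro i hx
    have h1 := hx.2
    rw [mask_unmask (by norm_num)] at h1
    have h2 : clsT3 7 = 7 := by decide +kernel
    rw [h2] at h1
    fin_cases i <;> simp at h1
  · intro i j hij
    rw [Set.disjoint_left]
    intro x hx hx'
    apply hij
    have := hx.2.symm.trans hx'.2
    fin_cases i <;> fin_cases j <;> simp_all
  · intro i x hx x' hx'
    rw [exists_stab_iff]
    obtain ⟨g, hg, h⟩ := triple_trans hx.1 hx'.1 (hx.2.trans hx'.2.symm)
    exact ⟨g, hg.1, hg.2 7 (by simp), h⟩
  · intro i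
    rw [ncard_clsT3]
    fin_cases i
    · exact cntT3_5
    · exact cntT3_3
    · exact cntT3_1
    · exact cntT3_0
  · decide

end Cfsg.Agent.Lib.Helper3
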