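import Mathlib
import Cfsg.Prelude.Def_SporadicCombinatorics
import Cfsg.Agent.Lib.Helper3.TripleStab

set_option autoImplicit false

namespace Cfsg.Agent.Lib.Helper3

open Cfsg
open scoped Pointwise

/-- canonical representative of the coset of the code containing `x`. -/
def cz (x : ℕ) : ℕ := Nat.xor x (encF (Nat.land x 4095))

theorem xor_swap {a b c d : ℕ} (h : a ^^^ b = c ^^^ d) : a ^^^ c = b ^^^ d := by
  apply Nat.eq_of_testBit_eq; intro i
  have := congrArg (fun n => n.testBit i) h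
  simp only [Nat.testBit_xor] at this ⊢
  revert this
  cases a.testBit i <;> cases b.testBit i <;> cases c.testBit i <;> cases d.testBit i <;> simp

theorem cz_eq (x : ℕ) : cz x = x ^^^ enc (x % 4096) := by
  unfold cz
  have h1 : Nat.land x 4095 = x % 4096 := Nat.and_two_pow_sub_one_eq_mod x 12
  rw [h1, encF_eq _ (Nat.mod_lt _ (by norm_num))]
  rfl

theorem cz_eq_iff (x y : ℕ) : cz x = cz y ↔ InC (x ^^^ y) := by
  rw [cz_eq, cz_eq]
  have hm : (x ^^^ y) % 4096 = x % 4096 ^^^ y % 4096 := Nat.xor_mod_two_pow (n := 12)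
  constructor
  · intro h
    have h1 := xor_swap h
    rw [← enc_xor] at h1
    unfold InC
    rw [hm]; exact h1
  · intro h
    unfold InC at h
    rw [hm, enc_xor] at h
    exact xor_swap h

theorem coset_iff (s t : Finset GolayPt) : cz (mask s) = cz (mask t) ↔ symmDiff s t ∈ CS := by
  rw [cz_eq_iff, ← mask_symmDiff, mem_supports_iff]

theorem smul_CS_iff {g : Equiv.Perm GolayPt} (hg : g ∈ M24) {s : Finset GolayPt} :
    g • s ∈ CS ↔ s ∈ CS :=
  ⟨fun h => by simpa using smul_mem_CS (M24.inv_mem hg) h, smul_mem_CS hg⟩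

theorem smul_symmDiff (g : Equiv.Perm GolayPt) (s t : Finset GolayPt) :
    g • symmDiff s t = symmDiff (g • s) (g • t) := by
  ext p
  simp only [Finset.mem_symmDiff, ← Finset.inv_smul_mem_iff]

theorem coset_smul_iff {g : Equiv.Perm GolayPt} (hg : g ∈ M24) (s t : Finset GolayPt) :
    cz (mask (g • s)) = cz (mask (g • t)) ↔ cz (mask s) = cz (mask t) := by
  rw [coset_iff, coset_iff, ← smul_symmDiff, smul_CS_iff hg]

/-- the tetrads congruent to `t` modulo the code. -/
def sextetOf (t : Finset GolayPt) : Finset (Finset GolayPt) :=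
  (Finset.powersetCard 4 Finset.univ).filter (fun u => cz (mask u) = cz (mask t))

theorem mem_sextetOf {t u : Finset GolayPt} :
    u ∈ sextetOf t ↔ u.card = 4 ∧ cz (mask u) = cz (mask t) := by
  simp [sextetOf, Finset.mem_powersetCard]

theorem smul_sextetOf {g : Equiv.Perm GolayPt} (hg : g ∈ M24) (t : Finset GolayPt) :
    g • sextetOf t = sextetOf (g • t) := by
  ext u
  rw [← Finset.inv_smul_mem_iff, mem_sextetOf, mem_sextetOf, Finset.card_smul_finset,
    ← coset_smul_iff hg, smul_inv_smul]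

theorem cnt_sextet0 : countW (fun x => Nat.beq (cz x) (cz 15)) 24 4 0 = 6 := by decide +kernel

theorem card_sextetOf {t : Finset GolayPt} (ht : t.card = 4) : (sextetOf t).card = 6 := by
  obtain ⟨u, hu, h⟩ := set_to_base t ht (by norm_num) (m := 15) rfl
  rw [← Finset.card_smul_finset u, smul_sextetOf hu, h, ← cnt_sextet0, ← ncard_card,
    ← Set.ncard_coe_finset]
  congr 1
  ext v
  simp only [Finset.mem_coe, mem_sextetOf, Set.mem_ofPred_eq, Nat.beq_eq,
    mask_unmask (show (15 : ℕ) < 2 ^ 24 by norm_num)]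

theorem self_mem_sextetOf {t : Finset GolayPt} (ht : t.card = 4) : t ∈ sextetOf t :=
  mem_sextetOf.2 ⟨ht, rfl⟩

theorem tetrads_disjoint {u v : Finset GolayPt} (hu : u.card = 4) (hv : v.card = 4)
    (h : cz (mask u) = cz (mask v)) (hne : u ≠ v) : Disjoint u v ∧ u ∪ v ∈ octads := by
  rw [coset_iff] at h
  have hw := code_weights _ h
  have hc := card_symmDiff_add u v
  have h0 : (symmDiff u v).card ≠ 0 := by
    intro h0
    rw [Finset.card_eq_zero] at h0
    exact hne (symmDiff_eq_bot.1 h0)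
  have h1 : (u ∩ v).card = 0 := by omega
  have h2 : Disjoint u v := by
    rw [Finset.disjoint_iff_inter_eq_empty]; exact Finset.card_eq_zero.1 h1
  refine ⟨h2, ?_⟩
  have h3 : symmDiff u v = u ∪ v := Disjoint.symmDiff_eq_sup h2
  rw [← h3]
  exact ⟨h, by omega⟩

theorem sextetOf_mem {t : Finset GolayPt} (ht : t.card = 4) : sextetOf t ∈ sextets := by
  refine ⟨card_sextetOf ht, fun u hu => (mem_sextetOf.1 hu).1, ?_⟩
  intro u hu v hv hne
  obtain ⟨hu1, hu2⟩ := mem_sextetOf.1 hu
  obtain ⟨hv1, hv2⟩ := mem_sextetOf.1 hv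
  exact (tetrads_disjoint hu1 hv1 (hu2.trans hv2.symm) hne).2

theorem eq_sextetOf {S : Finset (Finset GolayPt)} (hS : S ∈ sextets) {t : Finset GolayPt}
    (ht : t ∈ S) : S = sextetOf t := by
  obtain ⟨h6, h4, hoct⟩ := hS
  apply Finset.eq_of_subset_of_card_le
  · intro u hu
    rw [mem_sextetOf]
    refine ⟨h4 u hu, ?_⟩
    by_cases hne : u = t
    · rw [hne]
    · have h1 := hoct u hu t ht hne
      have h2 : Disjoint u t := by
        rw [← Finset.card_union_eq_card_add_card, h1.2, h4 u hu, h4 t ht]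
      rw [coset_iff, Disjoint.symmDiff_eq_sup h2]
      exact h1.1
  · rw [card_sextetOf (h4 t ht), h6]

theorem sextetOf_eq_iff {t t' : Finset GolayPt} (ht : t.card = 4) :
    sextetOf t = sextetOf t' ↔ cz (mask t) = cz (mask t') := by
  constructor
  · intro h
    have := self_mem_sextetOf ht
    rw [h] at this
    exact (mem_sextetOf.1 this).2
  · intro h
    ext u
    rw [mem_sextetOf, mem_sextetOf, h]

theorem sextet_covers {S : Finset (Finset GolayPt)} (hS : S ∈ sextets) (p : GolayPt) :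
    ∃ t ∈ S, p ∈ t := by
  have hd : ∀ u ∈ S, ∀ v ∈ S, u ≠ v → Disjoint u v := by
    intro u hu v hv hne
    have h1 := hS.2.2 u hu v hv hne
    rw [← Finset.card_union_eq_card_add_card, h1.2, hS.2.1 u hu, hS.2.1 v hv]
  have hc : (S.biUnion id).card = 24 := by
    have h1 : (S.biUnion id).card = ∑ u ∈ S, (id u).card :=
      Finset.card_biUnion (fun u hu v hv hne => hd u hu v hv hne)
    have h2 : ∑ u ∈ S, (id u).card = ∑ _u ∈ S, 4 :=
      Finset.sum_congr rfl (fun u hu => hS.2.1 u hu)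
    rw [h1, h2, Finset.sum_const, hS.1]
    rfl
  have hu : S.biUnion id = Finset.univ := by
    apply Finset.eq_univ_of_card
    rw [hc]; rfl
  have := Finset.mem_univ p
  rw [← hu, Finset.mem_biUnion] at this
  exact this

theorem sextets_eq_image :
    sextets = sextetOf '' {t : Finset GolayPt | t.card = 4 ∧ pt 23 ∈ t} := by
  ext S
  constructor
  · intro hS
    obtain ⟨t, ht, hp⟩ := sextet_covers hS (pt 23)
    exact ⟨t, ⟨hS.2.1 t ht, hp⟩, (eq_sextetOf hS ht).symm⟩
  · rintro ⟨t, ⟨ht, _⟩, rfl⟩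
    exact sextetOf_mem ht

theorem sextetOf_injOn : Set.InjOn sextetOf {t : Finset GolayPt | t.card = 4 ∧ pt 23 ∈ t} := by
  rintro t ⟨ht, hp⟩ t' ⟨ht', hp'⟩ h
  by_contra hne
  have h1 := (tetrads_disjoint ht ht' ((sextetOf_eq_iff ht).1 h) hne).1
  exact Finset.disjoint_left.1 h1 hp hp'

theorem smul_mem_sextets {g : Equiv.Perm GolayPt} (hg : g ∈ M24) {S : Finset (Finset GolayPt)}
    (hS : S ∈ sextets) : g • S ∈ sextets := by
  obtain ⟨t, ht, _⟩ := sextet_covers hS (pt 23)
  rw [eq_sextetOf hS ht, smul_sextetOf hg]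
  exact sextetOf_mem (by rw [Finset.card_smul_finset]; exact hS.2.1 t ht)

end Cfsg.Agent.Lib.Helper3
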