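import Mathlib
import Cfsg.Agent.Lib.Helper3.Coded
import Cfsg.Agent.Lib.Helper3.Sextet

set_option autoImplicit false

namespace Cfsg.Agent.Lib.Helper3

open Cfsg
open scoped Pointwise

/-- the sixteen packed tables are tables of elements of `S`. -/
def GensIn (S : Subgroup (Equiv.Perm GolayPt)) (ws : List (List ℕ)) (TT : ℕ) : Prop :=
  ∀ d < 16, wperm (ws.getD d []) ∈ S ∧
    ∀ s : Finset GolayPt, mask (wperm (ws.getD d []) • s) = pmU (tabOf TT d) (mask s)

theorem gensIn_of_chk {ms : List ℕ} {ws : List (List ℕ)} {TT : ℕ}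
    (h : chkGens ms ws TT = true) : GensIn (StabM ms) ws TT := by
  intro d hd
  unfold chkGens at h
  rw [List.all_eq_true] at h
  exact chkGen_sound (h d (List.mem_range.2 hd))

/-- apply the word `w`, four bits per letter. -/
def descendN (TT : ℕ) : ℕ → ℕ → ℕ → ℕ
  | 0, _, x => x
  | n+1, w, x => force (pmU (tabOf TT (Nat.land w 15)) x) (descendN TT n (Nat.shiftRight w 4))

theorem descendN_sound {S : Subgroup (Equiv.Perm GolayPt)} {ws : List (List ℕ)} {TT : ℕ}
    (hg : GensIn S ws TT) (n w : ℕ) :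
    ∃ σ ∈ S, ∀ s : Finset GolayPt, mask (σ • s) = descendN TT n w (mask s) := by
  induction n generalizing w with
  | zero => exact ⟨1, S.one_mem, fun s => by rw [one_smul]; rfl⟩
  | succ n ih =>
    have hd : Nat.land w 15 < 16 :=
      lt_of_le_of_lt (Nat.and_le_right (n := w) (m := 15)) (by norm_num)
    obtain ⟨h1, h2⟩ := hg _ hd
    obtain ⟨σ, hσ, h3⟩ := ih (Nat.shiftRight w 4)
    refine ⟨σ * wperm (ws.getD (Nat.land w 15) []), S.mul_mem hσ h1, fun s => ?_⟩
    rw [mul_smul, h3, h2, descendN, force_eq]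

/-- the family of sets with the given masks. -/
def famOf (L : List ℕ) : Finset (Finset GolayPt) := (L.map unmask).toFinset

/-- the stabiliser of a family of sets in the code's group. -/
def StabF (L : List ℕ) : Subgroup (Equiv.Perm GolayPt) :=
  M24 ⊓ MulAction.stabilizer (Equiv.Perm GolayPt) (famOf L)

/-- check of generators of the stabiliser of a family. -/
def chkGensF (L : List ℕ) (ws : List (List ℕ)) (TT : ℕ) : Bool :=
  chkGens [] ws TT && (List.range 16).all fun d => L.all fun m =>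
    Nat.blt m 16777216 && L.contains (pmU (tabOf TT d) m)

theorem gensIn_of_chkF {L : List ℕ} {ws : List (List ℕ)} {TT : ℕ}
    (h : chkGensF L ws TT = true) : GensIn (StabF L) ws TT := by
  unfold chkGensF at h
  rw [Bool.and_eq_true, List.all_eq_true] at h
  intro d hd
  obtain ⟨h1, h2⟩ := gensIn_of_chk h.1 d hd
  refine ⟨⟨h1.1, ?_⟩, h2⟩
  have h3 := h.2 d (List.mem_range.2 hd)
  rw [List.all_eq_true] at h3
  show wperm (ws.getD d []) • famOf L = famOf L
  apply Finset.eq_of_subset_of_card_le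
  · intro X hX
    obtain ⟨Z, hZ, rfl⟩ := Finset.mem_smul_finset.1 hX
    unfold famOf at hZ ⊢
    rw [List.mem_toFinset, List.mem_map] at hZ ⊢
    obtain ⟨m, hm, rfl⟩ := hZ
    have h4 := h3 m hm
    rw [Bool.and_eq_true] at h4
    have hm24 : m < 2 ^ 24 := by
      have := Nat.le_of_ble_eq_true h4.1
      omega
    refine ⟨pmU (tabOf TT d) m, by simpa using h4.2, ?_⟩
    apply mask_injective
    rw [h2, mask_unmask hm24, mask_unmask]
    rw [← mask_unmask hm24, ← h2]
    exact mask_lt _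
  · rw [Finset.card_smul_finset]

/-- four bit entries. -/
def lk4 (T i : ℕ) : ℕ := Nat.land (Nat.shiftRight T (Nat.mul 4 i)) 15

/-- twelve bit entries. -/
def lk12 (T i : ℕ) : ℕ := Nat.land (Nat.shiftRight T (Nat.mul 12 i)) 4095

/-- the word with index `i`: `B` bits per word, `M = 2 ^ B - 1`. -/
def wordAt (W B M i : ℕ) : ℕ := Nat.land (Nat.shiftRight W (Nat.mul B i)) M

/-! ### octads -/

/-- check for the octad with index `i`. -/
def chkOc (TT W B M CLS D RT k i : ℕ) : Bool :=
  bif Nat.blt (lk4 CLS i) k then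
    Nat.beq (pcF (encF i)) 8 &&
      Nat.beq (descendN TT D (wordAt W B M i) (encF i)) (encF (lk12 RT (lk4 CLS i)))
  else !Nat.beq (pcF (encF i)) 8

theorem octads_coded {CLS k : ℕ}
    (h : ∀ i < 4096, (lk4 CLS i < k ↔ pcF (encF i) = 8)) :
    octads = (fun c => unmask (encF c)) '' {i | i < 4096 ∧ lk4 CLS i < k} := by
  ext o
  constructor
  · intro ho
    have h1 := (mem_supports_iff o).1 ho.1
    have h2 : mask o % 4096 < 4096 := Nat.mod_lt _ (by norm_num)
    have h3 : encF (mask o % 4096) = mask o := by rw [encF_eq _ h2]; exact h1.symm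
    refine ⟨mask o % 4096, ⟨h2, (h _ h2).2 ?_⟩, ?_⟩
    · rw [h3, ← card_eq_pcF]; exact ho.2
    · show unmask (encF _) = o
      rw [h3, unmask_mask]
  · rintro ⟨i, ⟨hi, hc⟩, rfl⟩
    have h1 := (h i hi).1 hc
    show unmask (encF i) ∈ octads
    rw [mem_octads_iff, encF_eq i hi, mask_unmask (enc_lt i hi)]
    refine ⟨(inC_iff _).2 ⟨i, hi, rfl⟩, ?_⟩
    rw [← pcF_eq (enc_lt i hi), ← encF_eq i hi]; exact h1

theorem octads_injOn (P : ℕ → Prop) :
    Set.InjOn (fun c => unmask (encF c)) {i | i < 4096 ∧ P i} := by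
  rintro i ⟨hi, _⟩ j ⟨hj, _⟩ h
  have h1 : unmask (encF i) = unmask (encF j) := h
  rw [encF_eq i hi, encF_eq j hj] at h1
  have h2 := congrArg mask h1
  rw [mask_unmask (enc_lt i hi), mask_unmask (enc_lt j hj)] at h2
  rw [← enc_mod i hi, ← enc_mod j hj, h2]

end Cfsg.Agent.Lib.Helper3
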