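import Mathlib
import Cfsg.Agent.Lib.Helper3.TripleStab

set_option autoImplicit false

namespace Cfsg.Agent.Lib.Helper3

open Cfsg
open scoped Pointwise

theorem pair_trans2 {V V' : Finset GolayPt} (hV : V.card = 2) (hV' : V'.card = 2)
    (h : clsT2 (mask V) = clsT2 (mask V')) : ∃ g ∈ StabM [3], g • V = V' := by
  obtain ⟨σ, hσ, h1⟩ := orbit_card gensT2 orbT2 V hV
  obtain ⟨σ', hσ', h1'⟩ := orbit_card gensT2 orbT2 V' hV'
  unfold finT2 at h1 h1'
  rw [Nat.beq_eq] at h1 h1'
  refine ⟨σ'⁻¹ * σ, Subgroup.mul_mem _ (Subgroup.inv_mem _ hσ') hσ, ?_⟩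
  rw [mul_smul, inv_smul_eq_iff]
  apply mask_injective
  rw [h1, h1', h]

theorem ncard_clsT2 (i : ℕ) : {V : Finset GolayPt | V.card = 2 ∧ clsT2 (mask V) = i}.ncard =
    countW (fun x => Nat.beq (clsT2 x) i) 24 2 0 := by
  rw [← ncard_card]
  congr 1
  ext V
  simp only [Set.mem_ofPred_eq, Nat.beq_eq]

theorem clsT2_cases : allW (fun x => Nat.beq x 3 || Nat.beq (clsT2 x) 1 || Nat.beq (clsT2 x) 0)
    24 2 0 = true := by decide +kernel

theorem isCoatom_stab_T2 : IsCoatom (MulAction.stabilizer M24 (unmask 3)) := by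
  have hc : (unmask 3).card = 2 := by
    rw [card_eq_pc, mask_unmask (by norm_num)]; decide +kernel
  apply isCoatom_stabilizer_of_classes (unmask 3)
    (fun i : Fin 2 => {V | V.card = 2 ∧ clsT2 (mask V) = ![1, 0] i}) ![44, 231] 276
  · rw [orbit_M24_card hc (by norm_num), ncard_card_eq]; rfl
  · norm_num
  · intro x hx
    rw [orbit_M24_card hc (by norm_num)] at hx
    have h := forall_card _ 2 clsT2_cases x hx
    simp only [Bool.or_eq_true, Nat.beq_eq] at h
    rcases h with (h | h) | h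
    · left
      apply mask_injective; rw [h, mask_unmask (by norm_num)]
    · exact Or.inr ⟨0, hx, h⟩
    · exact Or.inr ⟨1, hx, h⟩
  · intro i x hx
    rw [orbit_M24_card hc (by norm_num)]; exact hx.1
  · intro i hx
    have h1 := hx.2
    rw [mask_unmask (by norm_num)] at h1
    have h2 : clsT2 3 = 2 := by decide +kernel
    rw [h2] at h1
    fin_cases i <;> simp at h1
  · intro i j hij
    rw [Set.disjoint_left]
    intro x hx hx'
    apply hij
    have := hx.2.symm.trans hx'.2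
    fin_cases i <;> fin_cases j <;> simp_all
  · intro i x hx x' hx'
    rw [exists_stab_iff]
    obtain ⟨g, hg, h⟩ := pair_trans2 hx.1 hx'.1 (hx.2.trans hx'.2.symm)
    exact ⟨g, hg.1, hg.2 3 (by simp), h⟩
  · intro i
    rw [ncard_clsT2]
    fin_cases i
    · exact cntT2_1
    · exact cntT2_0
  · decide

open Classical in
theorem clsT4_eq (V : Finset GolayPt) : clsT4 (mask V) =
    8 * mask (unmask 3 ∩ V) + 2 * (unmask 12 ∩ V).card +
      (if ∃ o ∈ octads, unmask 15 ∪ V ⊆ o then 1 else 0) := by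
  unfold clsT4
  rw [land_mask _ (by norm_num), land_mask _ (by norm_num), ← card_eq_pcF]
  show 8 * _ + 2 * _ + _ = _
  congr 1
  by_cases h : ∃ o ∈ octads, unmask 15 ∪ V ⊆ o
  · rw [if_pos h, (inAny_iff (by norm_num) L5_1 L5_2 V).1 h]; rfl
  · rw [if_neg h]
    have : inAny L5 (mask V) = false := by
      rw [← Bool.not_eq_true]
      exact fun hc => h ((inAny_iff (by norm_num) L5_1 L5_2 V).2 hc)
    rw [this]; rfl

theorem pair_trans4 {V V' : Finset GolayPt} (hV : V.card = 2) (hV' : V'.card = 2)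
    (h : clsT4 (mask V) = clsT4 (mask V')) : ∃ g ∈ StabM [1, 2, 12], g • V = V' := by
  obtain ⟨σ, hσ, h1⟩ := orbit_card gensT4 orbT4 V hV
  obtain ⟨σ', hσ', h1'⟩ := orbit_card gensT4 orbT4 V' hV'
  unfold finT4 at h1 h1'
  rw [Nat.beq_eq] at h1 h1'
  refine ⟨σ'⁻¹ * σ, Subgroup.mul_mem _ (Subgroup.inv_mem _ hσ') hσ, ?_⟩
  rw [mul_smul, inv_smul_eq_iff]
  apply mask_injective
  rw [h1, h1', h]

theorem ncard_clsT4 (i : ℕ) : {V : Finset GolayPt | V.card = 2 ∧ clsT4 (mask V) = i}.ncard =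
    countW (fun x => Nat.beq (clsT4 x) i) 24 2 0 := by
  rw [← ncard_card]
  congr 1
  ext V
  simp only [Set.mem_ofPred_eq, Nat.beq_eq]

theorem mask3_eq_zero_iff (V : Finset GolayPt) :
    mask (unmask 3 ∩ V) = 0 ↔ pt 0 ∉ V ∧ pt 1 ∉ V := by
  have h3 : unmask 3 = {pt 0, pt 1} := by decide
  have h4 : mask (unmask 3 ∩ V) = 0 ↔ unmask 3 ∩ V = ∅ := by
    constructor
    · intro h; apply mask_injective; rw [h, mask_empty]
    · intro h; rw [h, mask_empty]
  rw [h4, h3]
  constructor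
  · intro h
    constructor
    · intro hc
      have : pt 0 ∈ ({pt 0, pt 1} ∩ V : Finset GolayPt) := by simp [hc]
      rw [h] at this; simp at this
    · intro hc
      have : pt 1 ∈ ({pt 0, pt 1} ∩ V : Finset GolayPt) := by simp [hc]
      rw [h] at this; simp at this
  · rintro ⟨h0, h1⟩
    ext p
    simp only [Finset.mem_inter, Finset.mem_insert, Finset.mem_singleton, Finset.notMem_empty,
      iff_false, not_and]
    rintro (rfl | rfl)
    · exact h0
    · exact h1

end Cfsg.Agent.Lib.Helper3
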