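import Cfsg.Prelude.Def_Sporadic_a
import Mathlib

set_option autoImplicit false

namespace Cfsg.Agent.Lib.Helper3.Stq

open Cfsg
open scoped Pointwise

theorem mem_aut_iff {α : Type*} [DecidableEq α] {B : Set (Finset α)} {g : Equiv.Perm α} :
    g ∈ setSystemAut B ↔ ∀ b : Finset α, b.image g ∈ B ↔ b ∈ B := by
  unfold setSystemAut
  rw [MulAction.mem_stabilizer_set]
  rfl

theorem mem_image_iff {α β : Type*} [DecidableEq α] [DecidableEq β] {B : Set (Finset α)}
    {B' : Set (Finset β)} (e : α ≃ β) (h : (fun b => b.image e) '' B = B') (c : Finset β) :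
    c ∈ B' ↔ c.image e.symm ∈ B := by
  rw [← h]
  constructor
  · rintro ⟨b, hb, rfl⟩
    simp only
    rw [Finset.image_image]
    simpa using hb
  · intro hc
    refine ⟨_, hc, ?_⟩
    simp only
    rw [Finset.image_image]
    simp

theorem permCongr_mem {α β : Type*} [DecidableEq α] [DecidableEq β] {B : Set (Finset α)}
    {B' : Set (Finset β)} (e : α ≃ β) (h : (fun b => b.image e) '' B = B') (g : Equiv.Perm α) :
    e.permCongr g ∈ setSystemAut B' ↔ g ∈ setSystemAut B := by
  rw [mem_aut_iff, mem_aut_iff]
  have key : ∀ c : Finset β, (c.image (e.permCongr g)).image e.symm = (c.image e.symm).image g := by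
    intro c
    rw [Finset.image_image, Finset.image_image]
    congr 1
    funext x
    simp [Equiv.permCongr_apply]
  constructor
  · intro H b
    have := H (b.image e)
    rw [mem_image_iff e h, mem_image_iff e h, key] at this
    have h2 : (b.image e).image e.symm = b := by
      rw [Finset.image_image]
      simp
    rwa [h2] at this
  · intro H c
    rw [mem_image_iff e h, mem_image_iff e h, key]
    exact H _

/-- the automorphism groups of isomorphic set systems are isomorphic, compatibly with the actions. -/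
theorem aut_equiv {α β : Type*} [DecidableEq α] [DecidableEq β] {B : Set (Finset α)}
    {B' : Set (Finset β)} (e : α ≃ β) (h : (fun b => b.image e) '' B = B') :
    ∃ φ : setSystemAut B ≃* setSystemAut B', ∀ (g : setSystemAut B) (x : α),
      ((φ g : setSystemAut B') : Equiv.Perm β) (e x) = e ((g : Equiv.Perm α) x) := by
  refine ⟨{ toFun := fun g => ⟨e.permCongr g.1, (permCongr_mem e h g.1).mpr g.2⟩
            invFun := fun g => ⟨e.symm.permCongr g.1, ?_⟩
            left_inv := ?_
            right_inv := ?_
            map_mul' := ?_ }, ?_⟩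
  · rw [← permCongr_mem e h]
    have : e.permCongr (e.symm.permCongr g.1) = g.1 := by
      ext x
      simp [Equiv.permCongr_apply]
    rw [this]
    exact g.2
  · intro g
    ext x
    simp [Equiv.permCongr_apply]
  · intro g
    ext x
    simp [Equiv.permCongr_apply]
  · intro g g'
    ext x
    simp [Equiv.permCongr_apply]
  · intro g x
    simp [Equiv.permCongr_apply]

theorem pretrans_transfer {α β : Type*} {G : Subgroup (Equiv.Perm α)} {H : Subgroup (Equiv.Perm β)}
    (e : α ≃ β) (φ : G ≃* H)
    (hφ : ∀ (g : G) (x : α), ((φ g : H) : Equiv.Perm β) (e x) = e ((g : Equiv.Perm α) x)) (n : ℕ)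
    (hH : MulAction.IsMultiplyPretransitive H β n) : MulAction.IsMultiplyPretransitive G α n := by
  rw [MulAction.isMultiplyPretransitive_iff] at hH ⊢
  intro x y
  obtain ⟨g, hg⟩ := hH (x.trans e.toEmbedding) (y.trans e.toEmbedding)
  refine ⟨φ.symm g, ?_⟩
  ext i
  have h1 := DFunLike.congr_fun hg i
  have h2 := hφ (φ.symm g) (x i)
  rw [MulEquiv.apply_symm_apply] at h2
  apply e.injective
  change e (((φ.symm g : G) : Equiv.Perm α) (x i)) = e (y i)
  rw [← h2]
  exact h1

theorem sharp_transfer {α β : Type*} {G : Subgroup (Equiv.Perm α)} {H : Subgroup (Equiv.Perm β)}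
    (e : α ≃ β) (φ : G ≃* H)
    (hφ : ∀ (g : G) (x : α), ((φ g : H) : Equiv.Perm β) (e x) = e ((g : Equiv.Perm α) x)) (n : ℕ)
    (hH : ∀ x : Fin n ↪ β, MulAction.stabilizer H x = ⊥) :
    ∀ x : Fin n ↪ α, MulAction.stabilizer G x = ⊥ := by
  intro x
  rw [eq_bot_iff]
  intro g hg
  rw [MulAction.mem_stabilizer_iff] at hg
  have h1 : φ g ∈ MulAction.stabilizer H (x.trans e.toEmbedding) := by
    rw [MulAction.mem_stabilizer_iff]
    ext i
    have := DFunLike.congr_fun hg i
    change ((φ g : H) : Equiv.Perm β) (e (x i)) = e (x i)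
    rw [hφ]
    congr 1
  rw [hH, Subgroup.mem_bot] at h1
  rw [Subgroup.mem_bot]
  exact φ.injective (by rw [h1, map_one])

end Cfsg.Agent.Lib.Helper3.Stq
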