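import Mathlib
import Cfsg.Agent.S5626
import Cfsg.Agent.S5627
import Cfsg.Agent.S5628
import Cfsg.Agent.Lib.Helper3.StAut

set_option autoImplicit false

namespace Cfsg.Agent.Lib.Helper3.Pl4

open Cfsg Cfsg.Agent.Lib.Helper3.Stq
open scoped Pointwise

theorem iso_of_small_index {A G1 G2 : Type*} [Group A] [Finite A] [Group G1] [Group G2]
    [IsSimpleGroup G1]
    (f1 : G1 →* A) (f2 : G2 →* A) (hf1 : Function.Injective f1) (hf2 : Function.Injective f2)
    (h1 : Nat.card G1 = 20160) (h2 : Nat.card G2 = 20160) (hA : Nat.card A ≤ 120960) :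
    Nonempty (G2 ≃* G1) := by
  classical
  set M := f2.range with hMdef
  have hM : Nat.card M = 20160 := by
    rw [← h2]; exact (Nat.card_congr (MonoidHom.ofInjective hf2).toEquiv).symm
  have hL : Nat.card f1.range = 20160 := by
    rw [← h1]; exact (Nat.card_congr (MonoidHom.ofInjective hf1).toEquiv).symm
  have hidx : M.index ≤ 6 := by
    have := M.card_mul_index
    rw [hM] at this
    by_contra hc
    push Not at hc
    nlinarith
  let φ : G1 →* Equiv.Perm (A ⧸ M) := (MulAction.toPermHom A (A ⧸ M)).comp f1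
  have hker : φ.ker = ⊤ := by
    rcases (φ.normal_ker).eq_bot_or_eq_top with h | h
    · exfalso
      have hinj : Function.Injective φ := (MonoidHom.ker_eq_bot_iff φ).mp h
      have h3 := Nat.card_le_card_of_injective φ hinj
      have : Fintype (A ⧸ M) := Fintype.ofFinite _
      rw [h1, Nat.card_eq_fintype_card, Fintype.card_perm, ← Nat.card_eq_fintype_card] at h3
      have h4 : Nat.card (A ⧸ M) ≤ 6 := hidx
      have h5 : (Nat.card (A ⧸ M)).factorial ≤ (6).factorial := Nat.factorial_le h4
      have h6 : (6).factorial = 720 := by decide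
      omega
    · exact h
  have hle : f1.range ≤ M := by
    rintro _ ⟨g, rfl⟩
    have h3 : φ g = 1 := by rw [← MonoidHom.mem_ker, hker]; trivial
    have h4 : (f1 g) • ((1 : A) : A ⧸ M) = ((1 : A) : A ⧸ M) := by
      have := congrArg (fun σ => σ ((1 : A) : A ⧸ M)) h3
      exact this
    rw [MulAction.Quotient.smul_coe, smul_eq_mul, mul_one, eq_comm, QuotientGroup.eq] at h4
    simpa using h4
  have heq : f1.range = M := Subgroup.eq_of_le_of_card_ge hle (by rw [hM, hL])
  exact ⟨(MonoidHom.ofInjective hf2).trans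
    ((MulEquiv.subgroupCongr heq.symm).trans (MonoidHom.ofInjective hf1).symm)⟩

theorem card_aut_le {α : Type*} [Fintype α] [DecidableEq α] (hα : Fintype.card α = 21)
    (L : Set (Finset α)) (hL : IsSteinerSystem 2 5 L) : Nat.card (setSystemAut L) ≤ 120960 := by
  obtain ⟨-, h168, -⟩ := Cfsg.Agent.S5627.result hα L hL
  set Hy : Set (Finset α) := {H : Finset α | (H.card = 6 ∧ ∀ l ∈ L, (l ∩ H).card ≤ 2)} with hHy
  have hne : Hy.Nonempty := by
    by_contra h
    rw [Set.not_nonempty_iff_eq_empty] at h
    rw [h] at h168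
    simp at h168
  obtain ⟨H0, hH0⟩ := hne
  have horb : MulAction.orbit (setSystemAut L) H0 ⊆ Hy := by
    rintro _ ⟨g, rfl⟩
    refine ⟨?_, ?_⟩
    · show (H0.image g.1).card = 6
      rw [Finset.card_image_of_injective _ g.1.injective]; exact hH0.1
    · intro l hl
      show (l ∩ H0.image g.1).card ≤ 2
      have hg := (mem_aut_iff.mp (inv_mem g.2) l).mpr hl
      have h1 := hH0.2 _ hg
      have h2 : l ∩ H0.image g.1 = (l.image (g.1⁻¹ : Equiv.Perm α) ∩ H0).image g.1 := by
        rw [Finset.image_inter _ _ g.1.injective, Finset.image_image]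
        congr 1
        ext x
        simp
      rw [h2, Finset.card_image_of_injective _ g.1.injective]
      exact h1
  have h1 : Nat.card (MulAction.orbit (setSystemAut L) H0) ≤ 168 := by
    rw [← h168, Nat.card_coe_set_eq]
    exact Set.ncard_le_ncard horb (Set.toFinite _)
  have hst : ∀ g : MulAction.stabilizer (setSystemAut L) H0, ∀ x, g.1.1 x ∈ H0 ↔ x ∈ H0 := by
    intro g x
    have hg : H0.image g.1.1 = H0 := g.2
    generalize g.1.1 = σ at hg
    constructor
    · intro hx
      rw [← hg, Finset.mem_image] at hx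
      obtain ⟨y, hy, hyx⟩ := hx
      rw [← σ.injective hyx]; exact hy
    · intro hx
      rw [← hg]
      exact Finset.mem_image_of_mem _ hx
  have h2 : Nat.card (MulAction.stabilizer (setSystemAut L) H0) ≤ 720 := by
    let r : MulAction.stabilizer (setSystemAut L) H0 → Equiv.Perm ↥H0 :=
      fun g => g.1.1.subtypePerm (hst g)
    have hr : Function.Injective r := by
      intro g g' hgg
      obtain ⟨u, -, hu⟩ := Cfsg.Agent.S5628.result hα L hL H0 hH0 (r g)
      have e1 := hu g.1.1 ⟨g.1.2, fun p => rfl⟩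
      have e2 := hu g'.1.1 ⟨g'.1.2, fun p => by rw [hgg]; rfl⟩
      apply Subtype.ext
      apply Subtype.ext
      rw [e1, e2]
    have h3 := Nat.card_le_card_of_injective r hr
    rw [Nat.card_eq_fintype_card (α := Equiv.Perm ↥H0), Fintype.card_perm, Fintype.card_coe,
      hH0.1] at h3
    have h6 : (6).factorial = 720 := by decide
    omega
  have h3 : Nat.card (MulAction.orbit (setSystemAut L) H0) *
      Nat.card (MulAction.stabilizer (setSystemAut L) H0) = Nat.card (setSystemAut L) := by
    rw [← Nat.card_prod]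
    exact (Nat.card_congr (MulAction.orbitProdStabilizerEquivGroup (setSystemAut L) H0))
  rw [← h3]
  calc _ ≤ 168 * 720 := Nat.mul_le_mul h1 h2
    _ = 120960 := by norm_num

theorem iso_of_planes {X Y : Type*} [Fintype X] [DecidableEq X] [Fintype Y] [DecidableEq Y]
    (hX : Fintype.card X = 21) (hY : Fintype.card Y = 21)
    {LX : Set (Finset X)} {LY : Set (Finset Y)}
    (hLX : IsSteinerSystem 2 5 LX) (hLY : IsSteinerSystem 2 5 LY)
    {G1 G2 : Type*} [Group G1] [Group G2] [IsSimpleGroup G1]
    (f1 : G1 →* Equiv.Perm X) (f2 : G2 →* Equiv.Perm Y)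
    (hf1 : Function.Injective f1) (hf2 : Function.Injective f2)
    (hm1 : ∀ g, f1 g ∈ setSystemAut LX) (hm2 : ∀ g, f2 g ∈ setSystemAut LY)
    (h1 : Nat.card G1 = 20160) (h2 : Nat.card G2 = 20160) :
    Nonempty (G2 ≃* G1) := by
  obtain ⟨e, he⟩ := Cfsg.Agent.S5626.result hY hX hLY hLX
  obtain ⟨φ, -⟩ := aut_equiv e he
  refine iso_of_small_index (A := setSystemAut LX) (f1.codRestrict _ hm1)
    (φ.toMonoidHom.comp (f2.codRestrict _ hm2)) ?_ ?_ h1 h2 (card_aut_le hX LX hLX)
  · intro a b hab
    apply hf1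
    exact congrArg Subtype.val hab
  · intro a b hab
    apply hf2
    have := φ.injective hab
    exact congrArg Subtype.val this

end Cfsg.Agent.Lib.Helper3.Pl4
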