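import Cfsg.Agent.Lib.Helper3.StCon

set_option autoImplicit false

namespace Cfsg.Agent.Lib.Helper3.Stq

open Cfsg
open scoped Pointwise

/-! ### explicit automorphisms and the order of the automorphism group -/

theorem maps_mem_aut {α : Type*} [Fintype α] [DecidableEq α] {B : Set (Finset α)}
    {π : Equiv.Perm α} (h : ∀ b ∈ B, b.image π ∈ B) : π ∈ setSystemAut B := by
  have hpow : ∀ n : ℕ, ∀ b ∈ B, b.image (π ^ n : Equiv.Perm α) ∈ B := by
    intro n
    induction n with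
    | zero => intro b hb; simpa using hb
    | succ n ih =>
      intro b hb
      have := h _ (ih b hb)
      rw [Finset.image_image] at this
      rw [pow_succ']
      exact this
  rw [mem_aut_iff]
  intro b
  refine ⟨fun hb => ?_, h b⟩
  have h1 := hpow (orderOf π - 1) _ hb
  rw [Finset.image_image] at h1
  have h2 : ((π ^ (orderOf π - 1) : Equiv.Perm α) : α → α) ∘ (π : α → α) = id := by
    funext a
    show (π ^ (orderOf π - 1) * π) a = a
    rw [← pow_succ, Nat.sub_add_cancel (orderOf_pos π), pow_orderOf_eq_one]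
    rfl
  rw [h2, Finset.image_id] at h1
  exact h1

theorem permOf_mem_aut {v : ℕ} {L : List ℕ} (s : List (ℕ × ℕ))
    (h : subl (L.map (ap v s)) L = true) : permOf v s ∈ setSystemAut (setOf' v L) := by
  apply maps_mem_aut
  rintro _ ⟨c, hc, rfl⟩
  rw [subl_iff] at h
  exact ⟨ap v s c, h _ (List.mem_map_of_mem hc), toFs_ap v s c⟩

theorem permOf_apply {v : ℕ} (s : List (ℕ × ℕ)) {x c : ℕ} (hx : x < v) (hc : c < v)
    (h : ap v s (Nat.pow 2 x) = Nat.pow 2 c) : permOf v s ⟨x, hx⟩ = ⟨c, hc⟩ := by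
  have h1 := toFs_ap v s (Nat.pow 2 x)
  rw [h] at h1
  have e1 : toFs v (Nat.pow 2 c) = {(⟨c, hc⟩ : Fin v)} := toFs_pow v ⟨c, hc⟩
  have e2 : toFs v (Nat.pow 2 x) = {(⟨x, hx⟩ : Fin v)} := toFs_pow v ⟨x, hx⟩
  rw [e1, e2, Finset.image_singleton, Finset.singleton_inj] at h1
  exact h1.symm

theorem swapBits_lt {v a b m : ℕ} (ha : a < v) (hb : b < v) (hm : m < 2 ^ v) :
    swapBits a b m < 2 ^ v := by
  rw [swapBits_eq]
  split_ifs
  · exact hm
  · exact Nat.xor_lt_two_pow hm (Nat.or_lt_two_pow (Nat.pow_lt_pow_right (by norm_num) ha)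
      (Nat.pow_lt_pow_right (by norm_num) hb))

theorem ap_lt {v : ℕ} : ∀ (s : List (ℕ × ℕ)) {m : ℕ}, m < 2 ^ v → ap v s m < 2 ^ v
  | [], m, hm => hm
  | (a, b) :: l, m, hm => by
    rw [ap]
    apply ap_lt l
    by_cases h : a < v ∧ b < v
    · have hb : (Nat.blt a v && Nat.blt b v) = true := by
        rw [Bool.and_eq_true, Nat.blt_eq, Nat.blt_eq]; exact h
      rw [hb, cond_true]
      exact swapBits_lt h.1 h.2 hm
    · have hb : (Nat.blt a v && Nat.blt b v) = false := by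
        rw [← Bool.not_eq_true, Bool.and_eq_true, Nat.blt_eq, Nat.blt_eq]; exact h
      rw [hb, cond_false]
      exact hm

theorem ap_congr {v : ℕ} {s s' : List (ℕ × ℕ)} (h : permOf v s = permOf v s') {m : ℕ}
    (hm : m < 2 ^ v) : ap v s m = ap v s' m := by
  apply toFs_inj (ap_lt s hm) (ap_lt s' hm)
  rw [toFs_ap, toFs_ap, h]

def autoContra (K : List (ℕ × ℕ)) (p : ℕ × ℕ) : Bool :=
  K.any (fun q => !(Nat.beq (pcG (Nat.land q.1 p.1)) (pcG (Nat.land q.2 p.2))))

theorem autoContra_false {v : ℕ} (hv : v ≤ 24) {σ : Equiv.Perm (Fin v)} {K : List (ℕ × ℕ)}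
    (hK : ∀ q ∈ K, Inv v σ q) {p : ℕ × ℕ} (hp : Inv v σ p) (h1 : p.1 < 2 ^ v) (h2 : p.2 < 2 ^ v) :
    autoContra K p = false := by
  rw [autoContra, List.any_eq_false]
  intro q hq
  have h3 := inv_and (hK q hq) hp
  unfold Inv at h3
  have h4 := congrArg Finset.card h3
  rw [Finset.card_image_of_injective _ σ.injective] at h4
  simp only at h4
  rw [← pcG_card hv (lt_of_le_of_lt Nat.and_le_right h1),
    ← pcG_card hv (lt_of_le_of_lt Nat.and_le_right h2)] at h4
  have : Nat.beq (pcG (Nat.land q.1 p.1)) (pcG (Nat.land q.2 p.2)) = true := by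
    rw [Nat.beq_eq]; exact h4
  rw [this]
  simp

def enum (v : ℕ) (Ks : List (List ℕ)) : List ℕ → List ℕ → List (ℕ × ℕ) → Bool
  | [], acc, _ => decide (acc ∈ Ks)
  | x :: xs, acc, K => (List.range v).all (fun c =>
      autoContra K (Nat.pow 2 x, Nat.pow 2 c) ||
        enum v Ks xs (acc ++ [c]) ((Nat.pow 2 x, Nat.pow 2 c) :: K))

def valOf {v : ℕ} (σ : Equiv.Perm (Fin v)) (x : ℕ) : ℕ :=
  if h : x < v then ((σ ⟨x, h⟩ : Fin v) : ℕ) else 0

theorem inv_valOf {v : ℕ} (σ : Equiv.Perm (Fin v)) {x : ℕ} (hx : x < v) :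
    Inv v σ (Nat.pow 2 x, Nat.pow 2 (valOf σ x)) := by
  unfold Inv
  rw [valOf, dif_pos hx]
  show (toFs v (2 ^ ((⟨x, hx⟩ : Fin v) : ℕ))).image σ = toFs v (2 ^ ((σ ⟨x, hx⟩ : Fin v) : ℕ))
  rw [toFs_pow, toFs_pow, Finset.image_singleton]

theorem valOf_lt {v : ℕ} (σ : Equiv.Perm (Fin v)) {x : ℕ} (hx : x < v) : valOf σ x < v := by
  rw [valOf, dif_pos hx]
  exact (σ ⟨x, hx⟩).2

theorem enum_sound {v : ℕ} (hv : v ≤ 24) {Ks : List (List ℕ)} (σ : Equiv.Perm (Fin v)) :
    ∀ (xs acc : List ℕ) (K : List (ℕ × ℕ)), (∀ q ∈ K, Inv v σ q) → (∀ x ∈ xs, x < v) →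
      enum v Ks xs acc K = true → acc ++ xs.map (valOf σ) ∈ Ks
  | [], acc, K, _, _, h => by
    rw [enum, decide_eq_true_eq] at h
    simpa using h
  | x :: xs, acc, K, hK, hxs, h => by
    rw [enum, List.all_eq_true] at h
    have hx : x < v := hxs x (by simp)
    have h1 := h (valOf σ x) (List.mem_range.mpr (valOf_lt σ hx))
    rw [autoContra_false hv hK (inv_valOf σ hx) (Nat.pow_lt_pow_right (by norm_num) hx)
      (Nat.pow_lt_pow_right (by norm_num) (valOf_lt σ hx)), Bool.false_or] at h1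
    have h2 := enum_sound hv σ xs (acc ++ [valOf σ x]) _ (by
      intro q hq
      rcases List.mem_cons.mp hq with rfl | hq
      · exact inv_valOf σ hx
      · exact hK q hq) (fun y hy => hxs y (List.mem_cons_of_mem _ hy)) h1
    rw [List.map_cons]
    simpa using h2

def marksK (mk : ℕ) : List (ℕ × ℕ) := (List.range mk).map (fun i => (Nat.pow 2 i, Nat.pow 2 i))

def FixM (v mk : ℕ) (L : List ℕ) : Set (Equiv.Perm (Fin v)) :=
  {σ | σ ∈ setSystemAut (setOf' v L) ∧ ∀ i : Fin v, (i : ℕ) < mk → σ i = i}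

theorem inv_marksK {v mk : ℕ} (hmk : mk ≤ v) {σ : Equiv.Perm (Fin v)}
    (hfix : ∀ i : Fin v, (i : ℕ) < mk → σ i = i) : ∀ p ∈ marksK mk, Inv v σ p :=
  inv_fixed (List.range mk) (fun i hi => hfix i (List.mem_range.mp hi))
    (fun _ hi => lt_of_lt_of_le (List.mem_range.mp hi) hmk)

theorem stab_enum {v t k mk : ℕ} (hv : v ≤ 24) (hmk : mk ≤ v) {L : List ℕ}
    (hS : IsSteinerSystem t k (setOf' v L)) (s0 : Step) (xs : List ℕ)
    (Tb : List (List (ℕ × ℕ))) (Ks : List (List ℕ))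
    (h0 : stepOK v t L (marksK mk) s0 = true)
    (hxs : ∀ x ∈ xs, x < v)
    (hen : enum v Ks xs [] (newP s0 :: marksK mk) = true)
    (hTK : Tb.map (fun s => xs.map (fun x => ap v s (Nat.pow 2 x))) =
      Ks.map (fun cs => cs.map (Nat.pow 2)))
    (hTb : Tb.all (fun s => swOK mk s && subl (L.map (ap v s)) L) = true)
    (hnd : (Ks.map (fun cs => cs.map (Nat.pow 2))).Nodup)
    (scr : List Step2)
    (hrig : rig2 v t L scr .done (xs.map (fun i => (Nat.pow 2 i, Nat.pow 2 i)) ++ marksK mk) = true) :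
    FixM v mk L = (permOf v) '' {s | s ∈ Tb} ∧ Set.InjOn (permOf v) {s | s ∈ Tb} ∧ Tb.Nodup := by
  rw [List.all_eq_true] at hTb
  have hTb1 : ∀ s ∈ Tb, permOf v s ∈ FixM v mk L := by
    intro s hs
    have := hTb s hs
    rw [Bool.and_eq_true] at this
    exact ⟨permOf_mem_aut s this.2, permOf_fix s this.1⟩
  refine ⟨?_, ?_, ?_⟩
  · apply Set.Subset.antisymm
    · rintro σ ⟨hσ, hfix⟩
      have hσ' : ∀ b ∈ setOf' v L, b.image σ ∈ setOf' v L := fun b hb => (mem_aut_iff.mp hσ b).mpr hb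
      have hK := inv_marksK hmk hfix
      have h1 := enum_sound hv σ xs [] _ (by
        intro q hq
        rcases List.mem_cons.mp hq with rfl | hq
        · exact inv_step hv hS hσ' hK h0
        · exact hK q hq) hxs hen
      rw [List.nil_append] at h1
      have h2 : (xs.map (valOf σ)).map (Nat.pow 2) ∈
          Tb.map (fun s => xs.map (fun x => ap v s (Nat.pow 2 x))) := by
        rw [hTK]
        exact List.mem_map_of_mem (f := fun cs => cs.map (Nat.pow 2)) h1
      obtain ⟨s, hs, h3⟩ := List.mem_map.mp h2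
      rw [List.map_map, List.map_inj_left] at h3
      refine ⟨s, hs, ?_⟩
      obtain ⟨hsa, hsf⟩ := hTb1 s hs
      have hτ : (permOf v s)⁻¹ * σ ∈ setSystemAut (setOf' v L) := mul_mem (inv_mem hsa) hσ
      have h4 : (permOf v s)⁻¹ * σ = 1 := by
        refine rig2_sound hv hS (fun b hb => (mem_aut_iff.mp hτ b).mpr hb) scr .done _ ?_ hrig
        intro p hp
        rcases List.mem_append.mp hp with hp | hp
        · refine inv_fixed xs ?_ hxs p hp
          intro i hi
          have h5 := h3 i hi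
          have h6 := permOf_apply s i.2 (valOf_lt σ i.2) h5
          rw [Equiv.Perm.mul_apply, Equiv.Perm.inv_eq_iff_eq, h6]
          apply Fin.ext
          show ((σ i : Fin v) : ℕ) = valOf σ i
          rw [valOf, dif_pos i.2]
        · refine inv_marksK hmk ?_ p hp
          intro i hi
          rw [Equiv.Perm.mul_apply, hfix i hi, Equiv.Perm.inv_eq_iff_eq, hsf i hi]
      exact (inv_mul_eq_one.mp h4)
    · rintro _ ⟨s, hs, rfl⟩
      exact hTb1 s hs
  · intro s hs s' hs' h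
    rw [← hTK] at hnd
    apply List.inj_on_of_nodup_map hnd hs hs'
    apply List.map_congr_left
    intro x hx
    exact ap_congr h (Nat.pow_lt_pow_right (by norm_num) (hxs x hx))
  · rw [← hTK] at hnd
    exact hnd.of_map _

theorem card_aut {v t k mk : ℕ} {L : List ℕ} (hP : PQ v t k (QM v mk (setOf' v L)) [])
    (hS : IsSteinerSystem t k (setOf' v L)) (hmk : mk ≤ v) (Tb : List (List (ℕ × ℕ)))
    (h : FixM v mk L = (permOf v) '' {s | s ∈ Tb} ∧ Set.InjOn (permOf v) {s | s ∈ Tb} ∧ Tb.Nodup) :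
    Nat.card (setSystemAut (setOf' v L)) = v.descFactorial mk * Tb.length := by
  have hpt : MulAction.IsMultiplyPretransitive (setSystemAut (setOf' v L)) (Fin v) mk :=
    pretrans_of_PM hP (Fintype.card_fin v) hS
  have h1 := @MulAction.index_stabilizer_of_transitive (setSystemAut (setOf' v L)) _ _ _
    (Fin.castLEEmb hmk : Fin mk ↪ Fin v) hpt
  have h2 := Subgroup.card_mul_index
    (MulAction.stabilizer (setSystemAut (setOf' v L)) (Fin.castLEEmb hmk : Fin mk ↪ Fin v))
  rw [h1, Nat.card_eq_fintype_card (α := Fin mk ↪ Fin v), Fintype.card_embedding_eq,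
    Fintype.card_fin, Fintype.card_fin] at h2
  have h3 : Nat.card (MulAction.stabilizer (setSystemAut (setOf' v L))
      (Fin.castLEEmb hmk : Fin mk ↪ Fin v)) = (FixM v mk L).ncard := by
    rw [← Nat.card_coe_set_eq]
    refine Nat.card_congr ⟨fun g => ⟨g.1.1, g.1.2, ?_⟩, fun σ => ⟨⟨σ.1, σ.2.1⟩, ?_⟩, ?_, ?_⟩
    · intro i hi
      have := DFunLike.congr_fun (MulAction.mem_stabilizer_iff.mp g.2) ⟨i, hi⟩
      exact this
    · rw [MulAction.mem_stabilizer_iff]
      ext i
      exact congrArg Fin.val (σ.2.2 (Fin.castLE hmk i) i.2)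
    · intro g; rfl
    · intro σ; rfl
  rw [← h2, h3, h.1, Set.InjOn.ncard_image h.2.1]
  have : {s | s ∈ Tb} = ((Tb.toFinset : Finset (List (ℕ × ℕ))) : Set (List (ℕ × ℕ))) := by
    ext s; simp
  rw [this, Set.ncard_coe_finset, List.toFinset_card_of_nodup h.2.2, mul_comm]

end Cfsg.Agent.Lib.Helper3.Stq
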