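import Mathlib
import Cfsg.Prelude.Def_Sporadic_a
import Cfsg.Agent.Lib.Helper3.StOrd

set_option autoImplicit false

namespace Cfsg.Agent.Lib.Helper3.Pl4

open Cfsg Cfsg.Agent.Lib.Helper3.Stq
open scoped LinearAlgebra.Projectivization
open Projectivization Configuration

theorem orth_smul {F : Type} [Field F] (g : Matrix.SpecialLinearGroup (Fin 3) F)
    (v w : ℙ F (Fin 3 → F)) :
    orthogonal (g • v) ((g⁻¹).transpose • w) ↔ orthogonal v w := by
  induction v using Projectivization.ind with | _ v hv =>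
  induction w using Projectivization.ind with | _ w hw =>
  rw [smul_mk, smul_mk, orthogonal_mk, orthogonal_mk]
  have h : (g • v) ⬝ᵥ ((g⁻¹).transpose • w) = v ⬝ᵥ w := by
    show (g.1.mulVec v) ⬝ᵥ ((g⁻¹).1.transpose.mulVec w) = v ⬝ᵥ w
    rw [Matrix.dotProduct_mulVec, Matrix.vecMul_transpose, Matrix.mulVec_mulVec,
      ← Matrix.SpecialLinearGroup.coe_mul, inv_mul_cancel, Matrix.SpecialLinearGroup.coe_one,
      Matrix.one_mulVec]
  rw [h]

theorem planeF (F : Type) [Field F] [Fintype F] (hF : Fintype.card F = 4) :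
    ∃ (X : Type) (_ : Fintype X) (_ : DecidableEq X) (L : Set (Finset X))
      (f : Matrix.ProjectiveSpecialLinearGroup (Fin 3) F →* Equiv.Perm X),
      Fintype.card X = 21 ∧ IsSteinerSystem 2 5 L ∧ Function.Injective f ∧
        ∀ g, f g ∈ setSystemAut L := by
  classical
  have : Fintype (ℙ F (Fin 3 → F)) := Fintype.ofFinite _
  have hX : Fintype.card (ℙ F (Fin 3 → F)) = 21 := by
    have h := Projectivization.card_of_finrank F (Fin 3 → F) (n := 3) (by simp)
    rw [Nat.card_eq_fintype_card, Nat.card_eq_fintype_card, hF] at h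
    simpa [Finset.sum_range_succ] using h
  have hord : ProjectivePlane.order (ℙ F (Fin 3 → F)) (ℙ F (Fin 3 → F)) = 4 := by
    have h := ProjectivePlane.card_points (ℙ F (Fin 3 → F)) (ℙ F (Fin 3 → F))
    rw [hX] at h
    nlinarith
  let line : ℙ F (Fin 3 → F) → Finset (ℙ F (Fin 3 → F)) :=
    fun w => Finset.univ.filter (fun v => orthogonal v w)
  have hmem : ∀ v w, v ∈ line w ↔ orthogonal v w := by
    intro v w
    simp [line]
  refine ⟨ℙ F (Fin 3 → F), inferInstance, inferInstance, Set.range line,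
    PSLAction.toPermHom, hX, ⟨?_, ?_⟩, Matrix.ProjectiveSpecialLinearGroup.toPermHom_injective, ?_⟩
  · rintro _ ⟨w, rfl⟩
    have h := ProjectivePlane.pointCount_eq (ℙ F (Fin 3 → F)) w
    rw [hord] at h
    unfold pointCount at h
    rw [Nat.card_eq_fintype_card, Fintype.card_subtype] at h
    exact h
  · intro s hs
    obtain ⟨a, b, hab, rfl⟩ := Finset.card_eq_two.mp hs
    obtain ⟨l, ⟨hl1, hl2⟩, hl3⟩ :=
      HasLines.existsUnique_line (ℙ F (Fin 3 → F)) (ℙ F (Fin 3 → F)) a b hab
    refine ⟨line l, ⟨⟨l, rfl⟩, ?_⟩, ?_⟩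
    · intro x hx
      rw [Finset.mem_insert, Finset.mem_singleton] at hx
      rcases hx with rfl | rfl
      · exact (hmem _ _).mpr hl1
      · exact (hmem _ _).mpr hl2
    · rintro _ ⟨⟨w, rfl⟩, hw⟩
      have h1 := (hmem _ _).mp (hw (Finset.mem_insert_self _ _))
      have h2 := (hmem _ _).mp (hw (Finset.mem_insert_of_mem (Finset.mem_singleton_self _)))
      rw [hl3 w ⟨h1, h2⟩]
  · intro g
    induction g using QuotientGroup.induction_on with | _ g =>
    apply maps_mem_aut
    rintro _ ⟨w, rfl⟩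
    refine ⟨(g⁻¹).transpose • w, ?_⟩
    ext x
    rw [hmem, Finset.mem_image]
    constructor
    · intro hx
      refine ⟨g⁻¹ • x, ?_, ?_⟩
      · rw [hmem, ← orth_smul g, smul_inv_smul]
        exact hx
      · show g • (g⁻¹ • x) = x
        rw [smul_inv_smul]
    · rintro ⟨y, hy, rfl⟩
      rw [hmem] at hy
      exact (orth_smul g y w).mpr hy

end Cfsg.Agent.Lib.Helper3.Pl4
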