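import Mathlib
import Cfsg.Prelude.Def_Sporadic_a
import Cfsg.Agent.Lib.Helper3.StOrd
import Cfsg.Agent.Lib.Helper3.GolaySteiner
import Cfsg.Agent.Lib.Helper28.OutMath

set_option autoImplicit false

namespace Cfsg.Agent.Lib.Helper3.Pl4

open Cfsg Cfsg.Agent.Lib.Helper3.Stq
open scoped Pointwise

theorem card_M21 (p q r : GolayPt) (hpq : p ≠ q) (hpr : p ≠ r) (hqr : q ≠ r) :
    Nat.card ↥(MulAction.stabilizer M24 p ⊓ MulAction.stabilizer M24 q ⊓
      MulAction.stabilizer M24 r) = 20160 := by
  rw [← Cfsg.Agent.Lib.Helper28.OutMath.card_St3 hpq hpr hqr]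
  refine Nat.card_congr ⟨fun g => ⟨g.1.1, ⟨⟨g.1.2, g.2.1.1⟩, g.2.1.2⟩, g.2.2⟩,
    fun g => ⟨⟨g.1, g.2.1.1.1⟩, ⟨g.2.1.1.2, g.2.1.2⟩, g.2.2⟩, fun g => rfl, fun g => rfl⟩

theorem planeM (p q r : GolayPt) (hpq : p ≠ q) (hpr : p ≠ r) (hqr : q ≠ r) :
    ∃ (Y : Type) (_ : Fintype Y) (_ : DecidableEq Y) (L : Set (Finset Y))
      (f : ↥(MulAction.stabilizer M24 p ⊓ MulAction.stabilizer M24 q ⊓
      MulAction.stabilizer M24 r) →* Equiv.Perm Y),
      Fintype.card Y = 21 ∧ IsSteinerSystem 2 5 L ∧ Function.Injective f ∧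
        ∀ g, f g ∈ setSystemAut L := by
  classical
  set T : Finset GolayPt := {p, q, r} with hT
  have hTc : T.card = 3 := by
    rw [hT, Finset.card_insert_of_notMem (by simp [hpq, hpr]), Finset.card_pair hqr]
  let Y := {x : GolayPt // x ∉ T}
  let emb : Y ↪ GolayPt := Function.Embedding.subtype _
  let ex : Finset Y → Finset GolayPt := fun b => b.map emb ∪ T
  have hY : Fintype.card Y = 21 := by
    rw [Fintype.card_subtype_compl, Fintype.card_coe, hTc]
    rfl
  have hmem : ∀ (b : Finset Y) (x : Y), x.1 ∈ ex b ↔ x ∈ b := by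
    intro b x
    simp only [ex, Finset.mem_union, Finset.mem_map]
    constructor
    · rintro (⟨y, hy, hyx⟩ | h)
      · rw [← emb.injective hyx]; exact hy
      · exact absurd h x.2
    · intro h
      exact Or.inl ⟨x, h, rfl⟩
  have hTex : ∀ b : Finset Y, T ⊆ ex b := fun b => Finset.subset_union_right
  have hexinj : Function.Injective ex := by
    intro b b' h
    ext x
    rw [← hmem b, ← hmem b', h]
  have hexcard : ∀ b : Finset Y, (ex b).card = b.card + 3 := by
    intro b
    simp only [ex]
    rw [Finset.card_union_of_disjoint, Finset.card_map, hTc]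
    rw [Finset.disjoint_left]
    intro x hx
    rw [Finset.mem_map] at hx
    obtain ⟨y, -, rfl⟩ := hx
    exact y.2
  have hfix : ∀ g : ↥(MulAction.stabilizer M24 p ⊓ MulAction.stabilizer M24 q ⊓
      MulAction.stabilizer M24 r), ∀ x ∈ T, g.1.1 x = x := by
    intro g x hx
    rw [hT, Finset.mem_insert, Finset.mem_insert, Finset.mem_singleton] at hx
    rcases hx with rfl | rfl | rfl
    · exact g.2.1.1
    · exact g.2.1.2
    · exact g.2.2
  have hst : ∀ g : ↥(MulAction.stabilizer M24 p ⊓ MulAction.stabilizer M24 q ⊓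
      MulAction.stabilizer M24 r), ∀ x, g.1.1 x ∉ T ↔ x ∉ T := by
    intro g x
    rw [not_iff_not]
    constructor
    · intro h
      have h2 := hfix g _ h
      rw [g.1.1.injective h2] at h
      exact h
    · intro h
      rw [hfix g x h]; exact h
  let f : ↥(MulAction.stabilizer M24 p ⊓ MulAction.stabilizer M24 q ⊓
      MulAction.stabilizer M24 r) →* Equiv.Perm Y :=
    MonoidHom.mk' (fun g => g.1.1.subtypePerm (hst g)) (by intro a b; ext x; rfl)
  refine ⟨Y, inferInstance, inferInstance, {b | ex b ∈ octads}, f, hY, ⟨?_, ?_⟩, ?_, ?_⟩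
  · intro b hb
    have h1 := steiner.1 _ hb
    rw [hexcard] at h1
    omega
  · intro s hs
    obtain ⟨o, ⟨ho, hso⟩, huniq⟩ := steiner.2 (ex s) (by rw [hexcard, hs])
    have hob : ex (o.subtype (· ∉ T)) = o := by
      simp only [ex, emb]
      rw [Finset.subtype_map]
      ext x
      rw [Finset.mem_union, Finset.mem_filter]
      constructor
      · rintro (h | h)
        · exact h.1
        · exact hso (hTex s h)
      · intro h
        by_cases hx : x ∈ T
        · exact Or.inr hx
        · exact Or.inl ⟨h, hx⟩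
    refine ⟨o.subtype (· ∉ T), ⟨?_, ?_⟩, ?_⟩
    · show ex _ ∈ octads
      rw [hob]; exact ho
    · intro x hx
      rw [← hmem, hob]
      exact hso ((hmem s x).mpr hx)
    · rintro b ⟨hb, hsb⟩
      apply hexinj
      rw [hob]
      apply huniq
      refine ⟨hb, ?_⟩
      exact Finset.union_subset_union (Finset.map_subset_map.mpr hsb) (Finset.Subset.refl _)
  · intro g g' h
    apply Subtype.ext
    apply Subtype.ext
    apply Equiv.ext
    intro x
    by_cases hx : x ∈ T
    · rw [hfix g x hx, hfix g' x hx]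
    · have := congrArg (fun σ : Equiv.Perm Y => (σ ⟨x, hx⟩).1) h
      exact this
  · intro g
    apply maps_mem_aut
    intro b hb
    show ex _ ∈ octads
    have h1 : ex (b.image (f g)) = g.1.1 • ex b := by
      ext x
      constructor
      · intro hx
        by_cases hxT : x ∈ T
        · rw [← hfix g x hxT]
          exact Finset.smul_mem_smul_finset (hTex b hxT)
        · have h2 := (hmem _ ⟨x, hxT⟩).mp hx
          rw [Finset.mem_image] at h2
          obtain ⟨y, hy, hyx⟩ := h2
          have h3 : g.1.1 y.1 = x := congrArg Subtype.val hyx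
          rw [← h3]
          exact Finset.smul_mem_smul_finset ((hmem b y).mpr hy)
      · intro hx
        obtain ⟨y, hy, rfl⟩ := Finset.mem_smul_finset.mp hx
        by_cases hyT : y ∈ T
        · show g.1.1 y ∈ _
          rw [hfix g y hyT]
          exact hTex _ hyT
        · have h2 := (hmem b ⟨y, hyT⟩).mp hy
          exact (hmem _ (f g ⟨y, hyT⟩)).mpr (Finset.mem_image_of_mem _ h2)
    rw [h1]
    exact smul_mem_octads g.1.2 hb

end Cfsg.Agent.Lib.Helper3.Pl4
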