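import Mathlib
import Cfsg.Prelude.Def_Sporadic_a

set_option autoImplicit false

namespace Cfsg.Agent.Lib.Helper3.Srg100

open Finset

variable {V : Type*} [Fintype V] [DecidableEq V] {G : SimpleGraph V} [DecidableRel G.Adj]
  (hG : G.IsSRGWith 100 22 0 6)

include hG

theorem deg (v : V) : (univ.filter (G.Adj v)).card = 22 := by
  rw [← SimpleGraph.neighborFinset_eq_filter, SimpleGraph.card_neighborFinset_eq_degree]
  exact hG.regular v

theorem cn_card (v w : V) : Fintype.card (G.commonNeighbors v w) =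
    (univ.filter (fun x => G.Adj v x ∧ G.Adj w x)).card := by
  apply Fintype.card_of_subtype
  intro x
  rw [Finset.mem_filter, SimpleGraph.mem_commonNeighbors]
  simp

/-- no triangles. -/
theorem tri {v w x : V} (h1 : G.Adj v w) (h2 : G.Adj v x) (h3 : G.Adj w x) : False := by
  have h := hG.of_adj v w h1
  rw [cn_card hG, card_eq_zero, filter_eq_empty_iff] at h
  exact h (mem_univ x) ⟨h2, h3⟩

theorem mu {v w : V} (hne : v ≠ w) (h : ¬G.Adj v w) :
    (univ.filter (fun x => G.Adj v x ∧ G.Adj w x)).card = 6 := by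
  rw [← cn_card hG]
  exact hG.of_not_adj hne h

/-- the vertices far from both `o` and `b`. -/
theorem card_far {o b : V} (hne : o ≠ b) (h : ¬G.Adj o b) :
    (univ.filter (fun c => c ≠ o ∧ ¬G.Adj o c ∧ c ≠ b ∧ ¬G.Adj b c)).card = 60 := by
  have hA : ∀ v : V, (insert v (univ.filter (G.Adj v))).card = 23 := by
    intro v
    rw [card_insert_of_notMem (by simp), deg hG]
  have hI : insert o (univ.filter (G.Adj o)) ∩ insert b (univ.filter (G.Adj b)) =
      univ.filter (fun x => G.Adj o x ∧ G.Adj b x) := by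
    ext x
    simp only [mem_inter, mem_insert, mem_filter, mem_univ, true_and]
    constructor
    · rintro ⟨rfl | h1, rfl | h2⟩
      · exact absurd rfl hne
      · exact absurd h2.symm h
      · exact absurd h1 h
      · exact ⟨h1, h2⟩
    · rintro ⟨h1, h2⟩
      exact ⟨Or.inr h1, Or.inr h2⟩
  have hU := card_union_add_card_inter (insert o (univ.filter (G.Adj o)))
    (insert b (univ.filter (G.Adj b)))
  rw [hI, mu hG hne h, hA, hA] at hU
  have hC : univ.filter (fun c => c ≠ o ∧ ¬G.Adj o c ∧ c ≠ b ∧ ¬G.Adj b c) =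
      (insert o (univ.filter (G.Adj o)) ∪ insert b (univ.filter (G.Adj b)))ᶜ := by
    ext x
    simp only [mem_filter, mem_univ, true_and, mem_compl, mem_union, mem_insert, not_or]
    tauto
  rw [hC, card_compl, hG.card]
  omega

theorem two_of_far {o b c : V} (hob : o ≠ b) (hnb : ¬G.Adj o b)
    (hc : c ≠ o ∧ ¬G.Adj o c ∧ c ≠ b ∧ ¬G.Adj b c) :
    (univ.filter (fun p => G.Adj o p ∧ G.Adj b p ∧ G.Adj c p)).card = 2 := by
  set K' := univ.filter (fun c => c ≠ o ∧ ¬G.Adj o c ∧ c ≠ b ∧ ¬G.Adj b c) with hK'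
  set β := univ.filter (fun p => G.Adj o p ∧ G.Adj b p) with hβ
  have hβc : β.card = 6 := mu hG hob hnb
  have hK'c : K'.card = 60 := card_far hG hob hnb
  have hmβ : ∀ p, p ∈ β ↔ G.Adj o p ∧ G.Adj b p := fun p => by simp [hβ]
  have hmK : ∀ c, c ∈ K' ↔ c ≠ o ∧ ¬G.Adj o c ∧ c ≠ b ∧ ¬G.Adj b c := fun c => by simp [hK']
  have dc1 : ∑ c ∈ K', (β.filter (fun p => G.Adj c p)).card =
      ∑ p ∈ β, (K'.filter (fun c => G.Adj c p)).card :=
    sum_card_bipartiteAbove_eq_sum_card_bipartiteBelow (fun c p => G.Adj c p)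
  have t1 : ∀ p ∈ β, (K'.filter (fun c => G.Adj c p)).card = 20 := by
    intro p hp
    rw [hmβ] at hp
    have e : K'.filter (fun c => G.Adj c p) = ((univ.filter (G.Adj p)).erase o).erase b := by
      ext c
      simp only [mem_filter, mem_erase, mem_univ, true_and, hmK]
      constructor
      · rintro ⟨⟨h1, h2, h3, h4⟩, h5⟩
        exact ⟨h3, h1, h5.symm⟩
      · rintro ⟨h3, h1, h5⟩
        exact ⟨⟨h1, fun h => tri hG hp.1 h h5, h3, fun h => tri hG hp.2 h h5⟩, h5.symm⟩
    rw [e, card_erase_of_mem (by simp [hob.symm, hp.2.symm]), card_erase_of_mem (by simp [hp.1.symm]),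
      deg hG]
  have dc2 : ∑ c ∈ K', (β.offDiag.filter (fun x => G.Adj c x.1 ∧ G.Adj c x.2)).card =
      ∑ x ∈ β.offDiag, (K'.filter (fun c => G.Adj c x.1 ∧ G.Adj c x.2)).card :=
    sum_card_bipartiteAbove_eq_sum_card_bipartiteBelow
      (fun (c : V) (x : V × V) => G.Adj c x.1 ∧ G.Adj c x.2)
  have t2 : ∀ x ∈ β.offDiag, (K'.filter (fun c => G.Adj c x.1 ∧ G.Adj c x.2)).card = 4 := by
    rintro ⟨p, p'⟩ hx
    rw [mem_offDiag, hmβ, hmβ] at hx
    obtain ⟨hp, hp', hne⟩ := hx
    simp only at hp hp' hne ⊢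
    have e : K'.filter (fun c => G.Adj c p ∧ G.Adj c p') =
        ((univ.filter (fun x => G.Adj p x ∧ G.Adj p' x)).erase o).erase b := by
      ext c
      simp only [mem_filter, mem_erase, mem_univ, true_and, hmK]
      constructor
      · rintro ⟨⟨h1, h2, h3, h4⟩, h5, h6⟩
        exact ⟨h3, h1, h5.symm, h6.symm⟩
      · rintro ⟨h3, h1, h5, h6⟩
        exact ⟨⟨h1, fun h => tri hG hp.1 h h5, h3, fun h => tri hG hp.2 h h5⟩, h5.symm, h6.symm⟩
    rw [e, card_erase_of_mem (by simp [hob.symm, hp.2.symm, hp'.2.symm]),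
      card_erase_of_mem (by simp [hp.1.symm, hp'.1.symm]),
      mu hG hne (fun h => tri hG hp.1 hp'.1 h)]
  have t3 : ∀ c, (β.offDiag.filter (fun x => G.Adj c x.1 ∧ G.Adj c x.2)).card =
      (β.filter (fun p => G.Adj c p)).card * (β.filter (fun p => G.Adj c p)).card -
        (β.filter (fun p => G.Adj c p)).card := by
    intro c
    rw [← offDiag_card]
    congr 1
    ext x
    simp only [mem_filter, mem_offDiag]
    tauto
  rw [sum_congr rfl t1, sum_const, hβc] at dc1
  rw [sum_congr rfl t2, sum_const, offDiag_card, hβc, sum_congr rfl (fun c _ => t3 c)] at dc2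
  have hle : ∀ c ∈ K', 3 * (β.filter (fun p => G.Adj c p)).card ≤
      (β.filter (fun p => G.Adj c p)).card * (β.filter (fun p => G.Adj c p)).card -
        (β.filter (fun p => G.Adj c p)).card + 4 := by
    intro c _
    have h6 : (β.filter (fun p => G.Adj c p)).card ≤ 6 := hβc ▸ card_filter_le _ _
    generalize (β.filter (fun p => G.Adj c p)).card = n at h6
    interval_cases n <;> simp
  have hsum : ∑ c ∈ K', 3 * (β.filter (fun p => G.Adj c p)).card =
      ∑ c ∈ K', ((β.filter (fun p => G.Adj c p)).card * (β.filter (fun p => G.Adj c p)).card -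
        (β.filter (fun p => G.Adj c p)).card + 4) := by
    rw [← mul_sum, dc1, sum_add_distrib, dc2, sum_const, hK'c]
    rfl
  have hall := (sum_eq_sum_iff_of_le hle).mp hsum c ((hmK c).mpr hc)
  have h6 : (β.filter (fun p => G.Adj c p)).card ≤ 6 := hβc ▸ card_filter_le _ _
  have e : univ.filter (fun p => G.Adj o p ∧ G.Adj b p ∧ G.Adj c p) =
      β.filter (fun p => G.Adj c p) := by
    ext p
    simp only [mem_filter, mem_univ, true_and, hmβ]
    tauto
  rw [e]
  generalize (β.filter (fun p => G.Adj c p)).card = n at h6 hall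
  interval_cases n <;> simp_all

theorem card_K (o : V) : (univ.filter (fun b => b ≠ o ∧ ¬G.Adj o b)).card = 77 := by
  have hC : univ.filter (fun b => b ≠ o ∧ ¬G.Adj o b) = (insert o (univ.filter (G.Adj o)))ᶜ := by
    ext x
    simp only [mem_filter, mem_univ, true_and, mem_compl, mem_insert, not_or]
  rw [hC, card_compl, hG.card, card_insert_of_notMem (by simp), deg hG]

theorem inter_card {o b c : V} (hb : b ≠ o ∧ ¬G.Adj o b) (hc : c ≠ o ∧ ¬G.Adj o c) (hbc : b ≠ c) :
    (univ.filter (fun p => G.Adj o p ∧ G.Adj b p ∧ G.Adj c p)).card =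
      if G.Adj b c then 0 else 2 := by
  split_ifs with h
  · rw [card_eq_zero, filter_eq_empty_iff]
    rintro p - ⟨-, h2, h3⟩
    exact tri hG h h2 h3
  · exact two_of_far hG hb.1.symm hb.2 ⟨hc.1, hc.2, hbc.symm, h⟩

theorem unique_block (o : V) (T : Finset V) (hT : T.card = 3) (hTP : ∀ p ∈ T, G.Adj o p) :
    ((univ.filter (fun b => b ≠ o ∧ ¬G.Adj o b)).filter (fun b => ∀ p ∈ T, G.Adj b p)).card = 1 := by
  set K := univ.filter (fun b => b ≠ o ∧ ¬G.Adj o b) with hK
  set P := univ.filter (G.Adj o) with hP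
  have hmK : ∀ c, c ∈ K ↔ c ≠ o ∧ ¬G.Adj o c := fun c => by simp [hK]
  have dc : ∑ T ∈ powersetCard 3 P, (K.filter (fun b => ∀ p ∈ T, G.Adj b p)).card =
      ∑ b ∈ K, ((powersetCard 3 P).filter (fun T => ∀ p ∈ T, G.Adj b p)).card :=
    sum_card_bipartiteAbove_eq_sum_card_bipartiteBelow
      (fun (T : Finset V) (b : V) => ∀ p ∈ T, G.Adj b p)
  have t1 : ∀ b ∈ K, ((powersetCard 3 P).filter (fun T => ∀ p ∈ T, G.Adj b p)).card = 20 := by
    intro b hb
    rw [hmK] at hb
    have e : (powersetCard 3 P).filter (fun T => ∀ p ∈ T, G.Adj b p) =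
        powersetCard 3 (univ.filter (fun p => G.Adj o p ∧ G.Adj b p)) := by
      ext T
      simp only [mem_filter, mem_powersetCard, subset_iff, mem_univ, true_and, hP]
      constructor
      · rintro ⟨⟨h1, h2⟩, h3⟩
        exact ⟨fun x hx => ⟨h1 hx, h3 x hx⟩, h2⟩
      · rintro ⟨h1, h2⟩
        exact ⟨⟨fun x hx => (h1 hx).1, h2⟩, fun x hx => (h1 hx).2⟩
    rw [e, card_powersetCard, mu hG hb.1.symm hb.2]
    rfl
  have hle : ∀ T ∈ powersetCard 3 P, (K.filter (fun b => ∀ p ∈ T, G.Adj b p)).card ≤ 1 := by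
    intro T hT
    rw [mem_powersetCard] at hT
    rw [card_le_one]
    intro b hb c hc
    rw [mem_filter, hmK] at hb hc
    by_contra hbc
    have h1 := inter_card hG hb.1 hc.1 hbc
    have h2 : T ⊆ univ.filter (fun p => G.Adj o p ∧ G.Adj b p ∧ G.Adj c p) := by
      intro p hp
      rw [mem_filter]
      exact ⟨mem_univ _, (mem_filter.mp (hT.1 hp)).2, hb.2 p hp, hc.2 p hp⟩
    have h3 := card_le_card h2
    rw [h1, hT.2] at h3
    split_ifs at h3 <;> omega
  have hsum : ∑ T ∈ powersetCard 3 P, (K.filter (fun b => ∀ p ∈ T, G.Adj b p)).card =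
      ∑ _T ∈ powersetCard 3 P, 1 := by
    rw [dc, sum_congr rfl t1, sum_const, sum_const, card_K hG, card_powersetCard, deg hG]
    rfl
  exact (sum_eq_sum_iff_of_le hle).mp hsum T (mem_powersetCard.mpr
    ⟨fun p hp => mem_filter.mpr ⟨mem_univ _, hTP p hp⟩, hT⟩)

omit hG

variable (G) (o : V)

/-- the points adjacent to a vertex. -/
def blk (b : V) : Finset {p : V // G.Adj o p} := univ.filter (fun p => G.Adj b p.1)

/-- the blocks: one for every vertex far from `o`. -/
def Bl : Set (Finset {p : V // G.Adj o p}) := {c | ∃ b, (b ≠ o ∧ ¬G.Adj o b) ∧ c = blk G o b}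

theorem mem_blk (b : V) (p : {p : V // G.Adj o p}) : p ∈ blk G o b ↔ G.Adj b p.1 := by
  simp [blk]

theorem map_blk (b : V) : (blk G o b).map (Function.Embedding.subtype _) =
    univ.filter (fun p => G.Adj o p ∧ G.Adj b p) := by
  ext p
  simp only [mem_map, mem_blk, Function.Embedding.coe_subtype, mem_filter, mem_univ, true_and]
  constructor
  · rintro ⟨q, hq, rfl⟩
    exact ⟨q.2, hq⟩
  · rintro ⟨h1, h2⟩
    exact ⟨⟨p, h1⟩, h2, rfl⟩

theorem map_inter (b c : V) : (blk G o b ∩ blk G o c).map (Function.Embedding.subtype _) =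
    univ.filter (fun p => G.Adj o p ∧ G.Adj b p ∧ G.Adj c p) := by
  ext p
  simp only [mem_map, mem_inter, mem_blk, Function.Embedding.coe_subtype, mem_filter, mem_univ,
    true_and]
  constructor
  · rintro ⟨q, hq, rfl⟩
    exact ⟨q.2, hq⟩
  · rintro ⟨h1, h2⟩
    exact ⟨⟨p, h1⟩, h2, rfl⟩

variable {G}

include hG

theorem card_Pt : Fintype.card {p : V // G.Adj o p} = 22 := by
  rw [Fintype.card_subtype]
  exact deg hG o

variable {o}

theorem card_blk {b : V} (hb : b ≠ o ∧ ¬G.Adj o b) : (blk G o b).card = 6 := by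
  rw [← card_map (Function.Embedding.subtype _), map_blk, mu hG hb.1.symm hb.2]

theorem card_blk_inter {b c : V} (hb : b ≠ o ∧ ¬G.Adj o b) (hc : c ≠ o ∧ ¬G.Adj o c)
    (hbc : b ≠ c) : (blk G o b ∩ blk G o c).card = if G.Adj b c then 0 else 2 := by
  rw [← card_map (Function.Embedding.subtype _), map_inter, inter_card hG hb hc hbc]

theorem blk_inj {b c : V} (hb : b ≠ o ∧ ¬G.Adj o b) (hc : c ≠ o ∧ ¬G.Adj o c)
    (h : blk G o b = blk G o c) : b = c := by
  by_contra hbc
  have h1 := card_blk_inter hG hb hc hbc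
  rw [← h, inter_self, card_blk hG hb] at h1
  split_ifs at h1 <;> omega

theorem disjoint_blk {b c : V} (hb : b ≠ o ∧ ¬G.Adj o b) (hc : c ≠ o ∧ ¬G.Adj o c)
    (hbc : b ≠ c) : Disjoint (blk G o b) (blk G o c) ↔ G.Adj b c := by
  rw [disjoint_iff_inter_eq_empty, ← card_eq_zero, card_blk_inter hG hb hc hbc]
  split_ifs with h <;> simp [h]

variable (o)

theorem steiner : Cfsg.IsSteinerSystem 3 6 (Bl G o) := by
  constructor
  · rintro c ⟨b, hb, rfl⟩
    exact card_blk hG hb
  · intro T hT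
    have h1 := unique_block hG o (T.map (Function.Embedding.subtype _)) (by rw [card_map, hT]) (by
      intro p hp
      obtain ⟨q, -, rfl⟩ := mem_map.mp hp
      exact q.2)
    obtain ⟨b0, hb0⟩ := card_eq_one.mp h1
    have h2 : b0 ∈ ({b0} : Finset V) := mem_singleton_self b0
    rw [← hb0, mem_filter, mem_filter] at h2
    refine ⟨blk G o b0, ⟨⟨b0, h2.1.2, rfl⟩, ?_⟩, ?_⟩
    · intro q hq
      rw [mem_blk]
      exact h2.2 q.1 (mem_map_of_mem _ hq)
    · rintro c ⟨⟨b, hb, rfl⟩, hTb⟩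
      have h3 : b ∈ ({b0} : Finset V) := by
        rw [← hb0, mem_filter, mem_filter]
        refine ⟨⟨mem_univ _, hb⟩, ?_⟩
        intro p hp
        obtain ⟨q, hq, rfl⟩ := mem_map.mp hp
        exact (mem_blk G o b q).mp (hTb hq)
      rw [mem_singleton.mp h3]

omit hG

variable (G)

/-- the map to the point-block graph. -/
def toPB (x : V) : Option ({p : V // G.Adj o p} ⊕ Bl G o) :=
  if h0 : x = o then none
  else if h1 : G.Adj o x then some (Sum.inl ⟨x, h1⟩)
  else some (Sum.inr ⟨blk G o x, x, ⟨h0, h1⟩, rfl⟩)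

theorem toPB_o : toPB G o o = none := by simp [toPB]

theorem toPB_P {x : V} (h : G.Adj o x) : toPB G o x = some (Sum.inl ⟨x, h⟩) := by
  have h0 : x ≠ o := (G.ne_of_adj h).symm
  simp [toPB, h0, h]

theorem toPB_K {x : V} (h : x ≠ o ∧ ¬G.Adj o x) :
    toPB G o x = some (Sum.inr ⟨blk G o x, x, h, rfl⟩) := by
  simp [toPB, h.1, h.2]

theorem cases3 (x : V) : x = o ∨ G.Adj o x ∨ (x ≠ o ∧ ¬G.Adj o x) := by
  by_cases h0 : x = o
  · exact Or.inl h0
  · by_cases h1 : G.Adj o x
    · exact Or.inr (Or.inl h1)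
    · exact Or.inr (Or.inr ⟨h0, h1⟩)

variable {G}

include hG

theorem toPB_injective : Function.Injective (toPB G o) := by
  intro x y h
  rcases cases3 G o x with hx | hx | hx <;> rcases cases3 G o y with hy | hy | hy
  · rw [hx, hy]
  · rw [hx, toPB_o, toPB_P G _ hy] at h
    simp at h
  · rw [hx, toPB_o, toPB_K G _ hy] at h
    simp at h
  · rw [hy, toPB_o, toPB_P G _ hx] at h
    simp at h
  · rw [toPB_P G _ hx, toPB_P G _ hy] at h
    simpa using h
  · rw [toPB_P G _ hx, toPB_K G _ hy] at h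
    simp at h
  · rw [hy, toPB_o, toPB_K G _ hx] at h
    simp at h
  · rw [toPB_K G _ hx, toPB_P G _ hy] at h
    simp at h
  · rw [toPB_K G _ hx, toPB_K G _ hy] at h
    simp only [Option.some.injEq, Sum.inr.injEq] at h
    exact blk_inj hG hx hy (congrArg Subtype.val h)

omit hG in
theorem toPB_surjective : Function.Surjective (toPB G o) := by
  rintro (_ | p | ⟨c, b, hb, rfl⟩)
  · exact ⟨o, toPB_o G o⟩
  · exact ⟨p.1, toPB_P G o p.2⟩
  · exact ⟨b, toPB_K G o hb⟩

theorem toPB_adj (x y : V) :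
    (Cfsg.pointBlockGraph (Bl G o)).Adj (toPB G o x) (toPB G o y) ↔ G.Adj x y := by
  unfold Cfsg.pointBlockGraph
  rw [SimpleGraph.fromRel_adj]
  rcases cases3 G o x with hx | hx | hx <;> rcases cases3 G o y with hy | hy | hy
  · rw [hx, hy]
    simp
  · rw [hx, toPB_o, toPB_P G _ hy]
    simp [Cfsg.pointBlockRel, hy]
  · rw [hx, toPB_o, toPB_K G _ hy]
    simp [Cfsg.pointBlockRel, hy.2]
  · rw [hy, toPB_o, toPB_P G _ hx]
    simp [Cfsg.pointBlockRel, hx.symm]
  · rw [toPB_P G _ hx, toPB_P G _ hy]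
    simp only [Cfsg.pointBlockRel, or_self, and_false, false_iff]
    exact fun h => tri hG hx hy h
  · rw [toPB_P G _ hx, toPB_K G _ hy]
    simp only [Cfsg.pointBlockRel, or_false, ne_eq, Option.some.injEq, reduceCtorEq,
      not_false_eq_true, true_and, mem_blk]
    exact ⟨fun h => h.symm, fun h => h.symm⟩
  · rw [hy, toPB_o, toPB_K G _ hx]
    simp only [Cfsg.pointBlockRel, or_self, and_false, false_iff]
    exact fun h => hx.2 h.symm
  · rw [toPB_K G _ hx, toPB_P G _ hy]
    simp only [Cfsg.pointBlockRel, false_or, ne_eq, Option.some.injEq, reduceCtorEq,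
      not_false_eq_true, true_and, mem_blk]
  · rw [toPB_K G _ hx, toPB_K G _ hy]
    simp only [Cfsg.pointBlockRel, ne_eq, Option.some.injEq, Sum.inr.injEq]
    by_cases hxy : x = y
    · subst hxy
      simp
    · rw [disjoint_blk hG hx hy hxy, disjoint_blk hG hy hx (Ne.symm hxy)]
      constructor
      · rintro ⟨-, h | h⟩
        · exact h
        · exact h.symm
      · intro h
        exact ⟨fun e => hxy (blk_inj hG hx hy (congrArg Subtype.val e)), Or.inl h⟩

/-- the graph is the point-block graph of its Steiner system. -/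
noncomputable def isoPB : G ≃g Cfsg.pointBlockGraph (Bl G o) where
  toEquiv := Equiv.ofBijective (toPB G o) ⟨toPB_injective hG o, toPB_surjective o⟩
  map_rel_iff' := by
    intro x y
    exact toPB_adj hG o x y

end Cfsg.Agent.Lib.Helper3.Srg100
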