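import Cfsg.Agent.Lib.Helper3.StRigid

set_option autoImplicit false

namespace Cfsg.Agent.Lib.Helper3.Stq

open Cfsg

/-! ### arcs (sets meeting every block in at most two points) -/

def arcB (k : ℕ) (B0 : List ℕ) (m : ℕ) : Bool :=
  Nat.beq (pcG m) k && B0.all (fun l => Nat.ble (pcG (Nat.land l m)) 2)

def arcs (v k : ℕ) (B0 : List ℕ) : List ℕ := (ext k (List.range v) 0).filter (arcB k B0)

theorem arcs_lt {v k : ℕ} {B0 : List ℕ} {m : ℕ} (h : m ∈ arcs v k B0) : m < 2 ^ v :=
  ext_lt (List.range v) k 0 (by positivity) (fun x hx => List.mem_range.mp hx) m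
    (List.mem_filter.mp h).1

theorem card_inter_image {α β : Type*} [DecidableEq α] [DecidableEq β] (e : α ≃ β)
    (a b : Finset α) : (a.image e ∩ b.image e).card = (a ∩ b).card := by
  rw [← Finset.image_inter _ _ e.injective, Finset.card_image_of_injective _ e.injective]

theorem arc_char {α : Type*} [DecidableEq α] {v : ℕ} (hv : v ≤ 24)
    {L : Set (Finset α)} {B0 : List ℕ} (e : α ≃ Fin v)
    (he : (fun b => b.image e) '' L = setOf' v B0) (k : ℕ) (S : Finset α) :
    (S.card = k ∧ ∀ l ∈ L, (l ∩ S).card ≤ 2) ↔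
      ∃ m ∈ arcs v k B0, (toFs v m).image e.symm = S := by
  constructor
  · rintro ⟨hk, hS⟩
    obtain ⟨m, hm, hmS⟩ := ext_complete v (List.range v) k 0 (S.image e)
      (by rw [Finset.card_image_of_injective _ e.injective, hk])
      (fun y _ => List.mem_range.mpr y.2)
    rw [toFs_zero, Finset.empty_union] at hmS
    have hlt : m < 2 ^ v := ext_lt (List.range v) k 0 (by positivity)
      (fun x hx => List.mem_range.mp hx) m hm
    refine ⟨m, List.mem_filter.mpr ⟨hm, ?_⟩, ?_⟩
    · rw [arcB, Bool.and_eq_true, Nat.beq_eq, List.all_eq_true]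
      constructor
      · rw [pcG_card hv hlt, hmS, Finset.card_image_of_injective _ e.injective, hk]
      · intro l hl
        rw [Nat.ble_eq]
        show pcG (l &&& m) ≤ 2
        rw [pcG_card hv (lt_of_le_of_lt Nat.and_le_right hlt), toFs_land, hmS]
        have : toFs v l ∈ setOf' v B0 := ⟨l, hl, rfl⟩
        rw [← he] at this
        obtain ⟨l', hl', h2⟩ := this
        rw [← h2]
        simp only
        rw [card_inter_image]
        exact hS l' hl'
    · rw [hmS, Finset.image_image]
      simp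
  · rintro ⟨m, hm, rfl⟩
    have hlt := arcs_lt hm
    have h2 := (List.mem_filter.mp hm).2
    rw [arcB, Bool.and_eq_true, Nat.beq_eq, List.all_eq_true] at h2
    constructor
    · rw [Finset.card_image_of_injective _ e.symm.injective, ← pcG_card hv hlt, h2.1]
    · intro l hl
      have : l.image e ∈ setOf' v B0 := by
        rw [← he]
        exact ⟨l, hl, rfl⟩
      obtain ⟨c, hc, h3⟩ := this
      have h4 := h2.2 c hc
      rw [Nat.ble_eq] at h4
      have h4 : pcG (c &&& m) ≤ 2 := h4
      rw [pcG_card hv (lt_of_le_of_lt Nat.and_le_right hlt), toFs_land, h3] at h4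
      have h5 : l = (l.image e).image e.symm := by
        rw [Finset.image_image]
        simp
      rw [h5, card_inter_image]
      exact h4

theorem arc_ncard {α : Type*} [DecidableEq α] {v : ℕ} (hv : v ≤ 24)
    {L : Set (Finset α)} {B0 : List ℕ} (e : α ≃ Fin v)
    (he : (fun b => b.image e) '' L = setOf' v B0) (k : ℕ) (hnd : nodupB (arcs v k B0) = true) :
    {S : Finset α | (S.card = k ∧ ∀ l ∈ L, (l ∩ S).card ≤ 2)}.ncard = (arcs v k B0).length := by
  have h1 : {S : Finset α | (S.card = k ∧ ∀ l ∈ L, (l ∩ S).card ≤ 2)} =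
      (fun m => (toFs v m).image e.symm) '' ((arcs v k B0).toFinset : Set ℕ) := by
    ext S
    rw [Set.mem_setOf_eq, arc_char hv e he]
    simp
  rw [h1, Set.ncard_image_of_injOn, Set.ncard_coe_finset,
    List.toFinset_card_of_nodup (nodupB_iff hnd)]
  intro a ha b hb hab
  simp only [Finset.coe_sort_coe, Finset.mem_coe, List.mem_toFinset] at ha hb
  exact toFs_inj (arcs_lt ha) (arcs_lt hb) (Finset.image_injective e.symm.injective hab)

theorem toFs_subset_iff {v a b : ℕ} (ha : a < 2 ^ v) :
    toFs v a ⊆ toFs v b ↔ Nat.land b a = a := by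
  constructor
  · intro h
    apply toFs_inj (lt_of_le_of_lt Nat.and_le_right ha) ha
    show toFs v (b &&& a) = _
    rw [toFs_land]
    exact Finset.inter_eq_right.mpr h
  · intro h
    have : toFs v (b &&& a) = toFs v a := congrArg _ h
    rw [toFs_land] at this
    exact Finset.inter_eq_right.mp this

theorem arc_unique_ext {α : Type*} [DecidableEq α] {v : ℕ} (hv : v ≤ 24)
    {L : Set (Finset α)} {B0 : List ℕ} (e : α ≃ Fin v)
    (he : (fun b => b.image e) '' L = setOf' v B0) (k k' : ℕ)
    (hchk : (arcs v k B0).all (fun s => Nat.beq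
      ((arcs v k' B0).filter (fun h => Nat.beq (Nat.land h s) s)).length 1) = true)
    (S : Finset α) (hS : S.card = k ∧ ∀ l ∈ L, (l ∩ S).card ≤ 2) :
    ∃! H : Finset α, (H.card = k' ∧ ∀ l ∈ L, (l ∩ H).card ≤ 2) ∧ S ⊆ H := by
  rw [arc_char hv e he] at hS
  obtain ⟨m, hm, rfl⟩ := hS
  rw [List.all_eq_true] at hchk
  have h1 := hchk m hm
  rw [Nat.beq_eq, List.length_eq_one_iff] at h1
  obtain ⟨h0, hh0⟩ := h1
  have hmem : ∀ h, h ∈ (arcs v k' B0) ∧ Nat.land h m = m ↔ h = h0 := by
    intro h
    have : h ∈ (arcs v k' B0).filter (fun h => Nat.beq (Nat.land h m) m) ↔ h = h0 := by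
      rw [hh0]; simp
    rw [← this, List.mem_filter, Nat.beq_eq]
  have hlt := arcs_lt hm
  refine ⟨(toFs v h0).image e.symm, ⟨?_, ?_⟩, ?_⟩
  · rw [arc_char hv e he]
    exact ⟨h0, ((hmem h0).mpr rfl).1, rfl⟩
  · apply Finset.image_subset_image
    rw [toFs_subset_iff hlt]
    exact ((hmem h0).mpr rfl).2
  · rintro H ⟨hH, hsub⟩
    rw [arc_char hv e he] at hH
    obtain ⟨h, hh, rfl⟩ := hH
    rw [Finset.image_subset_image_iff e.symm.injective, toFs_subset_iff hlt] at hsub
    rw [(hmem h).mp ⟨hh, hsub⟩]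

end Cfsg.Agent.Lib.Helper3.Stq
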