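import Cfsg.Agent.Lib.Helper3.StArc

set_option autoImplicit false

namespace Cfsg.Agent.Lib.Helper3.Stq

open Cfsg

/-! ### marked search under the constraint that the marked points form an arc -/

def mkMask (mk : ℕ) : ℕ := Nat.pred (Nat.pow 2 mk)

theorem mem_mkMask {v mk : ℕ} {i : Fin v} : i ∈ toFs v (mkMask mk) ↔ (i : ℕ) < mk := by
  rw [mem_toFs]
  show (2 ^ mk - 1).testBit i = true ↔ _
  rw [Nat.testBit_two_pow_sub_one]
  simp

theorem mkMask_lt {v mk : ℕ} (h : mk ≤ v) : mkMask mk < 2 ^ v := by
  have h1 : 2 ^ mk ≤ 2 ^ v := Nat.pow_le_pow_right (by norm_num) h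
  have h2 : 0 < 2 ^ mk := by positivity
  show 2 ^ mk - 1 < 2 ^ v
  omega

def Con (v mk : ℕ) (B : Set (Finset (Fin v))) : Prop :=
  ∀ l ∈ B, (l ∩ toFs v (mkMask mk)).card ≤ 2

def QC (v mk : ℕ) (B0 : Set (Finset (Fin v))) (B : Set (Finset (Fin v))) : Prop :=
  Con v mk B → QM v mk B0 B

def okc (mk : ℕ) (b : ℕ) : Bool := Nat.ble (pcG (Nat.land b (mkMask mk))) 2

def chkC (v t r mk : ℕ) (G0 : List ℕ) : Cert → Bool → List ℕ → List ℕ → List ℕ → Bool
  | .goto sw, true, F, _, _ => swOK mk sw && subl G0 (F.map (ap v sw))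
  | .node T ch, true, F, _, _ =>
      Nat.blt T (Nat.pow 2 v) && Nat.beq (pcG T) t &&
        F.all (fun c => Nat.blt (pcG (Nat.land c T)) t) &&
        chkC v t r mk G0 ch false F ((cands v t r T F).filter (okc mk)) []
  | .nil, false, _, [], _ => true
  | .sub c rest, false, F, b :: cs, done =>
      chkC v t r mk G0 c true (b :: F) [] [] && chkC v t r mk G0 rest false F cs (b :: done)
  | .iso bi sw rest, false, F, b :: cs, done =>
      swOK mk sw && memB bi done && subl (bi :: F) ((b :: F).map (ap v sw)) &&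
        chkC v t r mk G0 rest false F cs done
  | _, _, _, _, _ => false

theorem con_image {v mk : ℕ} {B : Set (Finset (Fin v))} (π : Equiv.Perm (Fin v))
    (hπ : ∀ i : Fin v, (i : ℕ) < mk → π i = i) (h : Con v mk B) :
    Con v mk ((fun b => b.image π) '' B) := by
  rintro _ ⟨l, hl, rfl⟩
  simp only
  have hM : toFs v (mkMask mk) = (toFs v (mkMask mk)).image π := by
    ext j
    rw [Finset.mem_image]
    constructor
    · intro hj
      exact ⟨j, hj, hπ j (mem_mkMask.mp hj)⟩
    · rintro ⟨i, hi, rfl⟩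
      rw [hπ i (mem_mkMask.mp hi)]
      exact hi
  rw [hM, card_inter_image]
  exact h l hl

theorem PC_of_map {v t k mk : ℕ} {B0 : Set (Finset (Fin v))} {F G : List ℕ} (sw : List (ℕ × ℕ))
    (hsw : swOK mk sw = true)
    (h : subl G (F.map (ap v sw)) = true) (hG : PQ v t k (QC v mk B0) G) :
    PQ v t k (QC v mk B0) F := by
  intro B hB hF hCon
  rw [subl_iff] at h
  obtain ⟨σ, hfix, hσ⟩ := hG _ (steiner_image (permOf v sw) hB) (by
    intro c hc
    obtain ⟨c', hc', rfl⟩ := List.mem_map.mp (h c hc)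
    exact ⟨toFs v c', hF c' hc', (toFs_ap v sw c').symm⟩)
    (con_image _ (permOf_fix sw hsw) hCon)
  refine ⟨σ * permOf v sw, ?_, ?_⟩
  · intro i hi
    rw [Equiv.Perm.mul_apply, permOf_fix sw hsw i hi, hfix i hi]
  · rw [← hσ, Set.image_image]
    congr 1
    funext b
    rw [Finset.image_image]
    rfl

theorem PC_bad {v t k mk : ℕ} (hv : v ≤ 24) (hmk : mk ≤ v) {B0 : Set (Finset (Fin v))}
    {F : List ℕ} {b : ℕ} (hb : okc mk b = false) : PQ v t k (QC v mk B0) (b :: F) := by
  intro B _ hF hCon
  exfalso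
  have h1 := hCon _ (hF b (by simp))
  rw [← toFs_land, ← pcG_card hv (lt_of_le_of_lt Nat.and_le_right (mkMask_lt hmk))] at h1
  have : okc mk b = true := by
    rw [okc, Nat.ble_eq]
    exact h1
  rw [this] at hb
  simp at hb

def ClaimC (v t k mk : ℕ) (B0 : Set (Finset (Fin v))) : Bool → List ℕ → List ℕ → List ℕ → Prop
  | true, F, _, _ => PQ v t k (QC v mk B0) F
  | false, F, cs, done => (∀ b ∈ done, PQ v t k (QC v mk B0) (b :: F)) →
      ∀ b ∈ cs, PQ v t k (QC v mk B0) (b :: F)

theorem soundC {v t k r mk : ℕ} (hv : v ≤ 24) (hmk : mk ≤ v) (hk : k = t + r)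
    {B0 : Set (Finset (Fin v))}
    {G0 : List ℕ} (hG0 : PQ v t k (QC v mk B0) G0) :
    ∀ (c : Cert) (mode : Bool) (F cs done : List ℕ),
    chkC v t r mk G0 c mode F cs done = true → ClaimC v t k mk B0 mode F cs done := by
  intro c
  induction c with
  | goto sw =>
    intro mode F cs done h
    cases mode with
    | false => simp [chkC] at h
    | true =>
      simp only [chkC, Bool.and_eq_true] at h
      exact PC_of_map sw h.1 h.2 hG0
  | node T ch ih =>
    intro mode F cs done h
    cases mode with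
    | false => simp [chkC] at h
    | true =>
      simp only [chkC, Bool.and_eq_true, List.all_eq_true, Nat.blt_eq, Nat.beq_eq] at h
      have := ih false F _ [] h.2
      refine PQ_node hv hk h.1.1.1 h.1.1.2 h.1.2 ?_
      intro b hb
      cases hok : okc mk b with
      | true => exact this (by simp) b (List.mem_filter.mpr ⟨hb, hok⟩)
      | false => exact PC_bad hv hmk hok
  | nil =>
    intro mode F cs done h
    cases mode with
    | true => simp [chkC] at h
    | false =>
      cases cs with
      | nil => intro _ b hb; simp at hb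
      | cons b cs => simp [chkC] at h
  | sub c rest ih1 ih2 =>
    intro mode F cs done h
    cases mode with
    | true => simp [chkC] at h
    | false =>
      cases cs with
      | nil => simp [chkC] at h
      | cons b cs =>
        simp only [chkC, Bool.and_eq_true] at h
        have h1 : PQ v t k (QC v mk B0) (b :: F) := ih1 true (b :: F) [] [] h.1
        have h2 := ih2 false F cs (b :: done) h.2
        intro hd b' hb'
        rcases List.mem_cons.mp hb' with rfl | hb'
        · exact h1
        · refine h2 ?_ b' hb'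
          intro d hd'
          rcases List.mem_cons.mp hd' with rfl | hd'
          · exact h1
          · exact hd d hd'
  | iso bi sw rest ih =>
    intro mode F cs done h
    cases mode with
    | true => simp [chkC] at h
    | false =>
      cases cs with
      | nil => simp [chkC] at h
      | cons b cs =>
        simp only [chkC, Bool.and_eq_true] at h
        have h2 := ih false F cs done h.2
        intro hd b' hb'
        rcases List.mem_cons.mp hb' with rfl | hb'
        · exact PC_of_map sw h.1.1.1 h.1.2 (hd bi (memB_iff.mp h.1.1.2))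
        · exact h2 hd b' hb'

theorem PC_base {v t k mk : ℕ} {L : List ℕ} (h : baseOK v t k L = true) :
    PQ v t k (QC v mk (setOf' v L)) L := fun B hB hL _ => PM_base h B hB hL

/-- marked isomorphism to the standard model, the marked points forming an arc. -/
theorem iso_of_PC {v t k mk : ℕ} {B0 : Set (Finset (Fin v))} (hP : PQ v t k (QC v mk B0) [])
    {α : Type*} [Fintype α] [DecidableEq α] (hα : Fintype.card α = v) {B : Set (Finset α)}
    (hB : IsSteinerSystem t k B) (x : Fin mk ↪ α)
    (hx : ∀ l ∈ B, (l ∩ Finset.univ.image x).card ≤ 2) :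
    ∃ e : α ≃ Fin v, (fun b => b.image e) '' B = B0 ∧ ∀ i : Fin mk, ((e (x i) : Fin v) : ℕ) = i := by
  have hmk : mk ≤ v := by
    have := Fintype.card_le_of_embedding x
    rwa [Fintype.card_fin, hα] at this
  let e1 := Fintype.equivFinOfCardEq hα
  obtain ⟨g, hg⟩ := (MulAction.isMultiplyPretransitive_iff (G := Equiv.Perm (Fin v))
    (α := Fin v) (n := mk)).mp (Equiv.Perm.isMultiplyPretransitive (Fin v) mk)
    (x.trans e1.toEmbedding) (Fin.castLEEmb hmk)
  have hgx : ∀ i, g (e1 (x i)) = Fin.castLE hmk i := fun i => DFunLike.congr_fun hg i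
  obtain ⟨σ, hfix, hσ⟩ := hP _ (steiner_image (e1.trans g) hB) (by simp) (by
    rintro _ ⟨l, hl, rfl⟩
    simp only
    have hM : toFs v (mkMask mk) = (Finset.univ.image x).image (e1.trans g) := by
      ext j
      rw [mem_mkMask, Finset.image_image, Finset.mem_image]
      constructor
      · intro hj
        refine ⟨⟨j, hj⟩, Finset.mem_univ _, ?_⟩
        show g (e1 (x ⟨j, hj⟩)) = j
        rw [hgx]
        rfl
      · rintro ⟨i, -, rfl⟩
        show ((g (e1 (x i)) : Fin v) : ℕ) < mk
        rw [hgx]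
        exact i.2
    rw [hM, card_inter_image]
    exact hx l hl)
  refine ⟨(e1.trans g).trans σ, ?_, ?_⟩
  · rw [← hσ, Set.image_image]
    congr 1
    funext b
    rw [Finset.image_image]
    rfl
  · intro i
    show ((σ (g (e1 (x i))) : Fin v) : ℕ) = i
    rw [hgx, hfix _ (by simp)]
    simp

/-! ### a richer rigidity checker -/

theorem inv_and {v : ℕ} {σ : Equiv.Perm (Fin v)} {p q : ℕ × ℕ} (hp : Inv v σ p) (hq : Inv v σ q) :
    Inv v σ (p.1 &&& q.1, p.2 &&& q.2) := by
  unfold Inv at *
  simp only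
  rw [toFs_land, toFs_land, Finset.image_inter _ _ σ.injective, hp, hq]

inductive Step2 where
  | blk (s : Step)
  | and (p q : ℕ × ℕ)
  | xor (p q : ℕ × ℕ)

def step2OK (v t : ℕ) (L : List ℕ) (K : List (ℕ × ℕ)) : Step2 → Bool
  | .blk s => stepOK v t L K s
  | .and p q => memP p K && memP q K
  | .xor p q => memP p K && memP q K

def new2 : Step2 → ℕ × ℕ
  | .blk s => newP s
  | .and p q => (Nat.land p.1 q.1, Nat.land p.2 q.2)
  | .xor p q => (Nat.xor p.1 q.1, Nat.xor p.2 q.2)

def rig2 (v t : ℕ) (L : List ℕ) : List Step2 → Term → List (ℕ × ℕ) → Bool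
  | [], T, K => termOK v K T
  | s :: l, T, K => step2OK v t L K s && rig2 v t L l T (new2 s :: K)

theorem rig2_sound {v t k : ℕ} (hv : v ≤ 24) {L : List ℕ} (hS : IsSteinerSystem t k (setOf' v L))
    {σ : Equiv.Perm (Fin v)} (hσ : ∀ b ∈ setOf' v L, b.image σ ∈ setOf' v L) :
    ∀ (l : List Step2) (T : Term) (K : List (ℕ × ℕ)), (∀ p ∈ K, Inv v σ p) →
      rig2 v t L l T K = true → σ = 1
  | [], T, K, hK, h => rig_sound hv hS hσ [] T K hK h
  | s :: l, T, K, hK, h => by
    rw [rig2, Bool.and_eq_true] at h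
    refine rig2_sound hv hS hσ l T (new2 s :: K) ?_ h.2
    intro p hp
    rcases List.mem_cons.mp hp with rfl | hp
    · cases s with
      | blk s => exact inv_step hv hS hσ hK h.1
      | and p q =>
        have h1 := h.1
        rw [step2OK, Bool.and_eq_true] at h1
        exact inv_and (hK p (memP_mem h1.1)) (hK q (memP_mem h1.2))
      | xor p q =>
        have h1 := h.1
        rw [step2OK, Bool.and_eq_true] at h1
        exact inv_xor (hK p (memP_mem h1.1)) (hK q (memP_mem h1.2))
    · exact hK p hp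

/-- the pairs `(2^i, 2^i)` for a list of fixed points. -/
theorem inv_fixed {v : ℕ} {σ : Equiv.Perm (Fin v)} (fx : List ℕ)
    (hfix : ∀ i : Fin v, (i : ℕ) ∈ fx → σ i = i) (hlt : ∀ i ∈ fx, i < v) :
    ∀ p ∈ fx.map (fun i => (Nat.pow 2 i, Nat.pow 2 i)), Inv v σ p := by
  intro p hp
  obtain ⟨i, hi, rfl⟩ := List.mem_map.mp hp
  unfold Inv
  show (toFs v (2 ^ i)).image σ = toFs v (2 ^ i)
  have hiv : i < v := hlt i hi
  rw [show (2 ^ i : ℕ) = 2 ^ ((⟨i, hiv⟩ : Fin v) : ℕ) from rfl, toFs_pow, Finset.image_singleton,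
    hfix ⟨i, hiv⟩ hi]

end Cfsg.Agent.Lib.Helper3.Stq
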