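import Cfsg.Agent.Lib.Helper3.StSearch

set_option autoImplicit false
set_option maxRecDepth 100000

namespace Cfsg.Agent.Lib.Helper3.Stq.D21

open Cfsg Cfsg.Agent.Lib.Helper3.Stq

def B0 : List ℕ := [295696, 197776, 1058896, 544816, 533768, 1065608, 168008, 329768, 149764, 274564, 590404, 1082404, 1118466, 559234, 279618, 139810, 1966081, 122881, 7681, 481, 31]

end Cfsg.Agent.Lib.Helper3.Stq.D21
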