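import Cfsg.Agent.Lib.Helper3.StD22a

set_option autoImplicit false
set_option maxRecDepth 100000

namespace Cfsg.Agent.Lib.Helper3.Stq.D22

open Cfsg Cfsg.Agent.Lib.Helper3.Stq

theorem base : P 22 3 6 (setOf' 22 B0) B0 := P_base (by decide +kernel)

theorem main : P 22 3 6 (setOf' 22 B0) [] := (phA _ base)

end Cfsg.Agent.Lib.Helper3.Stq.D22
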