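import Cfsg.Agent.Lib.Helper3.StSearch

set_option autoImplicit false
set_option maxRecDepth 100000

namespace Cfsg.Agent.Lib.Helper3.Stq.D22

open Cfsg Cfsg.Agent.Lib.Helper3.Stq

def B0 : List ℕ := [2732032, 1470464, 1412096, 2771968, 1737472, 2441984, 203392, 59008, 3156352, 791936, 797248, 3151424, 55616, 206144, 2523328, 1654976, 3342384, 835632, 13104, 3312, 1579048, 2368552, 98728, 148072, 174104, 87064, 2622104, 1311064, 92196, 168996, 1311396, 2621796, 2365460, 1582100, 147860, 98900, 983052, 3194892, 3852, 12492, 2132514, 1066274, 663714, 331874, 394770, 592146, 1085586, 2121810, 1122826, 2232586, 280714, 558154, 545286, 303366, 2163846, 1181766, 591393, 395553, 2117793, 1089633, 1067537, 2131217, 336017, 659537, 299529, 549129, 1180809, 2164809, 2236933, 1118469, 559237, 279621, 3932163, 245763, 15363, 963, 63]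

end Cfsg.Agent.Lib.Helper3.Stq.D22
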