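import Cfsg.Agent.Lib.Helper3.StD24a
import Cfsg.Agent.Lib.Helper3.StD24b
import Cfsg.Agent.Lib.Helper3.StD24c

set_option autoImplicit false
set_option maxRecDepth 100000

namespace Cfsg.Agent.Lib.Helper3.Stq.D24

open Cfsg Cfsg.Agent.Lib.Helper3.Stq

theorem base : P 24 5 8 (setOf' 24 B0) B0 := P_base (by decide +kernel)

theorem main : P 24 5 8 (setOf' 24 B0) [] := (phA _ (phB _ (phC _ base)))

end Cfsg.Agent.Lib.Helper3.Stq.D24
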