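import Cfsg.Agent.Lib.Helper3.StSrg

set_option autoImplicit false

namespace Cfsg.Agent.Lib.Helper3.Stq

open Cfsg

/-! ### coding the vertices of the point-block graph -/

def adjP (p q : ℕ × ℕ) : Bool :=
  bif Nat.beq (Nat.add p.1 q.1) 0 then (!(Nat.beq p.2 q.2) && Nat.beq (Nat.land p.2 q.2) 0)
  else bif Nat.beq (Nat.add p.1 q.1) 1 then !(Nat.beq (Nat.land p.2 q.2) 0)
  else Nat.beq (Nat.add p.1 q.1) 3

theorem nbeq_false (x y : ℕ) : Nat.beq x y = false ↔ ¬ x = y := by
  rw [← Bool.not_eq_true, Nat.beq_eq]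

section vcode

variable {α : Type*} [DecidableEq α] {v : ℕ} {B : Set (Finset α)} {L : List ℕ} (e : α ≃ Fin v)
  (he : (fun b => b.image e) '' B = setOf' v L)

noncomputable def vcode : Option (α ⊕ B) → ℕ × ℕ
  | none => (2, 0)
  | some (Sum.inl a) => (1, Nat.pow 2 (e a))
  | some (Sum.inr b) => (0, bcode e he b)

theorem vcode_inj : Function.Injective (vcode e he) := by
  intro x y h
  rcases x with _ | a | b <;> rcases y with _ | a' | b' <;> simp only [vcode, Prod.mk.injEq] at h
  · rfl
  · omega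
  · omega
  · omega
  · have h2 : (2 : ℕ) ^ ((e a : Fin v) : ℕ) = 2 ^ ((e a' : Fin v) : ℕ) := h.2
    have h3 := Nat.pow_right_injective (le_refl 2) h2
    rw [e.injective (Fin.ext h3)]
  · omega
  · omega
  · omega
  · rw [bcode_inj e he h.2]

def vlist (v : ℕ) (L : List ℕ) : List (ℕ × ℕ) :=
  (2, 0) :: ((List.range v).map (fun i => (1, Nat.pow 2 i)) ++ L.map (fun c => (0, c)))

theorem vcode_surj (hL : ∀ c ∈ L, c < 2 ^ v) (m : ℕ × ℕ) :
    m ∈ vlist v L ↔ ∃ x, vcode e he x = m := by
  constructor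
  · intro hm
    rcases List.mem_cons.mp hm with rfl | hm
    · exact ⟨none, rfl⟩
    rcases List.mem_append.mp hm with hm | hm
    · obtain ⟨i, hi, rfl⟩ := List.mem_map.mp hm
      refine ⟨some (Sum.inl (e.symm ⟨i, List.mem_range.mp hi⟩)), ?_⟩
      simp [vcode]
    · obtain ⟨c, hc, rfl⟩ := List.mem_map.mp hm
      obtain ⟨b, rfl⟩ := (bcode_surj e he hL c).mp hc
      exact ⟨some (Sum.inr b), rfl⟩
  · rintro ⟨x, rfl⟩
    rcases x with _ | a | b
    · simp [vcode, vlist]
    · apply List.mem_cons_of_mem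
      apply List.mem_append_left
      exact List.mem_map.mpr ⟨(e a : Fin v), List.mem_range.mpr (e a).2, rfl⟩
    · apply List.mem_cons_of_mem
      apply List.mem_append_right
      exact List.mem_map.mpr ⟨_, bcode_mem e he b, rfl⟩

theorem mem_iff_land (a : α) (b : B) :
    a ∈ (b : Finset α) ↔ ¬ Nat.land (Nat.pow 2 (e a)) (bcode e he b) = 0 := by
  have h1 : a ∈ (b : Finset α) ↔ e a ∈ toFs v (bcode e he b) := by
    rw [toFs_bcode, Finset.mem_image]
    constructor
    · intro h; exact ⟨a, h, rfl⟩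
    · rintro ⟨a', h, h'⟩
      rwa [← e.injective h']
  rw [h1, mem_toFs]
  show _ ↔ ¬ (2 ^ ((e a : Fin v) : ℕ) &&& bcode e he b = 0)
  rw [Nat.and_comm, Nat.and_two_pow]
  cases (bcode e he b).testBit (e a : Fin v) <;> simp

theorem adj_vcode (hL : ∀ c ∈ L, c < 2 ^ v) (x y : Option (α ⊕ B)) :
    (pointBlockGraph B).Adj x y ↔ adjP (vcode e he x) (vcode e he y) = true := by
  rw [pointBlockGraph, SimpleGraph.fromRel_adj]
  rcases x with _ | a | b <;> rcases y with _ | a' | b'
  · simp [vcode, adjP, pointBlockRel, nbeq_false]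
  · simp [vcode, adjP, pointBlockRel, nbeq_false]
  · simp [vcode, adjP, pointBlockRel, nbeq_false]
  · simp [vcode, adjP, pointBlockRel, nbeq_false]
  · simp [vcode, adjP, pointBlockRel, nbeq_false]
  · have := mem_iff_land e he a b'
    simp only [vcode, adjP, pointBlockRel, or_false, ne_eq, reduceCtorEq, not_false_eq_true,
      true_and, Option.some.injEq]
    rw [this]
    simp [nbeq_false]
  · simp [vcode, adjP, pointBlockRel, nbeq_false]
  · have := mem_iff_land e he a' b
    simp only [vcode, adjP, pointBlockRel, false_or, ne_eq, reduceCtorEq, not_false_eq_true,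
      true_and, Option.some.injEq]
    rw [this, show Nat.land (bcode e he b) (Nat.pow 2 (e a')) =
      Nat.land (Nat.pow 2 (e a')) (bcode e he b) from Nat.and_comm _ _]
    simp [nbeq_false]
  · simp only [vcode, adjP, pointBlockRel, ne_eq, Option.some.injEq, Sum.inr.injEq]
    rw [disjoint_comm (a := (b' : Finset α)), or_self, disjoint_iff_land e he hL,
      ← (bcode_inj e he).eq_iff]
    simp [nbeq_false]

end vcode

end Cfsg.Agent.Lib.Helper3.Stq
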