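import Cfsg.Agent.Lib.Helper3.StHS

set_option autoImplicit false

namespace Cfsg.Agent.Lib.Helper3.Stq

open Cfsg

/-! ### the stabiliser of the extra vertex in the point-block graph -/

section stab

variable {α : Type*} [Fintype α] [DecidableEq α] {B : Set (Finset α)}

theorem pb_adj (x y : Option (α ⊕ B)) : (pointBlockGraph B).Adj x y ↔
    x ≠ y ∧ (pointBlockRel B x y ∨ pointBlockRel B y x) := SimpleGraph.fromRel_adj _ _ _

def imgEquiv (σ : Equiv.Perm α) : Finset α ≃ Finset α where
  toFun b := b.image σ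
  invFun b := b.image σ.symm
  left_inv b := by simp [Finset.image_image]
  right_inv b := by simp [Finset.image_image]

def blockEquiv (σ : setSystemAut B) : B ≃ B :=
  (imgEquiv σ.1).subtypeEquiv (fun b => ((mem_aut_iff.mp σ.2 b)).symm)

def vEquiv (σ : setSystemAut B) : Option (α ⊕ B) ≃ Option (α ⊕ B) :=
  Equiv.optionCongr (Equiv.sumCongr σ.1 (blockEquiv σ))

theorem rel_vEquiv (σ : setSystemAut B) (x y : Option (α ⊕ B)) :
    pointBlockRel B (vEquiv σ x) (vEquiv σ y) ↔ pointBlockRel B x y := by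
  rcases x with _ | a | b <;> rcases y with _ | a' | b' <;>
    simp [vEquiv, pointBlockRel, blockEquiv, imgEquiv, Finset.disjoint_image σ.1.injective]

def Phi (σ : setSystemAut B) : pointBlockGraph B ≃g pointBlockGraph B where
  toEquiv := vEquiv σ
  map_rel_iff' := by
    intro x y
    rw [pb_adj, pb_adj, rel_vEquiv, rel_vEquiv, (vEquiv σ).injective.ne_iff]

theorem Phi_none (σ : setSystemAut B) : Phi σ none = none := rfl

theorem Phi_inl (σ : setSystemAut B) (a : α) :
    Phi σ (some (Sum.inl a)) = some (Sum.inl (σ.1 a)) := rfl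

theorem Phi_inr (σ : setSystemAut B) (b : B) :
    Phi σ (some (Sum.inr b)) = some (Sum.inr (blockEquiv σ b)) := rfl

theorem exists_Phi (φ : pointBlockGraph B ≃g pointBlockGraph B) (hn : φ none = none) :
    ∃ σ : setSystemAut B, Phi σ = φ := by
  have hA : ∀ a, ∃ a', φ (some (Sum.inl a)) = some (Sum.inl a') := by
    intro a
    have h1 : (pointBlockGraph B).Adj (φ none) (φ (some (Sum.inl a))) :=
      φ.map_rel_iff.mpr (by simp [pb_adj, pointBlockRel])
    rw [hn] at h1
    rcases h : φ (some (Sum.inl a)) with _ | a' | b'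
    · rw [h] at h1
      simp [pb_adj] at h1
    · exact ⟨a', rfl⟩
    · rw [h] at h1
      simp [pb_adj, pointBlockRel] at h1
  choose f hf using hA
  have hfinj : Function.Injective f := by
    intro a a' h
    have : φ (some (Sum.inl a)) = φ (some (Sum.inl a')) := by rw [hf, hf, h]
    simpa using φ.injective this
  let σ : Equiv.Perm α := Equiv.ofBijective f (Finite.injective_iff_bijective.mp hfinj)
  have hBk : ∀ b : B, ∃ b' : B, φ (some (Sum.inr b)) = some (Sum.inr b') := by
    intro b
    rcases h : φ (some (Sum.inr b)) with _ | a' | b'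
    · exfalso
      have : φ (some (Sum.inr b)) = φ none := by rw [h, hn]
      simpa using φ.injective this
    · exfalso
      have h1 : (pointBlockGraph B).Adj (φ none) (φ (some (Sum.inr b))) := by
        rw [hn, h]
        simp [pb_adj, pointBlockRel]
      have h2 := φ.map_rel_iff.mp h1
      simp [pb_adj, pointBlockRel] at h2
    · exact ⟨b', rfl⟩
  choose g hg using hBk
  have hgb : ∀ b : B, (g b : Finset α) = (b : Finset α).image σ := by
    intro b
    ext x
    obtain ⟨a, rfl⟩ := σ.surjective x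
    have h1 : (pointBlockGraph B).Adj (φ (some (Sum.inl a))) (φ (some (Sum.inr b))) ↔
        (pointBlockGraph B).Adj (some (Sum.inl a)) (some (Sum.inr b)) := φ.map_rel_iff
    rw [hf, hg] at h1
    simp only [pb_adj, pointBlockRel, or_false, ne_eq, Option.some.injEq, reduceCtorEq,
      not_false_eq_true, true_and] at h1
    rw [σ.injective.mem_finset_image]
    exact h1
  have hσ : σ ∈ setSystemAut B := maps_mem_aut (fun b hb => by
    rw [← hgb ⟨b, hb⟩]
    exact (g ⟨b, hb⟩).2)
  refine ⟨⟨σ, hσ⟩, ?_⟩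
  ext x
  rcases x with _ | a | b
  · rw [Phi_none, hn]
  · rw [Phi_inl, hf]
    rfl
  · rw [Phi_inr, hg]
    have : blockEquiv ⟨σ, hσ⟩ b = g b := Subtype.ext (hgb b).symm
    rw [this]

theorem Phi_injective : Function.Injective (Phi (B := B)) := by
  intro σ τ h
  apply Subtype.ext
  ext a
  have h1 := DFunLike.congr_fun h (some (Sum.inl a))
  rw [Phi_inl, Phi_inl] at h1
  simpa using h1

theorem card_stab_none : Nat.card (MulAction.stabilizer (pointBlockGraph B ≃g pointBlockGraph B)
    (none : Option (α ⊕ B))) = Nat.card (setSystemAut B) := by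
  symm
  refine Nat.card_congr (Equiv.ofBijective (fun σ => ⟨Phi σ, ?_⟩) ⟨?_, ?_⟩)
  · rw [MulAction.mem_stabilizer_iff]
    rfl
  · intro σ τ h
    exact Phi_injective (congrArg Subtype.val h)
  · rintro ⟨φ, hφ⟩
    obtain ⟨σ, hσ⟩ := exists_Phi φ hφ
    exact ⟨σ, Subtype.ext hσ⟩

end stab

/-! ### automorphisms from tables -/

theorem aut_of_table {V κ : Type*} [Finite V] [DecidableEq κ] (G : SimpleGraph V) (code : V → κ)
    (hinj : Function.Injective code) (Ls : List κ)
    (hr : ∀ m, m ∈ Ls ↔ ∃ v, code v = m) (adj : κ → κ → Bool)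
    (hadj : ∀ v w, G.Adj v w ↔ adj (code v) (code w) = true) (T : List (κ × κ))
    (h1 : T.map Prod.fst = Ls) (h2 : ∀ p ∈ T, p.2 ∈ Ls) (h3 : (T.map Prod.snd).Nodup)
    (h4 : T.all (fun p => T.all (fun q => adj p.1 q.1 == adj p.2 q.2)) = true) :
    ∃ φ : G ≃g G, ∀ v, (code v, code (φ v)) ∈ T := by
  have hex : ∀ v, ∃ w, (code v, code w) ∈ T := by
    intro v
    have h5 : code v ∈ T.map Prod.fst := by
      rw [h1]
      exact (hr _).mpr ⟨v, rfl⟩
    obtain ⟨p, hp, hpv⟩ := List.mem_map.mp h5
    obtain ⟨w, hw⟩ := (hr _).mp (h2 p hp)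
    refine ⟨w, ?_⟩
    rw [hw, ← hpv]
    exact hp
  choose f hf using hex
  have hfinj : Function.Injective f := by
    intro v v' h
    have h5 := List.inj_on_of_nodup_map h3 (hf v) (hf v') (by simp only; rw [h])
    exact hinj (congrArg Prod.fst h5)
  rw [List.all_eq_true] at h4
  refine ⟨⟨Equiv.ofBijective f (Finite.injective_iff_bijective.mp hfinj), ?_⟩, hf⟩
  intro v w
  show G.Adj (f v) (f w) ↔ G.Adj v w
  have h5 := h4 _ (hf v)
  rw [List.all_eq_true] at h5
  have h6 := h5 _ (hf w)
  rw [beq_iff_eq] at h6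
  simp only at h6
  rw [hadj, hadj, h6]

end Cfsg.Agent.Lib.Helper3.Stq
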