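import Cfsg.Agent.Lib.Helper3.StSign
import Cfsg.Agent.Lib.Helper3.StN22o

set_option autoImplicit false
set_option maxRecDepth 100000

namespace Cfsg.Agent.Lib.Helper3.Stq.N22

open Cfsg Cfsg.Agent.Lib.Helper3.Stq

def sOdd : List (ℕ × ℕ) := [(4, 5), (8, 9), (12, 13), (14, 18), (15, 19), (16, 21), (17, 20)]

theorem odd1 : (swOK 3 sOdd && subl (B0.map (ap 22 sOdd)) B0) = true := by decide +kernel

theorem odd2 : sOdd.all (fun p => Nat.blt p.1 22 && Nat.blt p.2 22 && !(Nat.beq p.1 p.2)) = true := by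
  decide +kernel

theorem odd_sign : Equiv.Perm.sign (permOf 22 sOdd) = -1 := by
  rw [sign_permOf sOdd odd2]
  rfl

theorem odd_mem : permOf 22 sOdd ∈ FixM 22 3 B0 := by
  have := odd1
  rw [Bool.and_eq_true] at this
  exact ⟨permOf_mem_aut _ this.2, permOf_fix _ this.1⟩

theorem fixchk : Tb.all (fun s => Nat.blt (fixCnt 22 s 22) 11 || Nat.beq (fixCnt 22 s 22) 22) = true := by
  decide +kernel

end Cfsg.Agent.Lib.Helper3.Stq.N22
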