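import Cfsg.Agent.Lib.Helper3.StHS2
import Cfsg.Agent.Lib.Helper3.StN22p

set_option autoImplicit false

namespace Cfsg.Agent.Lib.Helper3.Stq

open Cfsg

/-- an involution moving `4 k` points is even. -/
theorem sign_invol {X : Type*} [Fintype X] [DecidableEq X] (π : Equiv.Perm X)
    (h2 : ∀ x, π (π x) = x) (k : ℕ)
    (hk : (Finset.univ.filter (fun x => π x ≠ x)).card = 4 * k) :
    Equiv.Perm.sign π = 1 := by
  have hord : π ^ 2 = 1 := by
    ext x
    simp [pow_two, h2]
  have hall : ∀ n ∈ π.cycleType, n = 2 := by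
    intro n hn
    have h3 := Equiv.Perm.two_le_of_mem_cycleType hn
    have h4 := (Equiv.Perm.dvd_of_mem_cycleType hn).trans (orderOf_dvd_of_pow_eq_one hord)
    have h5 := Nat.le_of_dvd (by norm_num) h4
    omega
  have hrep := Multiset.eq_replicate_card.mpr hall
  have hsum := Equiv.Perm.sum_cycleType π
  have hsupp : π.support = Finset.univ.filter (fun x => π x ≠ x) := by
    ext x
    simp
  rw [hsupp, hk] at hsum
  have h6 : π.cycleType.sum = Multiset.card π.cycleType * 2 := by
    conv_lhs => rw [hrep]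
    rw [Multiset.sum_replicate, smul_eq_mul]
  have h7 : Multiset.card π.cycleType = 2 * k := by omega
  rw [Equiv.Perm.sign_of_cycleType, hsum, h7, show 4 * k + 2 * k = 2 * (3 * k) by ring, pow_mul]
  simp

/-- the kernel of a sign character is as transitive as the group, if an odd element fixes
the base point. -/
theorem ker_trans {G X : Type*} [Group G] [MulAction G X] (χ : G →* ℤˣ) (u : G) (hu : χ u = -1)
    (x0 : X) (hux : u • x0 = x0) (s t : G) : ∃ g : G, χ g = 1 ∧ g • (s • x0) = t • x0 := by
  rcases Int.units_eq_one_or (χ (t * s⁻¹)) with h | h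
  · exact ⟨t * s⁻¹, h, by rw [mul_smul, inv_smul_smul]⟩
  · refine ⟨t * u * s⁻¹, ?_, by rw [mul_smul, mul_smul, inv_smul_smul, hux]⟩
    rw [map_mul, map_mul, hu, mul_comm (χ t), mul_assoc, ← map_mul, h]
    decide

/-- a character of a big simple group is trivial. -/
theorem char_trivial {M : Type*} [Group M] [IsSimpleGroup M] (hM : 2 < Nat.card M)
    (θ : M →* ℤˣ) (m : M) : θ m = 1 := by
  rcases IsSimpleGroup.eq_bot_or_eq_top_of_normal θ.ker inferInstance with h | h
  · exfalso
    have hinj : Function.Injective θ := (MonoidHom.ker_eq_bot_iff θ).mp h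
    have h1 := Nat.card_le_card_of_injective θ hinj
    have h2 : Nat.card ℤˣ = 2 := by
      rw [Nat.card_eq_fintype_card]
      rfl
    omega
  · have : m ∈ θ.ker := by rw [h]; trivial
    exact this

section

variable {α : Type*} [Fintype α] [DecidableEq α] {B : Set (Finset α)}

theorem Phi_mul (σ τ : setSystemAut B) : Phi (σ * τ) = Phi σ * Phi τ := by
  refine DFunLike.ext _ _ (fun x => ?_)
  rcases x with _ | a | b
  · rfl
  · rfl
  · show some (Sum.inr (blockEquiv (σ * τ) b)) = some (Sum.inr (blockEquiv σ (blockEquiv τ b)))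
    congr 2
    apply Subtype.ext
    show (b : Finset α).image (σ * τ).1 = ((b : Finset α).image τ.1).image σ.1
    rw [Finset.image_image]
    rfl

theorem Phi_one : Phi (1 : setSystemAut B) = 1 := by
  refine DFunLike.ext _ _ (fun x => ?_)
  rcases x with _ | a | b
  · rfl
  · rfl
  · show some (Sum.inr (blockEquiv (1 : setSystemAut B) b)) = some (Sum.inr b)
    congr 2
    apply Subtype.ext
    show (b : Finset α).image (1 : Equiv.Perm α) = b
    simp

def PhiHom : setSystemAut B →* (pointBlockGraph B ≃g pointBlockGraph B) where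
  toFun := Phi
  map_one' := Phi_one
  map_mul' := Phi_mul

theorem sign_Phi [Fintype B] (σ : setSystemAut B) :
    Equiv.Perm.sign (MulAction.toPermHom (pointBlockGraph B ≃g pointBlockGraph B)
      (Option (α ⊕ B)) (Phi σ)) = Equiv.Perm.sign σ.1 * Equiv.Perm.sign (blockEquiv σ) := by
  have h1 : MulAction.toPermHom (pointBlockGraph B ≃g pointBlockGraph B)
      (Option (α ⊕ B)) (Phi σ) = Equiv.optionCongr (Equiv.Perm.sumCongr σ.1 (blockEquiv σ)) := by
    ext x
    rfl
  rw [h1, Equiv.optionCongr_sign, Equiv.Perm.sign_sumCongr]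

/-- an automorphism carrying a triple of one block to a triple of another carries the blocks. -/
theorem block_of_triple (hB : IsSteinerSystem 3 6 B) (s : setSystemAut B) (x y : Fin 3 ↪ α)
    (hs : ∀ i, s.1 (x i) = y i) (b b' : B) (hx : ∀ i, x i ∈ (b : Finset α))
    (hy : ∀ i, y i ∈ (b' : Finset α)) : blockEquiv s b = b' := by
  obtain ⟨c, -, hc⟩ := hB.2 (Finset.univ.map y) (by rw [Finset.card_map]; rfl)
  have h1 := hc (blockEquiv s b) ⟨(blockEquiv s b).2, by
    intro z hz
    obtain ⟨i, -, rfl⟩ := Finset.mem_map.mp hz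
    rw [← hs i]
    exact Finset.mem_image_of_mem _ (hx i)⟩
  have h2 := hc b' ⟨b'.2, by
    intro z hz
    obtain ⟨i, -, rfl⟩ := Finset.mem_map.mp hz
    exact hy i⟩
  exact Subtype.ext (h1.trans h2.symm)

theorem exists_triple (hB : IsSteinerSystem 3 6 B) (b : B) :
    ∃ y : Fin 3 ↪ α, ∀ i, y i ∈ (b : Finset α) := by
  obtain ⟨t, ht, ht3⟩ := Finset.exists_subset_card_eq (s := (b : Finset α)) (n := 3)
    (by rw [hB.1 b b.2]; norm_num)
  exact ⟨(Finset.equivFinOfCardEq ht3).symm.toEmbedding.trans (Function.Embedding.subtype _),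
    fun i => ht ((Finset.equivFinOfCardEq ht3).symm i).2⟩

end

section

variable {α : Type*} [Fintype α] [DecidableEq α] {v : ℕ} {B : Set (Finset α)} {L : List ℕ}
  (e : α ≃ Fin v) (he : (fun b => b.image e) '' B = setOf' v L)

theorem bcode_blockEquiv (hL : ∀ c ∈ L, c < 2 ^ v) (s : List (ℕ × ℕ)) (σ : setSystemAut B)
    (hσ : σ.1 = e.symm.permCongr (permOf v s)) (b : B) :
    bcode e he (blockEquiv σ b) = ap v s (bcode e he b) := by
  apply toFs_inj (hL _ (bcode_mem e he _)) (ap_lt s (hL _ (bcode_mem e he _)))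
  rw [toFs_bcode, toFs_ap, toFs_bcode]
  show ((b : Finset α).image σ.1).image e = _
  rw [Finset.image_image, Finset.image_image, hσ]
  apply Finset.image_congr
  intro a _
  simp [Equiv.permCongr_apply]

end

namespace N22

theorem B0_lt : B0.all (fun c => decide (c < 2 ^ 22)) = true := by decide +kernel

theorem B0_nodup : B0.Nodup := by decide +kernel

theorem odd_moved : (B0.filter (fun c => !(Nat.beq (ap 22 sOdd c) c))).length = 56 := by
  decide +kernel

theorem odd_invol : B0.all (fun c => Nat.beq (ap 22 sOdd (ap 22 sOdd c)) c) = true := by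
  decide +kernel

end N22

theorem sign_block_odd {α : Type*} [Fintype α] [DecidableEq α] {B : Set (Finset α)} [Fintype B]
    (e : α ≃ Fin 22) (he : (fun b => b.image e) '' B = setOf' 22 N22.B0) (σ : setSystemAut B)
    (hσ : σ.1 = e.symm.permCongr (permOf 22 N22.sOdd)) :
    Equiv.Perm.sign (blockEquiv σ) = 1 := by
  have hL : ∀ c ∈ N22.B0, c < 2 ^ 22 := by
    have := N22.B0_lt
    rw [List.all_eq_true] at this
    intro c hc
    exact of_decide_eq_true (this c hc)
  apply sign_invol _ _ 14
  · rw [card_filter_code (bcode e he) (bcode_inj e he) N22.B0 N22.B0_nodup (bcode_surj e he hL) _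
      (fun c => !(Nat.beq (ap 22 N22.sOdd c) c)) ?_, N22.odd_moved]
    intro b
    rw [Bool.not_eq_true', ← Bool.not_eq_true, Nat.beq_eq, ← bcode_blockEquiv e he hL _ σ hσ b]
    exact (bcode_inj e he).ne_iff.symm
  · intro b
    apply bcode_inj e he
    rw [bcode_blockEquiv e he hL _ σ hσ, bcode_blockEquiv e he hL _ σ hσ]
    have := (List.all_eq_true.mp N22.odd_invol) _ (bcode_mem e he b)
    rwa [Nat.beq_eq] at this

end Cfsg.Agent.Lib.Helper3.Stq
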