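import Cfsg.Agent.Lib.Helper3.StHS3

set_option autoImplicit false

namespace Cfsg.Agent.Lib.Helper3.Stq

open Cfsg

/-- the automorphism group of the point-block graph moves the extra vertex anywhere. -/
theorem HS.trans_none {α : Type*} [Fintype α] [DecidableEq α] (hα : Fintype.card α = 22)
    {B : Set (Finset α)} (hB : Cfsg.IsSteinerSystem 3 6 B) (x : Option (α ⊕ B)) :
    ∃ φ : Cfsg.pointBlockGraph B ≃g Cfsg.pointBlockGraph B, φ none = x := by
  obtain ⟨e, he⟩ := iso_of_P D22.main hα hB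
  have hL : ∀ c ∈ D22.B0, c < 2 ^ 22 := by
    have := HS.chkL
    rw [List.all_eq_true] at this
    intro c hc
    exact of_decide_eq_true (this c hc)
  have hsurj : ∀ m, m ∈ HS.VL ↔ ∃ x, vcode e he x = m := HS.VL_eq ▸ vcode_surj e he hL
  have hm : vcode e he x ∈ HS.VL := (hsurj _).mpr ⟨x, rfl⟩
  have h0 := (List.all_eq_true.mp HS.heads) _ hm
  obtain ⟨T, hT, hhead⟩ := List.any_eq_true.mp h0
  have hok := HS.okAll T hT
  simp only [HS.tabOK, Bool.and_eq_true, decide_eq_true_eq, List.all_eq_true] at hok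
  obtain ⟨⟨⟨h1, h2⟩, h3⟩, h4⟩ := hok
  obtain ⟨φ, hφ⟩ := aut_of_table (Cfsg.pointBlockGraph B) (vcode e he) (vcode_inj e he) HS.VL
    hsurj adjP (adj_vcode e he hL) T h1 (fun p hp => memP_mem (h2 p hp)) h3 (by
      rw [List.all_eq_true]
      intro p hp
      rw [List.all_eq_true]
      exact h4 p hp)
  refine ⟨φ, ?_⟩
  apply vcode_inj e he
  have h5 := hφ none
  have h6 : ((2, 0), vcode e he x) ∈ T := by
    cases T with
    | nil => simp [HS.headIs] at hhead
    | cons p T' =>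
      simp only [HS.headIs, Bool.and_eq_true, Nat.beq_eq] at hhead
      obtain ⟨⟨⟨a1, a2⟩, a3⟩, a4⟩ := hhead
      have : p = ((2, 0), vcode e he x) := Prod.ext (Prod.ext a1 a2) (Prod.ext a3 a4)
      rw [this]
      exact List.mem_cons_self
  have hnd : (T.map Prod.fst).Nodup := h1 ▸ HS.chkN
  exact congrArg Prod.snd (List.inj_on_of_nodup_map hnd h5 h6 rfl)

end Cfsg.Agent.Lib.Helper3.Stq
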