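import Cfsg.Agent.Lib.Helper3.StSearch
import Cfsg.Agent.Lib.Helper3.StAut

set_option autoImplicit false

namespace Cfsg.Agent.Lib.Helper3.Stq

open Cfsg

/-! ### a version of the search with marked points `0, …, mk - 1` -/

def PQ (v t k : ℕ) (Q : Set (Finset (Fin v)) → Prop) (F : List ℕ) : Prop :=
  ∀ B : Set (Finset (Fin v)), IsSteinerSystem t k B → (∀ c ∈ F, toFs v c ∈ B) → Q B

theorem PQ_node {v t k r : ℕ} (hv : v ≤ 24) (hk : k = t + r) {Q : Set (Finset (Fin v)) → Prop}
    {F : List ℕ} {T : ℕ} (hT2 : T < 2 ^ v) (hT : pcG T = t) (hF : ∀ c ∈ F, pcG (c &&& T) < t)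
    (hc : ∀ b ∈ cands v t r T F, PQ v t k Q (b :: F)) : PQ v t k Q F := by
  intro B hB hFB
  rw [pcG_card hv hT2] at hT
  have hcT : ∀ c : ℕ, c &&& T < 2 ^ v := fun c => lt_of_le_of_lt Nat.and_le_right hT2
  obtain ⟨b, ⟨hb, hTb⟩, -⟩ := hB.2 (toFs v T) hT
  have hne : ∀ c ∈ F, toFs v c ≠ b := by
    intro c hc e
    have h1 := hF c hc
    rw [pcG_card hv (hcT c), toFs_land, e, Finset.inter_eq_right.mpr hTb, hT] at h1
    exact lt_irrefl _ h1
  have hlt : ∀ c ∈ F, (toFs v c ∩ b).card < t := fun c hc =>
    lt_of_ne hB (hFB c hc) hb (hne c hc)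
  have hXc : (b \ toFs v T).card = r := by
    rw [Finset.card_sdiff_of_subset hTb, hB.1 b hb, hT, hk]
    omega
  obtain ⟨m', hm', he⟩ := ext_complete v (allowed v t T F) r T (b \ toFs v T) hXc (by
      intro y hy
      have hy' := Finset.mem_sdiff.mp hy
      unfold allowed
      rw [List.mem_filter]
      refine ⟨List.mem_range.mpr y.2, ?_⟩
      rw [Nat.beq_eq, tb_eq_zero]
      apply testBit_foldl_lor
      · have := hy'.2
        rw [mem_toFs] at this
        simpa using this
      · intro c hc
        rw [List.mem_filter] at hc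
        have h1 : t ≤ pcG (c &&& T) + 1 := Nat.le_of_ble_eq_true hc.2
        rw [pcG_card hv (hcT c), toFs_land] at h1
        by_contra hcon
        have hyc : y ∈ toFs v c := by
          rw [mem_toFs]
          simpa using hcon
        have h2 : insert y (toFs v c ∩ toFs v T) ⊆ toFs v c ∩ b := by
          intro z hz
          rcases Finset.mem_insert.mp hz with rfl | hz
          · exact Finset.mem_inter.mpr ⟨hyc, hy'.1⟩
          · have := Finset.mem_inter.mp hz
            exact Finset.mem_inter.mpr ⟨this.1, hTb this.2⟩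
        have h3 := Finset.card_le_card h2
        rw [Finset.card_insert_of_notMem (fun hz => hy'.2 (Finset.mem_inter.mp hz).2)] at h3
        have := hlt c hc.1
        omega)
  have hm2 : m' < 2 ^ v := ext_lt _ r T hT2 (by
    intro x hx
    unfold allowed at hx
    exact List.mem_range.mp (List.mem_filter.mp hx).1) m' hm'
  have hmb : toFs v m' = b := by
    rw [he]
    exact Finset.union_sdiff_of_subset hTb
  have hmem : m' ∈ cands v t r T F := by
    unfold cands
    rw [List.mem_filter]
    refine ⟨hm', ?_⟩
    rw [List.all_eq_true]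
    intro c hc
    rw [Nat.blt_eq]
    show pcG (c &&& m') < t
    rw [pcG_card hv (lt_of_le_of_lt Nat.and_le_right hm2), toFs_land, hmb]
    exact hlt c hc
  exact hc m' hmem B hB (by
    intro c hc
    rcases List.mem_cons.mp hc with rfl | hc
    · rw [hmb]; exact hb
    · exact hFB c hc)

/-- all swaps avoid the marked points. -/
def swOK (mk : ℕ) (sw : List (ℕ × ℕ)) : Bool := sw.all (fun p => Nat.ble mk p.1 && Nat.ble mk p.2)

theorem permOf_fix {v mk : ℕ} : ∀ (sw : List (ℕ × ℕ)), swOK mk sw = true →
    ∀ i : Fin v, (i : ℕ) < mk → permOf v sw i = i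
  | [], _, i, _ => rfl
  | (a, b) :: l, h, i, hi => by
    simp only [swOK, List.all_cons, Bool.and_eq_true, Nat.ble_eq] at h
    have hl : swOK mk l = true := h.2
    rw [permOf, Equiv.Perm.mul_apply]
    by_cases hab : a < v ∧ b < v
    · rw [dif_pos hab, Equiv.swap_apply_of_ne_of_ne, permOf_fix l hl i hi]
      · intro e
        have := congrArg Fin.val e
        simp only at this
        omega
      · intro e
        have := congrArg Fin.val e
        simp only at this
        omega
    · rw [dif_neg hab, Equiv.Perm.one_apply, permOf_fix l hl i hi]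

def QM (v mk : ℕ) (B0 : Set (Finset (Fin v))) (B : Set (Finset (Fin v))) : Prop :=
  ∃ σ : Equiv.Perm (Fin v), (∀ i : Fin v, (i : ℕ) < mk → σ i = i) ∧ (fun b => b.image σ) '' B = B0

def chkM (v t r mk : ℕ) (G0 : List ℕ) : Cert → Bool → List ℕ → List ℕ → List ℕ → Bool
  | .goto sw, true, F, _, _ => swOK mk sw && subl G0 (F.map (ap v sw))
  | .node T ch, true, F, _, _ =>
      Nat.blt T (Nat.pow 2 v) && Nat.beq (pcG T) t &&
        F.all (fun c => Nat.blt (pcG (Nat.land c T)) t) &&
        chkM v t r mk G0 ch false F (cands v t r T F) []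
  | .nil, false, _, [], _ => true
  | .sub c rest, false, F, b :: cs, done =>
      chkM v t r mk G0 c true (b :: F) [] [] && chkM v t r mk G0 rest false F cs (b :: done)
  | .iso bi sw rest, false, F, b :: cs, done =>
      swOK mk sw && memB bi done && subl (bi :: F) ((b :: F).map (ap v sw)) &&
        chkM v t r mk G0 rest false F cs done
  | _, _, _, _, _ => false

theorem PM_of_map {v t k mk : ℕ} {B0 : Set (Finset (Fin v))} {F G : List ℕ} (sw : List (ℕ × ℕ))
    (hsw : swOK mk sw = true)
    (h : subl G (F.map (ap v sw)) = true) (hG : PQ v t k (QM v mk B0) G) :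
    PQ v t k (QM v mk B0) F := by
  intro B hB hF
  rw [subl_iff] at h
  obtain ⟨σ, hfix, hσ⟩ := hG _ (steiner_image (permOf v sw) hB) (by
    intro c hc
    obtain ⟨c', hc', rfl⟩ := List.mem_map.mp (h c hc)
    exact ⟨toFs v c', hF c' hc', (toFs_ap v sw c').symm⟩)
  refine ⟨σ * permOf v sw, ?_, ?_⟩
  · intro i hi
    rw [Equiv.Perm.mul_apply, permOf_fix sw hsw i hi, hfix i hi]
  · rw [← hσ, Set.image_image]
    congr 1
    funext b
    rw [Finset.image_image]
    rfl

def ClaimM (v t k mk : ℕ) (B0 : Set (Finset (Fin v))) : Bool → List ℕ → List ℕ → List ℕ → Prop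
  | true, F, _, _ => PQ v t k (QM v mk B0) F
  | false, F, cs, done => (∀ b ∈ done, PQ v t k (QM v mk B0) (b :: F)) →
      ∀ b ∈ cs, PQ v t k (QM v mk B0) (b :: F)

theorem soundM {v t k r mk : ℕ} (hv : v ≤ 24) (hk : k = t + r) {B0 : Set (Finset (Fin v))}
    {G0 : List ℕ} (hG0 : PQ v t k (QM v mk B0) G0) :
    ∀ (c : Cert) (mode : Bool) (F cs done : List ℕ),
    chkM v t r mk G0 c mode F cs done = true → ClaimM v t k mk B0 mode F cs done := by
  intro c
  induction c with
  | goto sw =>
    intro mode F cs done h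
    cases mode with
    | false => simp [chkM] at h
    | true =>
      simp only [chkM, Bool.and_eq_true] at h
      exact PM_of_map sw h.1 h.2 hG0
  | node T ch ih =>
    intro mode F cs done h
    cases mode with
    | false => simp [chkM] at h
    | true =>
      simp only [chkM, Bool.and_eq_true, List.all_eq_true, Nat.blt_eq, Nat.beq_eq] at h
      have := ih false F _ [] h.2
      exact PQ_node hv hk h.1.1.1 h.1.1.2 h.1.2 (this (by simp))
  | nil =>
    intro mode F cs done h
    cases mode with
    | true => simp [chkM] at h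
    | false =>
      cases cs with
      | nil => intro _ b hb; simp at hb
      | cons b cs => simp [chkM] at h
  | sub c rest ih1 ih2 =>
    intro mode F cs done h
    cases mode with
    | true => simp [chkM] at h
    | false =>
      cases cs with
      | nil => simp [chkM] at h
      | cons b cs =>
        simp only [chkM, Bool.and_eq_true] at h
        have h1 : PQ v t k (QM v mk B0) (b :: F) := ih1 true (b :: F) [] [] h.1
        have h2 := ih2 false F cs (b :: done) h.2
        intro hd b' hb'
        rcases List.mem_cons.mp hb' with rfl | hb'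
        · exact h1
        · refine h2 ?_ b' hb'
          intro d hd'
          rcases List.mem_cons.mp hd' with rfl | hd'
          · exact h1
          · exact hd d hd'
  | iso bi sw rest ih =>
    intro mode F cs done h
    cases mode with
    | true => simp [chkM] at h
    | false =>
      cases cs with
      | nil => simp [chkM] at h
      | cons b cs =>
        simp only [chkM, Bool.and_eq_true] at h
        have h2 := ih false F cs done h.2
        intro hd b' hb'
        rcases List.mem_cons.mp hb' with rfl | hb'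
        · exact PM_of_map sw h.1.1.1 h.1.2 (hd bi (memB_iff.mp h.1.1.2))
        · exact h2 hd b' hb'

theorem PM_base {v t k mk : ℕ} {L : List ℕ} (h : baseOK v t k L = true) :
    PQ v t k (QM v mk (setOf' v L)) L := by
  intro B hB hL
  obtain ⟨σ, hσ⟩ := P_base h B hB hL
  -- the proof of `P_base` uses the identity, but we only know existence; redo via cardinality
  have hB0 : IsSteinerSystem t k (setOf' v L) := hσ ▸ steiner_image σ hB
  have hsub : setOf' v L ⊆ B := by
    rintro s ⟨c, hc, rfl⟩
    exact hL c hc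
  have heq : B = setOf' v L := by
    apply Set.Subset.antisymm _ hsub
    intro b hb
    have hbk := hB.1 b hb
    simp only [baseOK, Bool.and_eq_true, decide_eq_true_eq] at h
    have htk : t ≤ k := by
      by_contra hcon
      have := Nat.choose_eq_zero_of_lt (not_le.mp hcon)
      omega
    obtain ⟨s, hs, hst⟩ := Finset.exists_subset_card_eq (s := b) (n := t) (by omega)
    obtain ⟨c, ⟨hc, hsc⟩, -⟩ := hB0.2 s hst
    obtain ⟨d, -, hu⟩ := hB.2 s hst
    rw [hu b ⟨hb, hs⟩, ← hu c ⟨hsub hc, hsc⟩]
    exact hc
  refine ⟨1, fun _ _ => rfl, ?_⟩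
  rw [heq]
  convert Set.image_id _ using 2
  simp
  rfl

/-- marked isomorphism to the standard model. -/
theorem iso_of_PM {v t k mk : ℕ} {B0 : Set (Finset (Fin v))} (hP : PQ v t k (QM v mk B0) [])
    {α : Type*} [Fintype α] [DecidableEq α] (hα : Fintype.card α = v) {B : Set (Finset α)}
    (hB : IsSteinerSystem t k B) (x : Fin mk ↪ α) :
    ∃ e : α ≃ Fin v, (fun b => b.image e) '' B = B0 ∧ ∀ i : Fin mk, ((e (x i) : Fin v) : ℕ) = i := by
  have hmk : mk ≤ v := by
    have := Fintype.card_le_of_embedding x
    rwa [Fintype.card_fin, hα] at this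
  let e1 := Fintype.equivFinOfCardEq hα
  obtain ⟨g, hg⟩ := (MulAction.isMultiplyPretransitive_iff (G := Equiv.Perm (Fin v))
    (α := Fin v) (n := mk)).mp (Equiv.Perm.isMultiplyPretransitive (Fin v) mk)
    (x.trans e1.toEmbedding) (Fin.castLEEmb hmk)
  obtain ⟨σ, hfix, hσ⟩ := hP _ (steiner_image (e1.trans g) hB) (by simp)
  refine ⟨(e1.trans g).trans σ, ?_, ?_⟩
  · rw [← hσ, Set.image_image]
    congr 1
    funext b
    rw [Finset.image_image]
    rfl
  · intro i
    have h1 : g (e1 (x i)) = Fin.castLE hmk i := DFunLike.congr_fun hg i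
    show ((σ (g (e1 (x i))) : Fin v) : ℕ) = i
    rw [h1, hfix _ (by simp)]
    simp

theorem pretrans_of_PM {v t k mk : ℕ} {B0 : Set (Finset (Fin v))}
    (hP : PQ v t k (QM v mk B0) [])
    {α : Type*} [Fintype α] [DecidableEq α] (hα : Fintype.card α = v) {B : Set (Finset α)}
    (hB : IsSteinerSystem t k B) : MulAction.IsMultiplyPretransitive (setSystemAut B) α mk := by
  rw [MulAction.isMultiplyPretransitive_iff]
  intro x y
  obtain ⟨e1, h1, hx⟩ := iso_of_PM hP hα hB x
  obtain ⟨e2, h2, hy⟩ := iso_of_PM hP hα hB y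
  have hmem : e1.trans e2.symm ∈ setSystemAut B := by
    rw [mem_aut_iff]
    intro b
    have k1 := mem_image_iff e1 h1 (b.image e1)
    have k2 := mem_image_iff e2 h2 (b.image e1)
    have e3 : (b.image e1).image e1.symm = b := by
      rw [Finset.image_image]; simp
    have e4 : (b.image e1).image e2.symm = b.image (e1.trans e2.symm) := by
      rw [Finset.image_image]; rfl
    rw [e3] at k1
    rw [e4] at k2
    rw [← k2, k1]
  refine ⟨⟨_, hmem⟩, ?_⟩
  ext i
  show e2.symm (e1 (x i)) = y i
  rw [Equiv.symm_apply_eq]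
  apply Fin.ext
  rw [hx, hy]

end Cfsg.Agent.Lib.Helper3.Stq
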