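import Cfsg.Agent.Lib.Helper3.StN22a

set_option autoImplicit false
set_option maxRecDepth 100000

namespace Cfsg.Agent.Lib.Helper3.Stq.N22

open Cfsg Cfsg.Agent.Lib.Helper3.Stq

theorem base : PQ 22 3 6 (QM 22 3 (setOf' 22 B0)) B0 := PM_base (by decide +kernel)

theorem main : PQ 22 3 6 (QM 22 3 (setOf' 22 B0)) [] := (phA _ base)

end Cfsg.Agent.Lib.Helper3.Stq.N22
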