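import Cfsg.Agent.Lib.Helper3.StN23a
import Cfsg.Agent.Lib.Helper3.StN23b

set_option autoImplicit false
set_option maxRecDepth 100000

namespace Cfsg.Agent.Lib.Helper3.Stq.N23

open Cfsg Cfsg.Agent.Lib.Helper3.Stq

theorem base : PQ 23 4 7 (QM 23 4 (setOf' 23 B0)) B0 := PM_base (by decide +kernel)

theorem main : PQ 23 4 7 (QM 23 4 (setOf' 23 B0)) [] := (phA _ (phB _ base))

end Cfsg.Agent.Lib.Helper3.Stq.N23
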