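import Cfsg.Agent.Lib.Helper3.StCon

set_option autoImplicit false
set_option maxRecDepth 100000

namespace Cfsg.Agent.Lib.Helper3.Stq.N23

open Cfsg Cfsg.Agent.Lib.Helper3.Stq

def G1 : List ℕ := [5464065, 2940929, 2824193, 5543937, 3474945, 4883969, 406785, 118017, 6312705, 1583873, 1594497, 6302849, 111233, 412289, 5046657, 3309953, 6684769, 1671265, 26209, 6625, 3158097, 4737105, 197457, 296145, 348209, 174129, 5244209, 2622129, 184393, 337993, 2622793, 5243593, 4730921, 3164201, 295721, 197801, 1966105, 6389785, 7705, 24985, 4265029, 2132549, 1327429, 663749, 789541, 1184293, 2171173, 4243621, 2245653, 4465173, 561429, 1116309, 1090573, 606733, 4327693, 2363533, 1182787, 791107, 4235587, 2179267, 2135075, 4262435, 672035, 1319075, 599059, 1098259, 2361619, 4329619, 4473867, 2236939, 1118475, 559243, 7864327, 491527, 30727, 1927, 127]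

def B0 : List ℕ := [1000512, 7390272, 572480, 6890048, 1483328, 1137216, 5902656, 2462016, 2255168, 4460352, 4485312, 3934400, 4425920, 2234048, 1123776, 574400, 3810336, 4564000, 4348960, 6046240, 2343456, 2374176, 1110304, 1509664, 6850848, 595744, 7409824, 954528, 616608, 1085088, 2377120, 4334496, 7083024, 1283088, 1338384, 684560, 7473680, 887312, 3752208, 4636944, 4274448, 2139920, 2564240, 5808272, 2152592, 4277904, 658832, 1315728, 2165872, 4231792, 794992, 1196272, 2192392, 5835784, 2526216, 4657672, 3707400, 4254216, 7610632, 762120, 809224, 1197832, 6963336, 1425544, 1194120, 796296, 4232584, 2165640, 1315944, 658024, 4276584, 2138344, 4334680, 2376280, 1083736, 594136, 574520, 1122872, 2232632, 4458680, 1912836, 6467588, 6637572, 1755140, 316932, 208388, 4744452, 3153156, 3015428, 5341956, 5637252, 2720900, 3170948, 4725380, 217476, 305540, 2642020, 5253220, 165220, 328420, 122964, 399444, 1574484, 6291924, 4915252, 3440692, 19252, 13492, 3342412, 5013580, 13132, 19660, 417836, 104492, 6293036, 1573292, 5263388, 2631708, 328988, 164508, 3559426, 4837378, 5122050,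 3254274, 5256706, 2641410, 6489346, 1869058, 353026, 170754, 189570, 334978, 1770114, 6587010, 2634114, 5261698, 208994, 313442, 3146594, 4719842, 5570642, 2785362, 21842, 10962, 6316082, 1579058, 394802, 98738, 1597514, 6297674, 99914, 393674, 2949162, 5406762, 11562, 21162, 307226, 215066, 4719386, 3146906, 2368582, 4342342, 592198, 1085638, 1131558, 565798, 4460838, 2230438, 4230166, 2167318, 1188118, 802966, 660494, 1313294, 2146574, 4268174, 5464065, 2940929, 2824193, 5543937, 3474945, 4883969, 406785, 118017, 6312705, 1583873, 1594497, 6302849, 111233, 412289, 5046657, 3309953, 6684769, 1671265, 26209, 6625, 3158097, 4737105, 197457, 296145, 348209, 174129, 5244209, 2622129, 184393, 337993, 2622793, 5243593, 4730921, 3164201, 295721, 197801, 1966105, 6389785, 7705, 24985, 4265029, 2132549, 1327429, 663749, 789541, 1184293, 2171173, 4243621, 2245653, 4465173, 561429, 1116309, 1090573, 606733, 4327693, 2363533, 1182787, 791107, 4235587, 2179267, 2135075, 4262435, 672035, 1319075, 599059, 1098259, 2361619, 4329619, 4473867, 2236939, 1118475, 559243, 7864327, 491527, 30727,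 1927, 127]

end Cfsg.Agent.Lib.Helper3.Stq.N23
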