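import Cfsg.Agent.Lib.Helper3.StMark

set_option autoImplicit false

namespace Cfsg.Agent.Lib.Helper3.Stq

open Cfsg

theorem toFs_lor (v a b : ℕ) : toFs v (a ||| b) = toFs v a ∪ toFs v b := by
  ext i
  simp [mem_toFs, Nat.testBit_or]

theorem toFs_xor (v a b : ℕ) : toFs v (a ^^^ b) = symmDiff (toFs v a) (toFs v b) := by
  ext i
  simp only [mem_toFs, Nat.testBit_xor, Finset.mem_symmDiff]
  cases a.testBit i <;> cases b.testBit i <;> simp

theorem toFs_zero (v : ℕ) : toFs v 0 = ∅ := by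
  ext i
  simp [mem_toFs]

theorem toFs_pow (v : ℕ) (x : Fin v) : toFs v (2 ^ (x : ℕ)) = {x} := by
  have := toFs_lor_pow v 0 x
  rw [Nat.zero_or, toFs_zero] at this
  simpa using this

def Inv (v : ℕ) (σ : Equiv.Perm (Fin v)) (p : ℕ × ℕ) : Prop := (toFs v p.1).image σ = toFs v p.2

def lorL : List (ℕ × ℕ) → ℕ × ℕ
  | [] => (0, 0)
  | p :: l => (Nat.lor p.1 (lorL l).1, Nat.lor p.2 (lorL l).2)

theorem inv_lorL {v : ℕ} {σ : Equiv.Perm (Fin v)} : ∀ (l : List (ℕ × ℕ)), (∀ p ∈ l, Inv v σ p) →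
    Inv v σ (lorL l)
  | [], _ => by simp [Inv, lorL, toFs_zero]
  | p :: l, h => by
    have h1 := h p (by simp)
    have h2 := inv_lorL l (fun q hq => h q (List.mem_cons_of_mem _ hq))
    unfold Inv at *
    show (toFs v (p.1 ||| (lorL l).1)).image σ = toFs v (p.2 ||| (lorL l).2)
    rw [toFs_lor, toFs_lor, Finset.image_union, h1, h2]

theorem inv_xor {v : ℕ} {σ : Equiv.Perm (Fin v)} {p q : ℕ × ℕ} (hp : Inv v σ p) (hq : Inv v σ q) :
    Inv v σ (p.1 ^^^ q.1, p.2 ^^^ q.2) := by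
  unfold Inv at *
  simp only
  rw [toFs_xor, toFs_xor, Finset.image_symmDiff _ _ σ.injective, hp, hq]

def memP (p : ℕ × ℕ) : List (ℕ × ℕ) → Bool
  | [] => false
  | q :: l => (Nat.beq q.1 p.1 && Nat.beq q.2 p.2) || memP p l

theorem memP_mem {p : ℕ × ℕ} : ∀ {K : List (ℕ × ℕ)}, memP p K = true → p ∈ K
  | [], h => by simp [memP] at h
  | q :: l, h => by
    rw [memP, Bool.or_eq_true, Bool.and_eq_true, Nat.beq_eq, Nat.beq_eq] at h
    rcases h with h | h
    · have : q = p := Prod.ext h.1 h.2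
      rw [this]; simp
    · exact List.mem_cons_of_mem _ (memP_mem h)

structure Step where
  l : List (ℕ × ℕ)
  c : ℕ
  c' : ℕ

def stepOK (v t : ℕ) (L : List ℕ) (K : List (ℕ × ℕ)) (s : Step) : Bool :=
  s.l.all (fun p => memP p K) && Nat.ble t (pcG (lorL s.l).1) &&
    Nat.blt (lorL s.l).1 (Nat.pow 2 v) && memB s.c L && memB s.c' L &&
    Nat.beq (Nat.land s.c (lorL s.l).1) (lorL s.l).1 &&
    Nat.beq (Nat.land s.c' (lorL s.l).2) (lorL s.l).2

def newP (s : Step) : ℕ × ℕ := (Nat.xor s.c (lorL s.l).1, Nat.xor s.c' (lorL s.l).2)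

inductive Term where
  | contra (p q : ℕ × ℕ)
  | done

def termOK (v : ℕ) (K : List (ℕ × ℕ)) : Term → Bool
  | .contra p q => memP p K && memP q K && Nat.blt (Nat.xor p.1 q.1) (Nat.pow 2 v) &&
      Nat.blt (Nat.xor p.2 q.2) (Nat.pow 2 v) &&
      !(Nat.beq (pcG (Nat.xor p.1 q.1)) (pcG (Nat.xor p.2 q.2)))
  | .done => (List.range v).all (fun i => memP (Nat.pow 2 i, Nat.pow 2 i) K)

def rig (v t : ℕ) (L : List ℕ) : List Step → Term → List (ℕ × ℕ) → Bool
  | [], T, K => termOK v K T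
  | s :: l, T, K => stepOK v t L K s && rig v t L l T (newP s :: K)

theorem inv_step {v t k : ℕ} (hv : v ≤ 24) {L : List ℕ} (hS : IsSteinerSystem t k (setOf' v L))
    {σ : Equiv.Perm (Fin v)} (hσ : ∀ b ∈ setOf' v L, b.image σ ∈ setOf' v L)
    {K : List (ℕ × ℕ)} (hK : ∀ p ∈ K, Inv v σ p) {s : Step} (h : stepOK v t L K s = true) :
    Inv v σ (newP s) := by
  simp only [stepOK, Bool.and_eq_true, List.all_eq_true, Nat.ble_eq, Nat.blt_eq, Nat.beq_eq,
    memB_iff] at h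
  obtain ⟨⟨⟨⟨⟨⟨h1, h2⟩, h3⟩, h4⟩, h5⟩, h6⟩, h7⟩ := h
  have hA : Inv v σ (lorL s.l) := inv_lorL _ (fun p hp => hK p (memP_mem (h1 p hp)))
  have hsub1 : toFs v (lorL s.l).1 ⊆ toFs v s.c := by
    have : toFs v (s.c &&& (lorL s.l).1) = toFs v (lorL s.l).1 := congrArg _ h6
    rw [toFs_land] at this
    rw [← this]
    exact Finset.inter_subset_left
  have hsub2 : toFs v (lorL s.l).2 ⊆ toFs v s.c' := by
    have : toFs v (s.c' &&& (lorL s.l).2) = toFs v (lorL s.l).2 := congrArg _ h7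
    rw [toFs_land] at this
    rw [← this]
    exact Finset.inter_subset_left
  have hc : Inv v σ (s.c, s.c') := by
    unfold Inv
    simp only
    by_contra hne
    have hlt := lt_of_ne hS (hσ _ ⟨s.c, h4, rfl⟩) ⟨s.c', h5, rfl⟩ hne
    have hle : toFs v (lorL s.l).2 ⊆ (toFs v s.c).image σ ∩ toFs v s.c' := by
      apply Finset.subset_inter _ hsub2
      rw [← hA]
      exact Finset.image_subset_image hsub1
    have h8 := Finset.card_le_card hle
    rw [← hA, Finset.card_image_of_injective _ σ.injective, ← pcG_card hv h3] at h8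
    omega
  exact inv_xor hc hA

theorem rig_sound {v t k : ℕ} (hv : v ≤ 24) {L : List ℕ} (hS : IsSteinerSystem t k (setOf' v L))
    {σ : Equiv.Perm (Fin v)} (hσ : ∀ b ∈ setOf' v L, b.image σ ∈ setOf' v L) :
    ∀ (l : List Step) (T : Term) (K : List (ℕ × ℕ)), (∀ p ∈ K, Inv v σ p) →
      rig v t L l T K = true → σ = 1
  | [], .contra p q, K, hK, h => by
    exfalso
    simp only [rig, termOK, Bool.and_eq_true, Nat.blt_eq, Bool.not_eq_true', ] at h
    obtain ⟨⟨⟨⟨h1, h2⟩, h3⟩, h4⟩, h5⟩ := h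
    have hx := inv_xor (hK p (memP_mem h1)) (hK q (memP_mem h2))
    unfold Inv at hx
    have hc := congrArg Finset.card hx
    rw [Finset.card_image_of_injective _ σ.injective] at hc
    have hc : (toFs v (Nat.xor p.1 q.1)).card = (toFs v (Nat.xor p.2 q.2)).card := hc
    rw [← pcG_card hv h3, ← pcG_card hv h4] at hc
    have : Nat.beq (pcG (Nat.xor p.1 q.1)) (pcG (Nat.xor p.2 q.2)) = true := by
      rw [Nat.beq_eq]; exact hc
    rw [this] at h5
    simp at h5
  | [], .done, K, hK, h => by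
    simp only [rig, termOK, List.all_eq_true, List.mem_range] at h
    ext i
    have h1 := hK _ (memP_mem (h i i.2))
    unfold Inv at h1
    have h2 : (toFs v (2 ^ (i : ℕ))).image σ = toFs v (2 ^ (i : ℕ)) := h1
    rw [toFs_pow, Finset.image_singleton, Finset.singleton_inj] at h2
    rw [h2]
    rfl
  | s :: l, T, K, hK, h => by
    rw [rig, Bool.and_eq_true] at h
    refine rig_sound hv hS hσ l T (newP s :: K) ?_ h.2
    intro p hp
    rcases List.mem_cons.mp hp with rfl | hp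
    · exact inv_step hv hS hσ hK h.1
    · exact hK p hp

theorem rigid_of {v t k : ℕ} (hv : v ≤ 24) {L : List ℕ} (hS : IsSteinerSystem t k (setOf' v L))
    {σ : Equiv.Perm (Fin v)} (hσ : ∀ b ∈ setOf' v L, b.image σ ∈ setOf' v L) (mk x : ℕ)
    (hmk : mk ≤ v) (hx : x < v) (hfix : ∀ i : Fin v, (i : ℕ) < mk → σ i = i)
    (scr : List (List Step × Term))
    (h : (List.range v).all (fun c => rig v t L (scr.getD c ([], Term.done)).1
      (scr.getD c ([], Term.done)).2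
      ((Nat.pow 2 x, Nat.pow 2 c) :: (List.range mk).map (fun i => (Nat.pow 2 i, Nat.pow 2 i))))
      = true) : σ = 1 := by
  rw [List.all_eq_true] at h
  have h1 := h (σ ⟨x, hx⟩ : Fin v) (List.mem_range.mpr (σ ⟨x, hx⟩).2)
  refine rig_sound hv hS hσ _ _ _ ?_ h1
  intro p hp
  rcases List.mem_cons.mp hp with rfl | hp
  · unfold Inv
    show (toFs v (2 ^ x)).image σ = toFs v (2 ^ ((σ ⟨x, hx⟩ : Fin v) : ℕ))
    rw [toFs_pow, show (2 ^ x : ℕ) = 2 ^ ((⟨x, hx⟩ : Fin v) : ℕ) from rfl, toFs_pow,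
      Finset.image_singleton]
  · obtain ⟨i, hi, rfl⟩ := List.mem_map.mp hp
    have hi' := List.mem_range.mp hi
    unfold Inv
    show (toFs v (2 ^ i)).image σ = toFs v (2 ^ i)
    have hiv : i < v := lt_of_lt_of_le hi' hmk
    rw [show (2 ^ i : ℕ) = 2 ^ ((⟨i, hiv⟩ : Fin v) : ℕ) from rfl, toFs_pow, Finset.image_singleton,
      hfix ⟨i, hiv⟩ hi']

theorem sharp_of {v t k mk : ℕ} {L : List ℕ} (hP : PQ v t k (QM v mk (setOf' v L)) [])
    (hrig : IsSteinerSystem t k (setOf' v L) → ∀ σ : Equiv.Perm (Fin v),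
      (∀ b ∈ setOf' v L, b.image σ ∈ setOf' v L) → (∀ i : Fin v, (i : ℕ) < mk → σ i = i) → σ = 1)
    {α : Type*} [Fintype α] [DecidableEq α] (hα : Fintype.card α = v) {B : Set (Finset α)}
    (hB : IsSteinerSystem t k B) (x : Fin mk ↪ α) :
    MulAction.stabilizer (setSystemAut B) x = ⊥ := by
  obtain ⟨e, he, hx⟩ := iso_of_PM hP hα hB x
  rw [eq_bot_iff]
  intro g hg
  rw [MulAction.mem_stabilizer_iff] at hg
  have hS : IsSteinerSystem t k (setOf' v L) := he ▸ steiner_image e hB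
  have hσmem := (permCongr_mem e he g.1).mpr g.2
  have h1 : e.permCongr g.1 = 1 := by
    apply hrig hS _ (fun b hb => (mem_aut_iff.mp hσmem b).mpr hb)
    intro i hi
    have hxi : e (x ⟨i, hi⟩) = i := Fin.ext (hx ⟨i, hi⟩)
    have hgx : g.1 (x ⟨i, hi⟩) = x ⟨i, hi⟩ := DFunLike.congr_fun hg ⟨i, hi⟩
    rw [Equiv.permCongr_apply, ← hxi, Equiv.symm_apply_apply, hgx]
  rw [Subgroup.mem_bot]
  apply Subtype.ext
  ext a
  have h2 := DFunLike.congr_fun h1 (e a)
  rw [Equiv.permCongr_apply, Equiv.symm_apply_apply, Equiv.Perm.one_apply] at h2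
  exact e.injective h2

end Cfsg.Agent.Lib.Helper3.Stq
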