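import Cfsg.Agent.Lib.Helper3.StOrd

set_option autoImplicit false

namespace Cfsg.Agent.Lib.Helper3.Stq

open Cfsg

theorem sign_permOf {v : ℕ} : ∀ (s : List (ℕ × ℕ)),
    s.all (fun p => Nat.blt p.1 v && Nat.blt p.2 v && !(Nat.beq p.1 p.2)) = true →
    Equiv.Perm.sign (permOf v s) = (-1) ^ s.length
  | [], _ => by simp [permOf]
  | (a, b) :: l, h => by
    simp only [List.all_cons, Bool.and_eq_true, Nat.blt_eq, Bool.not_eq_true'] at h
    obtain ⟨⟨⟨ha, hb⟩, hab⟩, hl⟩ := h
    have hab' : a ≠ b := by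
      intro e
      have : Nat.beq a b = true := by rw [Nat.beq_eq]; exact e
      rw [this] at hab
      simp at hab
    have hl' : l.all (fun p => Nat.blt p.1 v && Nat.blt p.2 v && !(Nat.beq p.1 p.2)) = true := hl
    rw [permOf, dif_pos ⟨ha, hb⟩, Equiv.Perm.sign_mul, sign_permOf l hl',
      Equiv.Perm.sign_swap (by intro e; exact hab' (congrArg Fin.val e)), List.length_cons, pow_succ]

def fixF (v : ℕ) (s : List (ℕ × ℕ)) (n : ℕ) : ℕ :=
  bif Nat.beq (ap v s (Nat.pow 2 n)) (Nat.pow 2 n) then 1 else 0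

def fixCnt (v : ℕ) (s : List (ℕ × ℕ)) : ℕ → ℕ
  | 0 => 0
  | n + 1 => Nat.add (fixCnt v s n) (fixF v s n)

theorem fix_iff {v : ℕ} (s : List (ℕ × ℕ)) (i : Fin v) :
    permOf v s i = i ↔ ap v s (Nat.pow 2 i) = Nat.pow 2 i := by
  constructor
  · intro h
    have hlt : Nat.pow 2 (i : ℕ) < 2 ^ v := Nat.pow_lt_pow_right (by norm_num) i.2
    apply toFs_inj (ap_lt s hlt) hlt
    rw [toFs_ap]
    show (toFs v (2 ^ (i : ℕ))).image _ = toFs v (2 ^ (i : ℕ))
    rw [toFs_pow, Finset.image_singleton, h]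
  · intro h
    exact permOf_apply s i.2 i.2 h

theorem card_fixed {v : ℕ} (s : List (ℕ × ℕ)) :
    (Finset.univ.filter (fun i : Fin v => permOf v s i = i)).card = fixCnt v s v := by
  rw [Finset.card_filter]
  have h1 : ∀ i : Fin v, (if permOf v s i = i then 1 else 0) = fixF v s (i : ℕ) := by
    intro i
    unfold fixF
    by_cases h : permOf v s i = i
    · rw [if_pos h]
      have : Nat.beq (ap v s (Nat.pow 2 i)) (Nat.pow 2 i) = true := by
        rw [Nat.beq_eq]; exact (fix_iff s i).mp h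
      rw [this]; rfl
    · rw [if_neg h]
      have : Nat.beq (ap v s (Nat.pow 2 i)) (Nat.pow 2 i) = false := by
        rw [← Bool.not_eq_true, Nat.beq_eq]; exact fun e => h ((fix_iff s i).mpr e)
      rw [this]; rfl
  rw [Finset.sum_congr rfl (fun i _ => h1 i), Fin.sum_univ_eq_sum_range (fixF v s) v]
  have h2 : ∀ n, ∑ i ∈ Finset.range n, fixF v s i = fixCnt v s n := by
    intro n
    induction n with
    | zero => rfl
    | succ n ih => rw [Finset.sum_range_succ, ih]; rfl
  exact h2 v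

theorem fix_many {v mk : ℕ} {L : List ℕ} {Tb : List (List (ℕ × ℕ))}
    (hF : FixM v mk L = (permOf v) '' {s | s ∈ Tb}) (n : ℕ)
    (hchk : Tb.all (fun s => Nat.blt (fixCnt v s v) n || Nat.beq (fixCnt v s v) v) = true)
    (σ : Equiv.Perm (Fin v)) (hσ : σ ∈ FixM v mk L) (F : Finset (Fin v)) (hn : n ≤ F.card)
    (hfix : ∀ i ∈ F, σ i = i) : σ = 1 := by
  rw [hF] at hσ
  obtain ⟨s, hs, rfl⟩ := hσ
  rw [List.all_eq_true] at hchk
  have h1 := hchk s hs
  have h2 : F ⊆ Finset.univ.filter (fun i : Fin v => permOf v s i = i) := by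
    intro i hi
    exact Finset.mem_filter.mpr ⟨Finset.mem_univ _, hfix i hi⟩
  have h3 := Finset.card_le_card h2
  rw [card_fixed] at h3
  rw [Bool.or_eq_true, Nat.blt_eq, Nat.beq_eq] at h1
  rcases h1 with h1 | h1
  · omega
  · rw [← card_fixed] at h1
    have h4 : Finset.univ.filter (fun i : Fin v => permOf v s i = i) = Finset.univ := by
      apply Finset.eq_univ_of_card
      rw [h1, Fintype.card_fin]
    ext i
    have : i ∈ Finset.univ.filter (fun i : Fin v => permOf v s i = i) := by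
      rw [h4]; exact Finset.mem_univ _
    rw [(Finset.mem_filter.mp this).2]
    rfl

end Cfsg.Agent.Lib.Helper3.Stq
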