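import Cfsg.Agent.Lib.Helper3.StOrd

set_option autoImplicit false

namespace Cfsg.Agent.Lib.Helper3.Stq

open Cfsg

/-! ### strongly regular graphs through an injective coding of the vertices -/

theorem card_filter_code {V κ : Type*} [Fintype V] [DecidableEq κ] (code : V → κ)
    (hinj : Function.Injective code) (Ls : List κ) (hnd : Ls.Nodup)
    (hr : ∀ m, m ∈ Ls ↔ ∃ v, code v = m) (p : V → Prop) [DecidablePred p] (q : κ → Bool)
    (hpq : ∀ v, p v ↔ q (code v) = true) :
    (Finset.univ.filter p).card = (Ls.filter q).length := by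
  rw [← Finset.card_image_of_injective _ hinj, ← List.toFinset_card_of_nodup (hnd.filter q)]
  congr 1
  ext m
  simp only [Finset.mem_image, Finset.mem_filter, Finset.mem_univ, true_and, List.mem_toFinset,
    List.mem_filter]
  constructor
  · rintro ⟨v, hv, rfl⟩
    exact ⟨(hr _).mpr ⟨v, rfl⟩, (hpq v).mp hv⟩
  · rintro ⟨hm, hq⟩
    obtain ⟨v, rfl⟩ := (hr m).mp hm
    exact ⟨v, (hpq v).mpr hq, rfl⟩

theorem srg_of_code {V κ : Type*} [Fintype V] [DecidableEq κ] (G : SimpleGraph V)
    [DecidableRel G.Adj] (code : V → κ)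
    (hinj : Function.Injective code) (Ls : List κ) (hnd : Ls.Nodup)
    (hr : ∀ m, m ∈ Ls ↔ ∃ v, code v = m) (adj : κ → κ → Bool)
    (hadj : ∀ v w, G.Adj v w ↔ adj (code v) (code w) = true) (n k l μ : ℕ)
    (h1 : Ls.length = n)
    (h2 : Ls.all (fun a => Nat.beq (Ls.filter (adj a)).length k) = true)
    (h3 : Ls.all (fun a => Ls.all (fun b => decide (a = b) ||
      Nat.beq (Ls.filter (fun c => adj a c && adj b c)).length (bif adj a b then l else μ))) = true) :
    G.IsSRGWith n k l μ := by
  classical
  rw [List.all_eq_true] at h2 h3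
  have hmem : ∀ v, code v ∈ Ls := fun v => (hr _).mpr ⟨v, rfl⟩
  have hcn : ∀ v w, v ≠ w → Fintype.card (G.commonNeighbors v w) =
      (bif adj (code v) (code w) then l else μ) := by
    intro v w hvw
    have h4 := h3 _ (hmem v)
    rw [List.all_eq_true] at h4
    have h5 := h4 _ (hmem w)
    have hne : decide (code v = code w) = false := by
      rw [decide_eq_false_iff_not]
      exact fun e => hvw (hinj e)
    rw [hne, Bool.false_or, Nat.beq_eq] at h5
    rw [← h5, ← card_filter_code code hinj Ls hnd hr (fun u => G.Adj v u ∧ G.Adj w u)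
      (fun c => adj (code v) c && adj (code w) c) (by
        intro u
        rw [Bool.and_eq_true, hadj, hadj])]
    apply Fintype.card_of_subtype
    intro x
    rw [Finset.mem_filter, SimpleGraph.mem_commonNeighbors]
    simp
  refine ⟨?_, ?_, ?_, ?_⟩
  · rw [← h1, ← Finset.card_univ, ← Finset.card_image_of_injective _ hinj,
      ← List.toFinset_card_of_nodup hnd]
    congr 1
    ext m
    simp only [Finset.mem_image, Finset.mem_univ, true_and, List.mem_toFinset]
    exact (hr m).symm
  · intro v
    have h4 := h2 _ (hmem v)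
    rw [Nat.beq_eq] at h4
    rw [← h4, ← SimpleGraph.card_neighborFinset_eq_degree, SimpleGraph.neighborFinset_eq_filter]
    exact card_filter_code code hinj Ls hnd hr (G.Adj v) (adj (code v)) (fun u => hadj v u)
  · intro v w hvw
    rw [hcn v w hvw.ne, (hadj v w).mp hvw]
    rfl
  · intro v w hvw hna
    have : adj (code v) (code w) = false := by
      rw [← Bool.not_eq_true]
      exact fun e => hna ((hadj v w).mpr e)
    rw [hcn v w hvw, this]
    rfl

/-! ### coding the blocks -/

section bcode

variable {α : Type*} [DecidableEq α] {v : ℕ} {B : Set (Finset α)} {L : List ℕ} (e : α ≃ Fin v)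
  (he : (fun b => b.image e) '' B = setOf' v L)

include he in
theorem bcode_ex (b : B) : ∃ c ∈ L, toFs v c = (b : Finset α).image e := by
  have : (b : Finset α).image e ∈ setOf' v L := by
    rw [← he]
    exact ⟨b, b.2, rfl⟩
  exact this

noncomputable def bcode (b : B) : ℕ := Classical.choose (bcode_ex e he b)

theorem bcode_mem (b : B) : bcode e he b ∈ L := (Classical.choose_spec (bcode_ex e he b)).1

theorem toFs_bcode (b : B) : toFs v (bcode e he b) = (b : Finset α).image e :=
  (Classical.choose_spec (bcode_ex e he b)).2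

theorem bcode_inj : Function.Injective (bcode e he) := by
  intro b c h
  have h1 := toFs_bcode e he b
  rw [h, toFs_bcode] at h1
  exact Subtype.ext (Finset.image_injective e.injective h1.symm)

theorem bcode_surj (hL : ∀ c ∈ L, c < 2 ^ v) (m : ℕ) : m ∈ L ↔ ∃ b, bcode e he b = m := by
  constructor
  · intro hm
    have : toFs v m ∈ setOf' v L := ⟨m, hm, rfl⟩
    rw [← he] at this
    obtain ⟨b, hb, h2⟩ := this
    refine ⟨⟨b, hb⟩, ?_⟩
    apply toFs_inj (hL _ (bcode_mem e he _)) (hL m hm)
    rw [toFs_bcode]
    exact h2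
  · rintro ⟨b, rfl⟩
    exact bcode_mem e he b

theorem disjoint_iff_land (hL : ∀ c ∈ L, c < 2 ^ v) (b c : B) :
    Disjoint (b : Finset α) (c : Finset α) ↔ Nat.land (bcode e he b) (bcode e he c) = 0 := by
  have h1 : toFs v (Nat.land (bcode e he b) (bcode e he c)) =
      ((b : Finset α) ∩ (c : Finset α)).image e := by
    show toFs v (bcode e he b &&& bcode e he c) = _
    rw [toFs_land, toFs_bcode, toFs_bcode, Finset.image_inter _ _ e.injective]
  rw [Finset.disjoint_iff_inter_eq_empty]
  constructor
  · intro h
    rw [h, Finset.image_empty, ← toFs_zero v] at h1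
    exact toFs_inj (lt_of_le_of_lt Nat.and_le_left (hL _ (bcode_mem e he b))) (by positivity) h1
  · intro h
    rw [h, toFs_zero] at h1
    exact Finset.image_eq_empty.mp h1.symm

end bcode

end Cfsg.Agent.Lib.Helper3.Stq
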