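import Mathlib
import Cfsg.Prelude.Def_Sporadic_a

set_option autoImplicit false
open Cfsg

/-! Counting in abstract Steiner systems: blocks through a set, the intersection triangle. -/

namespace Cfsg.Agent.Lib.Helper3.Stn

variable {α : Type*} [Fintype α] [DecidableEq α]

/-- the number of `t`-subsets of `s` containing `I`. -/
theorem card_between {s I : Finset α} (hI : I ⊆ s) {t : ℕ} (ht : I.card ≤ t) :
    ((s.powersetCard t).filter (fun T => I ⊆ T)).card = (s.card - I.card).choose (t - I.card) := by
  rw [← Finset.card_sdiff_of_subset hI, ← Finset.card_powersetCard]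
  apply Finset.card_bij' (fun T _ => T \ I) (fun U _ => U ∪ I)
  · intro T hT
    rw [Finset.mem_filter, Finset.mem_powersetCard] at hT
    rw [Finset.mem_powersetCard]
    refine ⟨Finset.sdiff_subset_sdiff hT.1.1 le_rfl, ?_⟩
    rw [Finset.card_sdiff_of_subset hT.2, hT.1.2]
  · intro U hU
    rw [Finset.mem_powersetCard] at hU
    rw [Finset.mem_filter, Finset.mem_powersetCard]
    refine ⟨⟨Finset.union_subset (hU.1.trans Finset.sdiff_subset) hI, ?_⟩,
      Finset.subset_union_right⟩
    rw [Finset.card_union_of_disjoint, hU.2]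
    · omega
    · exact Finset.disjoint_of_subset_left hU.1 Finset.sdiff_disjoint
  · intro T hT
    rw [Finset.mem_filter, Finset.mem_powersetCard] at hT
    exact Finset.sdiff_union_of_subset hT.2
  · intro U hU
    rw [Finset.mem_powersetCard] at hU
    apply Finset.union_sdiff_cancel_right
    exact Finset.disjoint_of_subset_left hU.1 Finset.sdiff_disjoint

open Classical in
/-- the blocks, as a finset. -/
noncomputable def Bf (B : Set (Finset α)) : Finset (Finset α) := Finset.univ.filter (· ∈ B)

theorem mem_Bf {B : Set (Finset α)} {b : Finset α} : b ∈ Bf B ↔ b ∈ B := by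
  classical
  simp [Bf]

theorem ncard_eq (B : Set (Finset α)) (P : Finset α → Prop) [DecidablePred P] :
    {c : Finset α | c ∈ B ∧ P c}.ncard = ((Bf B).filter P).card := by
  rw [← Set.ncard_coe_finset]
  congr 1
  ext c
  simp [mem_Bf]

theorem ncard_eq' (B : Set (Finset α)) : B.ncard = (Bf B).card := by
  rw [← Set.ncard_coe_finset]
  congr 1
  ext c
  simp [mem_Bf]

variable {t k : ℕ} {B : Set (Finset α)}

/-- the number of blocks through a set of at most `t` points. -/
theorem card_through (hB : IsSteinerSystem t k B) {I : Finset α} (hI : I.card ≤ t) :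
    ((Bf B).filter (fun b => I ⊆ b)).card * (k - I.card).choose (t - I.card) =
      (Fintype.card α - I.card).choose (t - I.card) := by
  classical
  let blk : Finset α → Finset α := fun T => if h : T.card = t then (hB.2 T h).choose else ∅
  have hblk : ∀ T, T.card = t → blk T ∈ B ∧ T ⊆ blk T := by
    intro T h
    simp only [blk, dif_pos h]
    exact (hB.2 T h).choose_spec.1
  have huniq : ∀ T b, T.card = t → b ∈ B → T ⊆ b → blk T = b := by
    intro T b h hb hTb
    exact (hB.2 T h).unique (hblk T h) ⟨hb, hTb⟩
  have key := Finset.card_eq_sum_card_fiberwise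
    (s := (Finset.univ.powersetCard t).filter (fun T => I ⊆ T))
    (t := (Bf B).filter (fun b => I ⊆ b)) (f := blk) (by
      intro T hT
      simp only [Finset.coe_filter, Finset.mem_powersetCard, Set.mem_ofPred_eq] at hT
      simp only [Finset.coe_filter, Set.mem_ofPred_eq, mem_Bf]
      exact ⟨(hblk T hT.1.2).1, hT.2.trans (hblk T hT.1.2).2⟩)
  rw [card_between (Finset.subset_univ I) hI, Finset.card_univ] at key
  rw [key]
  rw [Finset.sum_congr rfl (g := fun _ => (k - I.card).choose (t - I.card))]
  · rw [Finset.sum_const, smul_eq_mul]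
  · intro b hb
    rw [Finset.mem_filter, mem_Bf] at hb
    rw [← hB.1 b hb.1, ← card_between hb.2 hI]
    congr 1
    ext T
    simp only [Finset.mem_filter, Finset.mem_powersetCard, Finset.subset_univ, true_and]
    constructor
    · rintro ⟨⟨h1, h2⟩, h3⟩
      exact ⟨⟨h3 ▸ (hblk T h1).2, h1⟩, h2⟩
    · rintro ⟨⟨h1, h2⟩, h3⟩
      exact ⟨⟨h2, h3⟩, huniq T b h2 hb.1 h1⟩

/-- a set of at least `t` points of a block lies in that block only. -/
theorem through_eq_singleton (hB : IsSteinerSystem t k B) {b0 K : Finset α} (hb0 : b0 ∈ B)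
    (hK : K ⊆ b0) (ht : t ≤ K.card) : (Bf B).filter (fun b => K ⊆ b) = {b0} := by
  obtain ⟨S, hSK, hS⟩ := Finset.exists_subset_card_eq ht
  ext b
  rw [Finset.mem_filter, mem_Bf, Finset.mem_singleton]
  constructor
  · rintro ⟨hb, hKb⟩
    exact (hB.2 S hS).unique ⟨hb, hSK.trans hKb⟩ ⟨hb0, hSK.trans hK⟩
  · rintro rfl
    exact ⟨hb0, hK⟩

/-- the intersection triangle. -/
def Ld (lam : ℕ → ℤ) : ℕ → ℕ → ℤ
  | 0, j => lam j
  | d + 1, j => Ld lam d j - Ld lam d (j + 1)

theorem card_inter_eq (F : Finset (Finset α)) (Y0 : Finset α) (lam : ℕ → ℤ)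
    (h : ∀ K ⊆ Y0, ((F.filter (fun b => K ⊆ b)).card : ℤ) = lam K.card) :
    ∀ (d : ℕ) (J Y : Finset α), J ⊆ Y → Y ⊆ Y0 → (Y \ J).card = d →
      ((F.filter (fun b => b ∩ Y = J)).card : ℤ) = Ld lam d J.card := by
  intro d
  induction d with
  | zero =>
    intro J Y hJY hY hd
    have : Y = J := by
      apply le_antisymm _ hJY
      rw [Finset.card_eq_zero, Finset.sdiff_eq_empty_iff_subset] at hd
      exact hd
    subst this
    rw [Ld, ← h Y hY]
    congr 2
    ext b
    rw [Finset.mem_filter, Finset.mem_filter, Finset.inter_eq_right]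
  | succ d ih =>
    intro J Y hJY hY hd
    obtain ⟨y, hy⟩ : (Y \ J).Nonempty := by
      rw [← Finset.card_pos]; omega
    rw [Finset.mem_sdiff] at hy
    have h1 := ih J (Y.erase y) (by
      intro a ha
      rw [Finset.mem_erase]
      exact ⟨fun e => hy.2 (e ▸ ha), hJY ha⟩) ((Finset.erase_subset _ _).trans hY) (by
      have : Y.erase y \ J = (Y \ J).erase y := by
        ext a
        simp only [Finset.mem_sdiff, Finset.mem_erase]
        tauto
      rw [this, Finset.card_erase_of_mem (Finset.mem_sdiff.2 hy), hd]
      rfl)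
    have h2 := ih (insert y J) Y (by
      intro a ha
      rw [Finset.mem_insert] at ha
      rcases ha with rfl | ha
      · exact hy.1
      · exact hJY ha) hY (by
      have : Y \ insert y J = (Y \ J).erase y := by
        ext a
        simp only [Finset.mem_sdiff, Finset.mem_erase, Finset.mem_insert]
        tauto
      rw [this, Finset.card_erase_of_mem (Finset.mem_sdiff.2 hy), hd]
      rfl)
    rw [Finset.card_insert_of_notMem hy.2] at h2
    have h3 : F.filter (fun b => b ∩ Y.erase y = J) =
        F.filter (fun b => b ∩ Y = J) ∪ F.filter (fun b => b ∩ Y = insert y J) := by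
      ext b
      simp only [Finset.mem_filter, Finset.mem_union]
      constructor
      · rintro ⟨hb, e⟩
        by_cases hyb : y ∈ b
        · right
          refine ⟨hb, ?_⟩
          rw [← e]
          ext a
          simp only [Finset.mem_inter, Finset.mem_insert, Finset.mem_erase]
          constructor
          · rintro ⟨a1, a2⟩
            by_cases hay : a = y
            · exact Or.inl hay
            · exact Or.inr ⟨a1, hay, a2⟩
          · rintro (rfl | ⟨a1, -, a2⟩)
            · exact ⟨hyb, hy.1⟩
            · exact ⟨a1, a2⟩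
        · left
          refine ⟨hb, ?_⟩
          rw [← e]
          ext a
          simp only [Finset.mem_inter, Finset.mem_erase]
          constructor
          · rintro ⟨a1, a2⟩
            exact ⟨a1, fun e => hyb (e ▸ a1), a2⟩
          · rintro ⟨a1, -, a2⟩
            exact ⟨a1, a2⟩
      · rintro (⟨hb, e⟩ | ⟨hb, e⟩)
        · refine ⟨hb, ?_⟩
          rw [← e]
          ext a
          simp only [Finset.mem_inter, Finset.mem_erase]
          constructor
          · rintro ⟨a1, -, a2⟩
            exact ⟨a1, a2⟩
          · rintro ⟨a1, a2⟩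
            refine ⟨a1, ?_, a2⟩
            rintro rfl
            apply hy.2
            rw [← e]
            exact Finset.mem_inter.2 ⟨a1, a2⟩
        · refine ⟨hb, ?_⟩
          ext a
          have := Finset.ext_iff.1 e a
          simp only [Finset.mem_inter, Finset.mem_insert] at this
          simp only [Finset.mem_inter, Finset.mem_erase]
          constructor
          · rintro ⟨a1, a2, a3⟩
            rcases this.1 ⟨a1, a3⟩ with r | r
            · exact absurd r a2
            · exact r
          · intro ha
            have := this.2 (Or.inr ha)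
            exact ⟨this.1, fun e => hy.2 (e ▸ ha), this.2⟩
    have h4 : Disjoint (F.filter (fun b => b ∩ Y = J)) (F.filter (fun b => b ∩ Y = insert y J)) := by
      rw [Finset.disjoint_left]
      intro b hb hb'
      rw [Finset.mem_filter] at hb hb'
      apply hy.2
      have : J = insert y J := hb.2.symm.trans hb'.2
      rw [this]
      exact Finset.mem_insert_self _ _
    rw [h3, Finset.card_union_of_disjoint h4] at h1
    rw [Ld]
    push_cast at h1
    omega

/-- the numbers of blocks through `i` points (of a block). -/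
def lamS (t k v : ℕ) (i : ℕ) : ℤ :=
  if i ≤ t then (((v - i).choose (t - i) / (k - i).choose (t - i) : ℕ) : ℤ) else 1

theorem lam_small (hB : IsSteinerSystem t k B) (htk : t ≤ k) {K : Finset α} (hK : K.card ≤ t) :
    (((Bf B).filter (fun b => K ⊆ b)).card : ℤ) = lamS t k (Fintype.card α) K.card := by
  rw [lamS, if_pos hK]
  have h := card_through hB hK
  have hpos : 0 < (k - K.card).choose (t - K.card) := Nat.choose_pos (by omega)
  rw [← h, Nat.mul_div_cancel _ hpos]

theorem lam_block (hB : IsSteinerSystem t k B) (htk : t ≤ k) {b0 : Finset α} (hb0 : b0 ∈ B) :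
    ∀ K ⊆ b0, (((Bf B).filter (fun b => K ⊆ b)).card : ℤ) = lamS t k (Fintype.card α) K.card := by
  intro K hK
  by_cases h : K.card ≤ t
  · exact lam_small hB htk h
  · rw [lamS, if_neg h, through_eq_singleton hB hb0 hK (by omega)]
    simp

/-- the number of blocks meeting a block in a prescribed subset. -/
theorem card_meet (hB : IsSteinerSystem t k B) (htk : t ≤ k) {b0 : Finset α} (hb0 : b0 ∈ B)
    {J : Finset α} (hJ : J ⊆ b0) :
    (((Bf B).filter (fun b => b ∩ b0 = J)).card : ℤ) =
      Ld (lamS t k (Fintype.card α)) (k - J.card) J.card :=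
  card_inter_eq (Bf B) b0 _ (lam_block hB htk hb0) _ J b0 hJ le_rfl (by
    rw [Finset.card_sdiff_of_subset hJ, hB.1 b0 hb0])

/-- the number of blocks meeting a small set in a prescribed subset. -/
theorem card_meet_small (hB : IsSteinerSystem t k B) (htk : t ≤ k) {Y : Finset α}
    (hY : Y.card ≤ t) {J : Finset α} (hJ : J ⊆ Y) :
    (((Bf B).filter (fun b => b ∩ Y = J)).card : ℤ) =
      Ld (lamS t k (Fintype.card α)) (Y.card - J.card) J.card :=
  card_inter_eq (Bf B) Y _ (fun K hK => lam_small hB htk ((Finset.card_le_card hK).trans hY))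
    _ J Y hJ le_rfl (by rw [Finset.card_sdiff_of_subset hJ])

theorem Ld_pos_of_mem (hB : IsSteinerSystem t k B) (htk : t ≤ k) {b c : Finset α} (hb : b ∈ B)
    (hc : c ∈ B) :
    0 < Ld (lamS t k (Fintype.card α)) (k - (c ∩ b).card) (c ∩ b).card := by
  rw [← card_meet hB htk hb Finset.inter_subset_right]
  have : 0 < ((Bf B).filter (fun x => x ∩ b = c ∩ b)).card :=
    Finset.card_pos.2 ⟨c, by rw [Finset.mem_filter, mem_Bf]; exact ⟨hc, rfl⟩⟩
  exact_mod_cast this

theorem inter_card_le (hB : IsSteinerSystem t k B) {b : Finset α} (hb : b ∈ B) (c : Finset α) :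
    (c ∩ b).card ≤ k := by
  rw [← hB.1 b hb]
  exact Finset.card_le_card Finset.inter_subset_right

theorem eq_of_inter_card (hB : IsSteinerSystem t k B) {b c : Finset α} (hb : b ∈ B)
    (hc : c ∈ B) (h : (c ∩ b).card = k) : c = b := by
  have h1 : c ∩ b = c := Finset.eq_of_subset_of_card_le Finset.inter_subset_left
    (by rw [h, hB.1 c hc])
  have h2 : c ∩ b = b := Finset.eq_of_subset_of_card_le Finset.inter_subset_right
    (by rw [h, hB.1 b hb])
  rw [← h1, h2]

omit [Fintype α] in
theorem card_meet_card (F : Finset (Finset α)) (Y : Finset α) (j n : ℕ)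
    (h : ∀ J ⊆ Y, J.card = j → (F.filter (fun b => b ∩ Y = J)).card = n) :
    (F.filter (fun b => (b ∩ Y).card = j)).card = Y.card.choose j * n := by
  have key := Finset.card_eq_sum_card_fiberwise
    (s := F.filter (fun b => (b ∩ Y).card = j)) (t := Y.powersetCard j) (f := fun b => b ∩ Y) (by
      intro b hb
      rw [Finset.mem_coe, Finset.mem_filter] at hb
      rw [Finset.mem_coe, Finset.mem_powersetCard]
      exact ⟨Finset.inter_subset_right, hb.2⟩)
  rw [key, Finset.sum_congr rfl (g := fun _ => n)]
  · rw [Finset.sum_const, Finset.card_powersetCard, smul_eq_mul]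
  · intro J hJ
    rw [Finset.mem_powersetCard] at hJ
    rw [← h J hJ.1 hJ.2]
    congr 1
    ext b
    simp only [Finset.mem_filter]
    constructor
    · rintro ⟨⟨h1, -⟩, h3⟩
      exact ⟨h1, h3⟩
    · rintro ⟨h1, h3⟩
      exact ⟨⟨h1, by rw [h3, hJ.2]⟩, h3⟩

end Cfsg.Agent.Lib.Helper3.Stn
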