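import Mathlib
import Cfsg.Agent.Lib.Helper3.Steiner

set_option autoImplicit false
open Cfsg

/-! Steiner systems S(5,8,24): even intersections, sets meeting all blocks evenly. -/

namespace Cfsg.Agent.Lib.Helper3.Stn

variable {α : Type*} [Fintype α] [DecidableEq α] {B : Set (Finset α)}

theorem meet24 (hα : Fintype.card α = 24) (hB : IsSteinerSystem 5 8 B) {b c : Finset α}
    (hb : b ∈ B) (hc : c ∈ B) (hbc : c ≠ b) :
    (c ∩ b).card = 0 ∨ (c ∩ b).card = 2 ∨ (c ∩ b).card = 4 := by
  have h := Ld_pos_of_mem hB (by norm_num) hb hc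
  have hle := inter_card_le hB hb c
  have hne : (c ∩ b).card ≠ 8 := fun e => hbc (eq_of_inter_card hB hb hc e)
  rw [hα] at h
  revert h
  interval_cases (c ∩ b).card
  · intro _; simp
  · intro h; exact absurd h (by decide +kernel)
  · intro _; simp
  · intro h; exact absurd h (by decide +kernel)
  · intro _; simp
  · intro h; exact absurd h (by decide +kernel)
  · intro h; exact absurd h (by decide +kernel)
  · intro h; exact absurd h (by decide +kernel)
  · exact absurd rfl hne

theorem even24 (hα : Fintype.card α = 24) (hB : IsSteinerSystem 5 8 B) {b c : Finset α}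
    (hb : b ∈ B) (hc : c ∈ B) : (c ∩ b).card % 2 = 0 := by
  by_cases hbc : c = b
  · subst hbc
    rw [Finset.inter_self, hB.1 c hc]
  · rcases meet24 hα hB hb hc hbc with h | h | h <;> rw [h]

omit [Fintype α] in
theorem card_symmDiff_inter (b c e : Finset α) :
    (symmDiff b c ∩ e).card + 2 * (b ∩ c ∩ e).card = (b ∩ e).card + (c ∩ e).card := by
  have h1 : (b ∩ e).card = ((b \ c) ∩ e).card + (b ∩ c ∩ e).card := by
    rw [← Finset.card_union_of_disjoint]
    · congr 1
      ext a
      simp only [Finset.mem_inter, Finset.mem_union, Finset.mem_sdiff]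
      tauto
    · rw [Finset.disjoint_left]
      intro a ha ha'
      simp only [Finset.mem_inter, Finset.mem_sdiff] at ha ha'
      tauto
  have h2 : (c ∩ e).card = ((c \ b) ∩ e).card + (b ∩ c ∩ e).card := by
    rw [← Finset.card_union_of_disjoint]
    · congr 1
      ext a
      simp only [Finset.mem_inter, Finset.mem_union, Finset.mem_sdiff]
      tauto
    · rw [Finset.disjoint_left]
      intro a ha ha'
      simp only [Finset.mem_inter, Finset.mem_sdiff] at ha ha'
      tauto
  have h3 : (symmDiff b c ∩ e).card = ((b \ c) ∩ e).card + ((c \ b) ∩ e).card := by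
    rw [← Finset.card_union_of_disjoint]
    · congr 1
      ext a
      simp only [Finset.mem_inter, Finset.mem_union, Finset.mem_sdiff, Finset.mem_symmDiff]
      tauto
    · rw [Finset.disjoint_left]
      intro a ha ha'
      simp only [Finset.mem_inter, Finset.mem_sdiff] at ha ha'
      tauto
  omega

/-- an eight-element set meeting every block evenly is a block. -/
theorem block_of_even (hα : Fintype.card α = 24) (hB : IsSteinerSystem 5 8 B) {W : Finset α}
    (hW : W.card = 8) (hev : ∀ e ∈ B, (W ∩ e).card % 2 = 0) : W ∈ B := by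
  obtain ⟨S, hSW, hS⟩ := Finset.exists_subset_card_eq (show 5 ≤ W.card by omega)
  obtain ⟨d, ⟨hd, hSd⟩, -⟩ := hB.2 S hS
  have h5 : 5 ≤ (W ∩ d).card := by
    rw [← hS]
    exact Finset.card_le_card (Finset.subset_inter hSW hSd)
  have h8 : (W ∩ d).card ≤ 8 := by
    rw [← hW]
    exact Finset.card_le_card Finset.inter_subset_left
  have hevd := hev d hd
  by_cases h88 : (W ∩ d).card = 8
  · have e1 : W ∩ d = W := Finset.eq_of_subset_of_card_le Finset.inter_subset_left (by omega)
    have e2 : W ∩ d = d := Finset.eq_of_subset_of_card_le Finset.inter_subset_right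
      (by rw [hB.1 d hd]; omega)
    rw [← e1, e2]
    exact hd
  exfalso
  have h6 : (W ∩ d).card = 6 := by omega
  have h2 : (W \ d).card = 2 := by
    have := Finset.card_sdiff_add_card_inter W d
    omega
  obtain ⟨w1, w2, hw12, hw⟩ := Finset.card_eq_two.1 h2
  have hw1 : w1 ∈ W ∧ w1 ∉ d := by
    have : w1 ∈ W \ d := by rw [hw]; simp
    exact Finset.mem_sdiff.1 this
  have hw2 : w2 ∈ W ∧ w2 ∉ d := by
    have : w2 ∈ W \ d := by rw [hw]; simp
    exact Finset.mem_sdiff.1 this
  obtain ⟨R, hRA, hR⟩ := Finset.exists_subset_card_eq (show 3 ≤ (W ∩ d).card by omega)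
  have h3 : 1 < ((W ∩ d) \ R).card := by
    rw [Finset.card_sdiff_of_subset hRA]; omega
  obtain ⟨x, hx, y, hy, hxy⟩ := Finset.one_lt_card.1 h3
  rw [Finset.mem_sdiff, Finset.mem_inter] at hx hy
  have hRW : R ⊆ W := hRA.trans Finset.inter_subset_left
  have hRd : R ⊆ d := hRA.trans Finset.inter_subset_right
  -- the key claim
  have claim : ∀ z, z ∈ W → z ∈ d → z ∉ R → ∃ dz ∈ B, insert w1 (insert w2 R) ⊆ dz ∧
      dz ∩ d = insert z R := by
    intro z hzW hzd hzR
    have hc4 : (insert z R).card = 4 := by rw [Finset.card_insert_of_notMem hzR, hR]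
    have hzRd : insert z R ⊆ d := by
      intro a ha
      rcases Finset.mem_insert.1 ha with rfl | ha
      · exact hzd
      · exact hRd ha
    have hc5 : (insert w1 (insert z R)).card = 5 := by
      rw [Finset.card_insert_of_notMem (fun h => hw1.2 (hzRd h)), hc4]
    obtain ⟨dz, ⟨hdz, hsub⟩, -⟩ := hB.2 _ hc5
    have hne : dz ≠ d := by
      rintro rfl
      exact hw1.2 (hsub (Finset.mem_insert_self _ _))
    have hsub4 : insert z R ⊆ dz ∩ d :=
      Finset.subset_inter ((Finset.subset_insert _ _).trans hsub) hzRd
    have hcard4 : (dz ∩ d).card = 4 := by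
      have := Finset.card_le_card hsub4
      rcases meet24 hα hB hd hdz hne with h | h | h <;> omega
    have heq : insert z R = dz ∩ d := Finset.eq_of_subset_of_card_le hsub4 (by omega)
    have hw2dz : w2 ∈ dz := by
      by_contra hcon
      have : W ∩ dz = insert w1 (insert z R) := by
        apply le_antisymm
        · intro a ha
          rw [Finset.mem_inter] at ha
          by_cases had : a ∈ d
          · apply Finset.mem_insert_of_mem
            rw [heq]
            exact Finset.mem_inter.2 ⟨ha.2, had⟩
          · have : a ∈ W \ d := Finset.mem_sdiff.2 ⟨ha.1, had⟩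
            rw [hw, Finset.mem_insert, Finset.mem_singleton] at this
            rcases this with rfl | rfl
            · exact Finset.mem_insert_self _ _
            · exact absurd ha.2 hcon
        · apply Finset.subset_inter _ hsub
          intro a ha
          rcases Finset.mem_insert.1 ha with rfl | ha
          · exact hw1.1
          rcases Finset.mem_insert.1 ha with rfl | ha
          · exact hzW
          · exact hRW ha
      have h := hev dz hdz
      rw [this, hc5] at h
      omega
    refine ⟨dz, hdz, ?_, heq.symm⟩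
    intro a ha
    rcases Finset.mem_insert.1 ha with rfl | ha
    · exact hsub (Finset.mem_insert_self _ _)
    rcases Finset.mem_insert.1 ha with rfl | ha
    · exact hw2dz
    · exact hsub (Finset.mem_insert_of_mem (Finset.mem_insert_of_mem ha))
  obtain ⟨dx, hdx, sx, ex⟩ := claim x hx.1.1 hx.1.2 hx.2
  obtain ⟨dy, hdy, sy, ey⟩ := claim y hy.1.1 hy.1.2 hy.2
  have hc5 : (insert w1 (insert w2 R)).card = 5 := by
    rw [Finset.card_insert_of_notMem, Finset.card_insert_of_notMem (fun h => hw2.2 (hRd h)), hR]
    intro h
    rcases Finset.mem_insert.1 h with h | h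
    · exact hw12 h
    · exact hw1.2 (hRd h)
  have hdd : dx = dy := (hB.2 _ hc5).unique ⟨hdx, sx⟩ ⟨hdy, sy⟩
  rw [hdd, ey] at ex
  have : x ∈ insert y R := by rw [ex]; exact Finset.mem_insert_self _ _
  rcases Finset.mem_insert.1 this with h | h
  · exact hxy h
  · exact hx.2 h

theorem symmDiff_block (hα : Fintype.card α = 24) (hB : IsSteinerSystem 5 8 B) {b c : Finset α}
    (hb : b ∈ B) (hc : c ∈ B) (h4 : (b ∩ c).card = 4) : symmDiff b c ∈ B := by
  apply block_of_even hα hB
  · have h := card_symmDiff_inter b c Finset.univ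
    simp only [Finset.inter_univ] at h
    rw [h4, hB.1 b hb, hB.1 c hc] at h
    omega
  · intro e he
    have h := card_symmDiff_inter b c e
    have h1 := even24 hα hB he hb
    have h2 := even24 hα hB he hc
    omega

end Cfsg.Agent.Lib.Helper3.Stn
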