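import Mathlib
import Cfsg.Agent.Lib.Helper3.PointTrans

set_option autoImplicit false

namespace Cfsg.Agent.Lib.Helper3

open Cfsg
open scoped Pointwise

/-- check `Q` on `acc` joined with all `w`-subsets of the first `n` points. -/
def allW (Q : ℕ → Bool) : ℕ → ℕ → ℕ → Bool
  | _, 0, acc => Q acc
  | 0, _+1, _ => true
  | n+1, w+1, acc => allW Q n (w+1) acc && allW Q n w (Nat.lor acc (Nat.shiftLeft 1 n))

/-- count `Q` on `acc` joined with all `w`-subsets of the first `n` points. -/
def countW (Q : ℕ → Bool) : ℕ → ℕ → ℕ → ℕ
  | _, 0, acc => bif Q acc then 1 else 0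
  | 0, _+1, _ => 0
  | n+1, w+1, acc =>
    Nat.add (countW Q n (w+1) acc) (countW Q n w (Nat.lor acc (Nat.shiftLeft 1 n)))

/-- the first `n` points. -/
def below (n : ℕ) : Finset GolayPt := Finset.univ.filter (fun p => idx p < n)

theorem mem_below {n : ℕ} {p : GolayPt} : p ∈ below n ↔ idx p < n := by simp [below]

theorem below_succ {n : ℕ} (hn : n < 24) : below (n + 1) = insert (pt n) (below n) := by
  ext p
  rw [Finset.mem_insert, mem_below, mem_below]
  constructor
  · intro h
    rcases Nat.lt_succ_iff_lt_or_eq.1 h with h | h
    · exact Or.inr h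
    · left; rw [← pt_idx p, h]
  · rintro (h | h)
    · rw [h, idx_pt hn]; omega
    · omega

theorem pt_not_mem_below {n : ℕ} (hn : n < 24) : pt n ∉ below n := by
  rw [mem_below, idx_pt hn]; omega

theorem below_24 : below 24 = Finset.univ := by
  ext p; simp [mem_below, idx_lt p]

theorem mask_insert_pt {n : ℕ} (hn : n < 24) (t : Finset GolayPt) :
    mask (insert (pt n) t) = (1 <<< n) ||| mask t := by
  rw [Finset.insert_eq, mask_union, mask_singleton, idx_pt hn]

theorem countW_spec (Q : ℕ → Bool) (n : ℕ) (hn : n ≤ 24) (w acc : ℕ) :
    countW Q n w acc =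
      ((Finset.powersetCard w (below n)).filter (fun t => Q (acc ||| mask t) = true)).card := by
  induction n generalizing w acc with
  | zero =>
    have hb : below 0 = ∅ := by ext p; simp [mem_below]
    cases w with
    | zero =>
      rw [countW, Finset.powersetCard_zero, Finset.filter_singleton, mask_empty, Nat.or_zero]
      cases Q acc <;> simp
    | succ w =>
      rw [countW, hb, Finset.powersetCard_eq_empty.2 (by simp)]
      simp
  | succ n ih =>
    cases w with
    | zero =>
      rw [countW, Finset.powersetCard_zero, Finset.filter_singleton, mask_empty, Nat.or_zero]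
      cases Q acc <;> simp
    | succ w =>
      have hn' : n < 24 := by omega
      rw [countW, ih (by omega), ih (by omega), below_succ hn',
        Finset.powersetCard_succ_insert (pt_not_mem_below hn'), Finset.filter_union,
        Finset.card_union_of_disjoint]
      · rw [Nat.add_eq]
        congr 1
        rw [Finset.filter_image, Finset.card_image_of_injOn]
        · congr 1
          apply Finset.filter_congr
          intro t _
          rw [mask_insert_pt hn']
          show Q ((acc ||| 1 <<< n) ||| mask t) = true ↔ _
          rw [Nat.or_assoc]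
        · intro s hs t ht hst
          have hs' := (Finset.mem_powersetCard.1 (Finset.mem_filter.1 hs).1).1
          have ht' := (Finset.mem_powersetCard.1 (Finset.mem_filter.1 ht).1).1
          have h1 : pt n ∉ s := fun h => pt_not_mem_below hn' (hs' h)
          have h2 : pt n ∉ t := fun h => pt_not_mem_below hn' (ht' h)
          have := congrArg (fun x => x.erase (pt n)) hst
          simpa [Finset.erase_insert h1, Finset.erase_insert h2] using this
      · apply Finset.disjoint_filter_filter
        rw [Finset.disjoint_left]
        intro s hs hs'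
        obtain ⟨t, _, rfl⟩ := Finset.mem_image.1 hs'
        exact pt_not_mem_below hn' ((Finset.mem_powersetCard.1 hs).1 (Finset.mem_insert_self _ _))

theorem ncard_card (Q : ℕ → Bool) (w : ℕ) :
    {t : Finset GolayPt | t.card = w ∧ Q (mask t) = true}.ncard = countW Q 24 w 0 := by
  rw [countW_spec Q 24 le_rfl, below_24, ← Set.ncard_coe_finset]
  congr 1
  ext t
  simp [Finset.mem_powersetCard]

theorem allW_iff_countW (Q : ℕ → Bool) (n w acc : ℕ) :
    allW Q n w acc = true ↔ countW (fun x => !Q x) n w acc = 0 := by
  induction n generalizing w acc with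
  | zero =>
    cases w with
    | zero => rw [allW, countW]; cases Q acc <;> simp
    | succ w => rw [allW, countW]; simp
  | succ n ih =>
    cases w with
    | zero => rw [allW, countW]; cases Q acc <;> simp
    | succ w =>
      rw [allW, countW, Bool.and_eq_true, ih, ih]
      show _ ↔ _ + _ = 0
      omega

theorem forall_card (Q : ℕ → Bool) (w : ℕ) (h : allW Q 24 w 0 = true) (t : Finset GolayPt)
    (ht : t.card = w) : Q (mask t) = true := by
  rw [allW_iff_countW, ← ncard_card] at h
  rw [Set.ncard_eq_zero (Set.toFinite _)] at h
  by_contra hc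
  have : t ∈ {t : Finset GolayPt | t.card = w ∧ (!Q (mask t)) = true} := ⟨ht, by simpa using hc⟩
  rw [h] at this
  exact this

end Cfsg.Agent.Lib.Helper3
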