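import Mathlib
import Cfsg.Agent.Lib.Helper3.Subsets

set_option autoImplicit false

namespace Cfsg.Agent.Lib.Helper3

open Cfsg
open scoped Pointwise

/-- check for one mask. -/
def chkW (TT : ℕ) (dir : ℕ → ℕ) (D : ℕ) (fin : ℕ → ℕ → Bool) (x : ℕ) : Bool :=
  force x fun x => fin x (descend TT dir D x)

theorem orbit_card {ms : List ℕ} {ws : List (List ℕ)} {TT : ℕ} {dir : ℕ → ℕ} {D w : ℕ}
    {fin : ℕ → ℕ → Bool} (hg : chkGens ms ws TT = true)
    (h : allW (chkW TT dir D fin) 24 w 0 = true) (s : Finset GolayPt) (hs : s.card = w) :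
    ∃ σ ∈ StabM ms, fin (mask s) (mask (σ • s)) = true := by
  obtain ⟨σ, hσ, h1⟩ := descend_sound hg dir D s
  refine ⟨σ, hσ, ?_⟩
  have h2 := forall_card _ w h s hs
  unfold chkW at h2
  rw [force_eq] at h2
  rw [h1]; exact h2

/-- key of a mask with at most three points. -/
def key3 (x : ℕ) : ℕ :=
  Nat.add (Nat.mul (Nat.add (Nat.mul (Nat.log2 x) 24)
    (Nat.log2 (Nat.xor x (Nat.shiftLeft 1 (Nat.log2 x))))) 24)
    (Nat.log2 (Nat.xor (Nat.xor x (Nat.shiftLeft 1 (Nat.log2 x)))
      (Nat.shiftLeft 1 (Nat.log2 (Nat.xor x (Nat.shiftLeft 1 (Nat.log2 x)))))))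

/-- direction table indexed by `key3`. -/
def dir3 (DIR x : ℕ) : ℕ := Nat.land (Nat.shiftRight DIR (Nat.mul 4 (key3 x))) 15

/-- the set is contained in one of the sets of the list. -/
def inAny (L : List ℕ) (x : ℕ) : Bool := L.any fun o => Nat.beq (Nat.land x o) x

theorem subset_iff_land (s t : Finset GolayPt) : s ⊆ t ↔ Nat.land (mask s) (mask t) = mask s := by
  rw [← Finset.inter_eq_left]
  constructor
  · intro h
    have := mask_inter s t
    rw [h] at this
    exact this.symm
  · intro h
    apply mask_injective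
    rw [mask_inter]; exact h

theorem disjoint_iff_land (s t : Finset GolayPt) :
    Disjoint s t ↔ Nat.land (mask s) (mask t) = 0 := by
  rw [Finset.disjoint_iff_inter_eq_empty]
  constructor
  · intro h
    have := mask_inter s t
    rw [h, mask_empty] at this
    exact this.symm
  · intro h
    apply mask_injective
    rw [mask_inter, mask_empty]; exact h

/-- `L` is the list of all octads containing the set of mask `m`. -/
def chkOctList (m : ℕ) (L : List ℕ) (x : ℕ) : Bool :=
  !(Nat.beq (pcF x) 8 && Nat.beq (Nat.land m x) m) || L.contains x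

theorem inAny_iff {m : ℕ} {L : List ℕ} (hm : m < 2 ^ 24)
    (h1 : L.all (fun o => isOct o && Nat.beq (Nat.land m o) m) = true)
    (h2 : allRange (fun c => chkOctList m L (encF c)) 12 0 = true) (U : Finset GolayPt) :
    (∃ o ∈ octads, unmask m ∪ U ⊆ o) ↔ inAny L (mask U) = true := by
  unfold inAny
  rw [List.any_eq_true]
  constructor
  · rintro ⟨o, ho, hsub⟩
    have h3 := forall_codeF _ h2 o ho.1
    unfold chkOctList at h3
    have h4 : Nat.land m (mask o) = m := by
      have := (subset_iff_land _ _).1 (Finset.union_subset_left hsub)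
      rwa [mask_unmask hm] at this
    rw [← card_eq_pcF, ho.2, h4] at h3
    have e1 : Nat.beq 8 8 = true := rfl
    have e2 : Nat.beq m m = true := by rw [Nat.beq_eq]
    rw [e1, e2] at h3
    simp only [Bool.and_self, Bool.not_true, Bool.false_or] at h3
    refine ⟨mask o, by simpa using h3, ?_⟩
    rw [Nat.beq_eq]
    exact (subset_iff_land _ _).1 (Finset.union_subset_right hsub)
  · rintro ⟨o, ho, h3⟩
    rw [List.all_eq_true] at h1
    have h4 := h1 o ho
    rw [Bool.and_eq_true, Nat.beq_eq] at h4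
    obtain ⟨h5, h6⟩ := unmask_mem_octads h4.1
    rw [Nat.beq_eq] at h3
    refine ⟨unmask o, h5, Finset.union_subset ?_ ?_⟩
    · rw [subset_iff_land, mask_unmask hm, mask_unmask h6]; exact h4.2
    · rw [subset_iff_land, mask_unmask h6]; exact h3

end Cfsg.Agent.Lib.Helper3
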