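import Mathlib
import Cfsg.Agent.Lib.Helper3.SylTab

set_option autoImplicit false
set_option maxRecDepth 100000
open Cfsg

namespace Cfsg.Agent.Lib.Helper3.Syl.D11

def wz : List ℕ := [3, 2, 3, 1, 0, 2, 0, 4, 3, 3, 4, 0, 0, 4, 4, 0, 1, 0, 2, 3, 2, 0, 0, 0, 2, 3, 4, 3, 1]

def rc : List (List ℕ × List ℕ) := [([], [0, 0, 0]),
  ([0, 4, 3, 1, 2, 2, 3, 4, 0, 0, 1, 3, 2, 3, 1, 3, 1, 2, 3, 4, 3, 4, 4, 3, 3, 1, 3, 2], [1, 0]),
  ([3, 3, 3, 1, 0, 0, 4, 0, 1, 0, 0, 0, 4, 1, 0, 0, 3, 4, 0, 2, 2, 0, 2, 3, 1, 0, 2, 0], [1]),
  ([4, 4, 0, 2, 3, 3, 4, 0, 0, 4, 1, 3, 2, 1, 3, 2, 1, 3, 2, 2, 3, 2, 3, 2, 2, 0, 0, 0, 1], [0])]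

def gt : List ℕ := [228001363311221454468151101670655040,
  975324830235885707264894193849934112,
  944538627742660781242037951888164896,
  484818976456515315582340316822346240,
  816102268313726326910363749921702080]

def tabs : List ℕ := [984818244535754528103549039458486304,
  228001363311221454468151101670655040,
  975324830235885707264894193849934112,
  944538627742660781242037951888164896,
  484818976456515315582340316822346240,
  816102268313726326910363749921702080,
  237035019059890633598361414335538432,
  630443648067612166917968708617438272,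
  920805771003126284197032582443017472,
  483116463517276541127850537344643200,
  817428608413251064995093159084626304,
  653716820532349379377346039064404256,
  887497044766071664966272308902173184,
  856067470382057241201804347340046528,
  897201879417579097703083326143828352,
  845986537167238129218049453729099904]

def par : List (ℕ × ℕ) := [(0, 0), (0, 0), (0, 1), (0, 2), (0, 3), (0, 4), (1, 1), (1, 2), (2, 2), (2, 3), (2, 4), (3, 1), (3, 3), (3, 4), (8, 3), (8, 4)]

def Tz : ℕ := 228001363311221454468151101670655040

theorem h1 : chkGen (bld wz rc) gt = true := by decide +kernel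
theorem h2 : chkClosed gt tabs = true := by decide +kernel
theorem h3 : chkPar gt tabs par = true := by decide +kernel
theorem h4 : chkCanon tabs = true := by decide +kernel
theorem h5 : nodupB tabs = true := by decide +kernel
theorem h6 : tabs.length = 2 ^ 4 := by decide +kernel
theorem h8 : chkZ gt tabs Tz = true := by decide +kernel
theorem h9 : agree Tz (wact wz) = true := by decide +kernel
def u : List ℕ := [3, 4, 3, 3, 1, 3, 4, 3, 4, 0, 1, 4, 4]

def bs : List ℕ := [13, 3, 18, 7]

theorem h7 : chain gt tabs 340831 u [0] bs = true := by decide +kernel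
theorem h10 : (bld wz rc).all (inG [0] 340831) = true := by decide +kernel
theorem h11 : rc.all (fun ce => inG [0] 340831 ce.1) = true := by decide +kernel

end Cfsg.Agent.Lib.Helper3.Syl.D11
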