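import Mathlib
import Cfsg.Prelude.Def_SporadicCombinatorics
import Cfsg.Agent.Lib.Helper3.OctStab

set_option autoImplicit false

namespace Cfsg.Agent.Lib.Helper3

open Cfsg
open scoped Pointwise

/-- two sets and the complement of their union. -/
def trioOf (a b : Finset GolayPt) : Finset (Finset GolayPt) := {a, b, (a ∪ b)ᶜ}

theorem univ_mem_CS : (Finset.univ : Finset GolayPt) ∈ CS := by
  rw [mem_supports_iff, mask_univ]; decide +kernel

theorem third_octad {a b : Finset GolayPt} (ha : a ∈ octads) (hb : b ∈ octads)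
    (hab : Disjoint a b) : (a ∪ b)ᶜ ∈ octads := by
  have h1 : (a ∪ b)ᶜ = symmDiff (symmDiff a b) Finset.univ := by
    rw [Disjoint.symmDiff_eq_sup hab]
    ext p; simp [Finset.mem_symmDiff]
  refine ⟨?_, ?_⟩
  · rw [h1]; exact supports_symmDiff (supports_symmDiff ha.1 hb.1) univ_mem_CS
  · rw [Finset.card_compl, Finset.card_union_of_disjoint hab, ha.2, hb.2]; rfl

theorem disjoint_third_left (a b : Finset GolayPt) : Disjoint a (a ∪ b)ᶜ := by
  rw [Finset.disjoint_left]; intro p hp hc
  exact (Finset.mem_compl.1 hc) (Finset.mem_union_left _ hp)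

theorem disjoint_third_right (a b : Finset GolayPt) : Disjoint b (a ∪ b)ᶜ := by
  rw [Finset.disjoint_left]; intro p hp hc
  exact (Finset.mem_compl.1 hc) (Finset.mem_union_right _ hp)

theorem ne_of_disjoint_octads {a b : Finset GolayPt} (ha : a ∈ octads) (hab : Disjoint a b) :
    a ≠ b := by
  rintro rfl
  rw [disjoint_self] at hab
  have := ha.2
  rw [show a = ∅ from hab] at this
  simp at this

theorem card_trioOf {a b : Finset GolayPt} (ha : a ∈ octads) (hb : b ∈ octads)
    (hab : Disjoint a b) : (trioOf a b).card = 3 := by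
  unfold trioOf
  rw [Finset.card_insert_of_notMem, Finset.card_insert_of_notMem, Finset.card_singleton]
  · rw [Finset.mem_singleton]
    exact ne_of_disjoint_octads hb (disjoint_third_right a b)
  · rw [Finset.mem_insert, Finset.mem_singleton]
    rintro (h | h)
    · exact ne_of_disjoint_octads ha hab h
    · exact ne_of_disjoint_octads ha (disjoint_third_left a b) h

theorem trioOf_mem {a b : Finset GolayPt} (ha : a ∈ octads) (hb : b ∈ octads)
    (hab : Disjoint a b) : trioOf a b ∈ trios := by
  have hc := third_octad ha hb hab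
  refine ⟨card_trioOf ha hb hab, ?_, ?_⟩
  · intro o ho
    simp only [trioOf, Finset.mem_insert, Finset.mem_singleton] at ho
    rcases ho with rfl | rfl | rfl
    · exact ha
    · exact hb
    · exact hc
  · intro o ho o' ho' hne
    simp only [trioOf, Finset.mem_insert, Finset.mem_singleton] at ho ho'
    rcases ho with rfl | rfl | rfl <;> rcases ho' with rfl | rfl | rfl
    · exact absurd rfl hne
    · exact hab
    · exact disjoint_third_left _ _
    · exact hab.symm
    · exact absurd rfl hne
    · exact disjoint_third_right _ _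
    · exact (disjoint_third_left _ _).symm
    · exact (disjoint_third_right _ _).symm
    · exact absurd rfl hne

theorem eq_trioOf {T : Finset (Finset GolayPt)} (hT : T ∈ trios) {a b : Finset GolayPt}
    (ha : a ∈ T) (hb : b ∈ T) (hab : a ≠ b) : T = trioOf a b := by
  obtain ⟨h3, hoct, hdis⟩ := hT
  have hd := hdis a ha b hb hab
  symm
  apply Finset.eq_of_subset_of_card_le
  · have h2 : ({a, b} : Finset (Finset GolayPt)).card = 2 := Finset.card_pair hab
    have hsub : ({a, b} : Finset (Finset GolayPt)) ⊆ T := by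
      intro x hx
      simp only [Finset.mem_insert, Finset.mem_singleton] at hx
      rcases hx with rfl | rfl
      · exact ha
      · exact hb
    obtain ⟨c, hc, hcn⟩ := Finset.exists_mem_notMem_of_card_lt_card (by rw [h2, h3]; norm_num :
      ({a, b} : Finset (Finset GolayPt)).card < T.card)
    simp only [Finset.mem_insert, Finset.mem_singleton, not_or] at hcn
    have hca := hdis c hc a ha hcn.1
    have hcb := hdis c hc b hb hcn.2
    have hcsub : c ⊆ (a ∪ b)ᶜ := by
      intro p hp
      rw [Finset.mem_compl, Finset.mem_union]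
      rintro (h | h)
      · exact Finset.disjoint_left.1 hca hp h
      · exact Finset.disjoint_left.1 hcb hp h
    have hceq : c = (a ∪ b)ᶜ := by
      apply Finset.eq_of_subset_of_card_le hcsub
      rw [(third_octad (hoct a ha) (hoct b hb) hd).2, (hoct c hc).2]
    intro x hx
    simp only [trioOf, Finset.mem_insert, Finset.mem_singleton] at hx
    rcases hx with rfl | rfl | rfl
    · exact ha
    · exact hb
    · rw [← hceq]; exact hc
  · rw [h3, card_trioOf (hoct a ha) (hoct b hb) hd]

theorem smul_compl (g : Equiv.Perm GolayPt) (x : Finset GolayPt) : g • xᶜ = (g • x)ᶜ := by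
  ext p
  rw [Finset.mem_compl, ← Finset.inv_smul_mem_iff, ← Finset.inv_smul_mem_iff, Finset.mem_compl]

theorem smul_trioOf (g : Equiv.Perm GolayPt) (a b : Finset GolayPt) :
    g • trioOf a b = trioOf (g • a) (g • b) := by
  unfold trioOf
  rw [Finset.smul_finset_insert, Finset.smul_finset_insert, Finset.smul_finset_singleton,
    smul_compl, Finset.smul_finset_union]

theorem exists_two_of_trio {T : Finset (Finset GolayPt)} (hT : T ∈ trios) {a : Finset GolayPt}
    (ha : a ∈ T) : ∃ b ∈ T, a ≠ b := by
  by_contra hcon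
  have : T ⊆ {a} := by
    intro x hx
    rw [Finset.mem_singleton]
    by_contra hne
    exact hcon ⟨x, hx, fun h => hne h.symm⟩
  have h1 := Finset.card_le_card this
  rw [hT.1] at h1
  simp at h1

theorem smul_mem_trios {g : Equiv.Perm GolayPt} (hg : g ∈ M24) {T : Finset (Finset GolayPt)}
    (hT : T ∈ trios) : g • T ∈ trios := by
  have hne : T.Nonempty := by rw [← Finset.card_pos, hT.1]; norm_num
  obtain ⟨a, ha⟩ := hne
  obtain ⟨b, hb, hab⟩ := exists_two_of_trio hT ha
  rw [eq_trioOf hT ha hb hab, smul_trioOf]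
  apply trioOf_mem (smul_mem_octads hg (hT.2.1 a ha)) (smul_mem_octads hg (hT.2.1 b hb))
  have hd := hT.2.2 a ha b hb hab
  rw [Finset.disjoint_iff_inter_eq_empty] at hd ⊢
  rw [← Finset.smul_finset_inter, hd, Finset.smul_finset_empty]

theorem trioOf_comm_third {a b : Finset GolayPt} (ha : a ∈ octads) (hb : b ∈ octads)
    (hab : Disjoint a b) : trioOf a (a ∪ b)ᶜ = trioOf a b := by
  have hT := trioOf_mem ha hb hab
  symm
  apply eq_trioOf hT
  · simp [trioOf]
  · simp [trioOf]
  · exact ne_of_disjoint_octads ha (disjoint_third_left a b)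

theorem trioOf_eq_iff {a b b' : Finset GolayPt} (ha : a ∈ octads) (hb : b ∈ octads)
    (hab : Disjoint a b) (hb' : b' ∈ octads) (hab' : Disjoint a b') :
    trioOf a b' = trioOf a b ↔ b' = b ∨ b' = (a ∪ b)ᶜ := by
  constructor
  · intro h
    have : b' ∈ trioOf a b := by rw [← h]; simp [trioOf]
    simp only [trioOf, Finset.mem_insert, Finset.mem_singleton] at this
    rcases this with h1 | h1 | h1
    · exact absurd h1.symm (ne_of_disjoint_octads ha hab')
    · exact Or.inl h1
    · exact Or.inr h1
  · rintro (rfl | rfl)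
    · rfl
    · exact trioOf_comm_third ha hb hab

/-- an octad lies in exactly fifteen trios. -/
theorem ncard_trios_through {a : Finset GolayPt} (ha : a ∈ octads) :
    {T | T ∈ trios ∧ a ∈ T}.ncard = 15 := by
  classical
  have hB : {x : Finset GolayPt | x ∈ octads ∧ (a ∩ x).card = 0}.ncard = 30 := by
    rw [ncard_oct_inter 0 ha, count_octO0_0]
  have hBfin : {x : Finset GolayPt | x ∈ octads ∧ (a ∩ x).card = 0}.Finite := Set.toFinite _
  have hTfin : {T | T ∈ trios ∧ a ∈ T}.Finite := Set.toFinite _
  rw [Set.ncard_eq_toFinset_card _ hBfin] at hB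
  rw [Set.ncard_eq_toFinset_card _ hTfin]
  have hmemB : ∀ x, x ∈ hBfin.toFinset ↔ x ∈ octads ∧ Disjoint a x := by
    intro x
    rw [Set.Finite.mem_toFinset, Set.mem_ofPred_eq, Finset.card_eq_zero,
      Finset.disjoint_iff_inter_eq_empty]
  have hmemT : ∀ T, T ∈ hTfin.toFinset ↔ T ∈ trios ∧ a ∈ T := by
    intro T; rw [Set.Finite.mem_toFinset]; rfl
  have key := Finset.card_eq_sum_card_fiberwise (s := hBfin.toFinset) (t := hTfin.toFinset)
    (f := fun b => trioOf a b) (by
      intro b hb
      have hb' := (hmemB b).1 hb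
      exact (hmemT _).2 ⟨trioOf_mem ha hb'.1 hb'.2, by simp [trioOf]⟩)
  have hfib : ∀ T ∈ hTfin.toFinset, (hBfin.toFinset.filter (fun b => trioOf a b = T)).card = 2 := by
    intro T hT
    obtain ⟨hT1, hT2⟩ := (hmemT T).1 hT
    obtain ⟨b, hb, hab⟩ := exists_two_of_trio hT1 hT2
    have hbo := hT1.2.1 b hb
    have hd := hT1.2.2 a hT2 b hb hab
    have hTe := eq_trioOf hT1 hT2 hb hab
    have : hBfin.toFinset.filter (fun b => trioOf a b = T) = {b, (a ∪ b)ᶜ} := by
      ext x
      rw [Finset.mem_filter, hmemB, Finset.mem_insert, Finset.mem_singleton, hTe]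
      constructor
      · rintro ⟨⟨hx1, hx2⟩, hx3⟩
        exact (trioOf_eq_iff ha hbo hd hx1 hx2).1 hx3
      · rintro (rfl | rfl)
        · exact ⟨⟨hbo, hd⟩, rfl⟩
        · exact ⟨⟨third_octad ha hbo hd, disjoint_third_left a b⟩, trioOf_comm_third ha hbo hd⟩
    rw [this, Finset.card_pair (ne_of_disjoint_octads hbo (disjoint_third_right a b))]
  rw [Finset.sum_congr rfl hfib, Finset.sum_const, hB] at key
  simp only [smul_eq_mul] at key
  omega

theorem ncard_trios : trios.ncard = 3795 := by
  classical
  have hOfin : octads.Finite := Set.toFinite _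
  have hTfin : trios.Finite := Set.toFinite _
  have hO : hOfin.toFinset.card = 759 := by
    rw [← Set.ncard_eq_toFinset_card, ncard_octads]
  rw [Set.ncard_eq_toFinset_card _ hTfin]
  have key := Finset.sum_card_bipartiteAbove_eq_sum_card_bipartiteBelow
    (s := hTfin.toFinset) (t := hOfin.toFinset) (fun T a => a ∈ T)
  have h1 : ∀ T ∈ hTfin.toFinset, (Finset.bipartiteAbove (fun T a => a ∈ T) hOfin.toFinset T).card = 3 := by
    intro T hT
    have hT' : T ∈ trios := (Set.Finite.mem_toFinset _).1 hT
    have : Finset.bipartiteAbove (fun T a => a ∈ T) hOfin.toFinset T = T := by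
      ext a
      rw [Finset.mem_bipartiteAbove, Set.Finite.mem_toFinset]
      exact ⟨fun h => h.2, fun h => ⟨hT'.2.1 a h, h⟩⟩
    rw [this, hT'.1]
  have h2 : ∀ a ∈ hOfin.toFinset, (Finset.bipartiteBelow (fun T a => a ∈ T) hTfin.toFinset a).card = 15 := by
    intro a ha
    have ha' : a ∈ octads := (Set.Finite.mem_toFinset _).1 ha
    rw [← ncard_trios_through ha', ← Set.ncard_coe_finset]
    congr 1
    ext T
    simp only [Finset.coe_filter, Finset.bipartiteBelow, Set.Finite.mem_toFinset]
  rw [Finset.sum_congr rfl h1, Finset.sum_congr rfl h2, Finset.sum_const, Finset.sum_const, hO] at key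
  simp only [smul_eq_mul] at key
  omega

end Cfsg.Agent.Lib.Helper3
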