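import Mathlib
import Cfsg.Agent.Lib.Helper3.DataTT2
import Cfsg.Agent.Lib.Helper3.SxTrBase

set_option autoImplicit false
open scoped Pointwise
open Cfsg

namespace Cfsg.Agent.Lib.Helper3

/-- elements of the pointwise stabiliser of the standard octad are given by words. -/
theorem K6_word {g : Equiv.Perm GolayPt} (hg : g ∈ K 6) :
    ∃ q < 24, (allow 6).testBit q = true ∧ g = wperm ((tr 6).getD q []) := by
  have hg' := (mem_K 6 g).1 hg
  have hq := allowed (k := 6) (by norm_num) hg'.1 hg'.2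
  set q := idx (g (bpt 6)) with hqdef
  have hq24 : q < 24 := idx_lt _
  obtain ⟨hu1, hu2⟩ := level_word 6 (by norm_num) q hq24 hq
  set u := wperm ((tr 6).getD q []) with hu
  have hug : u * g = 1 := by
    apply eq_one_of_fixes (M24.mul_mem (wperm_mem _) hg'.1)
    intro j hj
    rcases Nat.lt_succ_iff_lt_or_eq.mp hj with h | rfl
    · show u (g (bpt j)) = _
      rw [hg'.2 j h, hu1 j h]
    · show u (g (bpt 6)) = _
      have h6 : g (bpt 6) = pt q := by rw [hqdef, pt_idx]
      rw [h6, hu2]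
  refine ⟨q, hq24, hq, ?_⟩
  have h1 : u = g⁻¹ := eq_inv_of_mul_eq_one_left hug
  have h2 : g⁻¹ = g := inv_eq_of_mul_eq_one_left (K6_elem hg).1
  rw [← hu, h1, h2]

/-- the pointwise stabiliser of the standard octad preserves parallel classes. -/
def chkKtr (c : ℕ) : Bool := force (encF c) fun x =>
  !(Nat.beq (pcF x) 8 && Nat.beq (Nat.land x 0x149f) 0) ||
    (List.range 24).all fun q => !((allow 6).testBit q) ||
      force (pm (wact (winv ((tr 6).getD q []))) x) fun y =>
        Nat.beq y x || Nat.beq y (Nat.xor x 0xFFEB60)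

theorem chkKtr_all : allRange chkKtr 12 0 = true := by decide +kernel

theorem mask_third_O0 {b : Finset GolayPt} (hd : Disjoint O0 b) :
    mask (O0 ∪ b)ᶜ = Nat.xor (mask b) 0xFFEB60 := by
  have h1 : (O0 ∪ b)ᶜ = symmDiff b (unmask 0xFFEB60) := by
    have h2 : unmask 0xFFEB60 = O0ᶜ := by
      apply mask_injective
      rw [mask_compl, O0, mask_unmask (by norm_num), mask_unmask (by norm_num)]
      decide
    rw [h2]
    ext p
    simp only [Finset.mem_compl, Finset.mem_union, Finset.mem_symmDiff, not_or, not_not]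
    have h3 : p ∈ O0 → p ∉ b := fun h => Finset.disjoint_left.1 hd h
    tauto
  rw [h1, mask_symmDiff, mask_unmask (by norm_num)]
  rfl

/-- an element fixing the standard octad pointwise fixes every trio through it. -/
theorem K6_fix_trio {g : Equiv.Perm GolayPt} (hg : g ∈ K 6) {T : Finset (Finset GolayPt)}
    (hT : T ∈ trios) (hO : O0 ∈ T) : g • T = T := by
  obtain ⟨b, hb, hne⟩ := exists_two_of_trio hT hO
  have hbo := hT.2.1 b hb
  have hd : Disjoint O0 b := hT.2.2 O0 hO b hb hne
  obtain ⟨q, hq24, hq, rfl⟩ := K6_word hg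
  have hfix : wperm ((tr 6).getD q []) • O0 = O0 := by
    apply Finset.eq_of_subset_of_card_le
    · intro p hp
      obtain ⟨p', hp', rfl⟩ := Finset.mem_smul_finset.1 hp
      have := (K6_elem hg).2 p' hp'
      rw [Equiv.Perm.smul_def, this]
      exact hp'
    · rw [Finset.card_smul_finset]
  rw [eq_trioOf hT hO hb hne, smul_trioOf, hfix,
    trioOf_eq_iff O0_mem hbo hd (smul_mem_octads (wperm_mem _) hbo) (by
      rw [← hfix, Finset.disjoint_iff_inter_eq_empty, ← Finset.smul_finset_inter,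
        Finset.disjoint_iff_inter_eq_empty.1 hd, Finset.smul_finset_empty])]
  have h := forall_codeF (fun x => !(Nat.beq (pcF x) 8 && Nat.beq (Nat.land x 0x149f) 0) ||
    (List.range 24).all fun q => !((allow 6).testBit q) ||
      force (pm (wact (winv ((tr 6).getD q []))) x) fun y =>
        Nat.beq y x || Nat.beq y (Nat.xor x 0xFFEB60)) chkKtr_all b hbo.1
  have h1 : Nat.beq (pcF (mask b)) 8 = true := by
    rw [Nat.beq_eq, ← card_eq_pcF]; exact hbo.2
  have h2 : Nat.beq (Nat.land (mask b) 0x149f) 0 = true := by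
    rw [Nat.beq_eq]
    have : Nat.land (mask b) 0x149f = mask (b ∩ O0) := by
      rw [mask_inter, O0, mask_unmask (by norm_num)]; rfl
    rw [this, Finset.inter_comm, Finset.disjoint_iff_inter_eq_empty.1 hd]
    exact mask_empty
  rw [h1, h2] at h
  simp only [Bool.and_self, Bool.not_true, Bool.false_or, List.all_eq_true, List.mem_range] at h
  have h3 := h q hq24
  rw [hq, force_eq, ← mask_wperm_smul] at h3
  simp only [Bool.not_true, Bool.false_or, Bool.or_eq_true, Nat.beq_eq] at h3
  rcases h3 with h3 | h3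
  · exact Or.inl (mask_injective h3)
  · right
    apply mask_injective
    rw [h3, mask_third_O0 hd]

theorem cert16 : [(0xc75001, 0x8ea003, 0), (0x49f002, 0x8ea003, 1), (0xd4b004, 0x13e005, 2),
    (0x6e3008, 0xa96009, 3), (0x9b3010, 0x5c6011, 4), (0x1ed080, 0xd98081, 7),
    (0xb1d400, 0x768401, 10), (0xc75001, 0xc75001, 12)].foldl certStep 0xFFEB60 = 0xFFFFFF := by
  decide +kernel

/-- an element of the group fixing the sixteen points off the standard octad is trivial. -/
theorem eq_one_of_fix16 {g : Equiv.Perm GolayPt} (hg : g ∈ M24) (h0 : FixM g 0xFFEB60) : g = 1 := by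
  have h1 := runCert_sound hg [(0xc75001, 0x8ea003, 0), (0x49f002, 0x8ea003, 1),
    (0xd4b004, 0x13e005, 2), (0x6e3008, 0xa96009, 3), (0x9b3010, 0x5c6011, 4),
    (0x1ed080, 0xd98081, 7), (0xb1d400, 0x768401, 10), (0xc75001, 0xc75001, 12)] _ h0
  rw [cert16] at h1
  ext p
  have h7 : (0xFFFFFF : ℕ).testBit (idx p) = true := by
    have : (0xFFFFFF : ℕ) = 2 ^ 24 - 1 := by norm_num
    rw [this, Nat.testBit_two_pow_sub_one]; simpa using idx_lt p
  rw [h1 p h7]; rfl

theorem sep16 : ∀ i < 24, ∀ j < 24, (0xFFEB60 : ℕ).testBit i = true →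
    (0xFFEB60 : ℕ).testBit j = true →
    (∀ b ∈ [0xb66020, 0x5aa060, 0x8bc120, 0xcd2220], Nat.testBit b i = Nat.testBit b j) →
    i = j := by decide

theorem L4_spec : ∀ b ∈ [0xb66020, 0x5aa060, 0x8bc120, 0xcd2220],
    isOct b = true ∧ Nat.land 0x149f b = 0 ∧ Nat.testBit b 5 = true := by decide +kernel

/-- the kernel of the action on the trios through the standard octad. -/
theorem fix_trios_imp {g : Equiv.Perm GolayPt} (hg : g ∈ M24) (hO : g • O0 = O0)
    (h : ∀ T ∈ trios, O0 ∈ T → g • T = T) : ∀ p ∈ O0, g p = p := by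
  have hb6 : bpt 6 ∉ O0 := by
    rw [O0, mem_unmask, idx_bpt]; decide
  have hq : (allow 6).testBit (idx (g (bpt 6))) = true := by
    have h1 : g (bpt 6) ∉ O0 := fun hc => hb6 ((apply_mem_of_smul_eq hO).1 hc)
    rw [O0, mem_unmask] at h1
    have : ∀ i < 24, ¬ (0x149f : ℕ).testBit i = true → (allow 6).testBit i = true := by decide
    exact this _ (idx_lt _) h1
  obtain ⟨u, huH, hu1, hu2⟩ := level_spec 6 (by norm_num) (g (bpt 6)) hq
  have huM : u ∈ M24 := H_le huH
  have huK : u ∈ K 6 := (mem_K 6 u).2 ⟨huM, hu1⟩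
  have huO : u • O0 = O0 := by
    apply Finset.eq_of_subset_of_card_le
    · intro p hp
      obtain ⟨p', hp', rfl⟩ := Finset.mem_smul_finset.1 hp
      have := (K6_elem huK).2 p' hp'
      rw [Equiv.Perm.smul_def, this]
      exact hp'
    · rw [Finset.card_smul_finset]
  set k := u * g with hk
  have hkM : k ∈ M24 := M24.mul_mem huM hg
  have hkO : k • O0 = O0 := by rw [hk, mul_smul, hO, huO]
  have hkT : ∀ T ∈ trios, O0 ∈ T → k • T = T := by
    intro T hT hOT
    rw [hk, mul_smul, h T hT hOT, K6_fix_trio huK hT hOT]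
  have hk6 : k (bpt 6) = bpt 6 := hu2
  have hkb : ∀ b ∈ [0xb66020, 0x5aa060, 0x8bc120, 0xcd2220], k • unmask b = unmask b := by
    intro b hb
    obtain ⟨h1, h2, h3⟩ := L4_spec b hb
    obtain ⟨hbo, hlt⟩ := unmask_mem_octads h1
    have hd : Disjoint O0 (unmask b) := by
      rw [Finset.disjoint_iff_inter_eq_empty]
      apply mask_injective
      rw [mask_inter, O0, mask_unmask (by norm_num), mask_unmask hlt]
      exact h2.trans mask_empty.symm
    have h6 : bpt 6 ∈ unmask b := by
      rw [mem_unmask, idx_bpt]; exact h3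
    have h4 := hkT _ (trioOf_mem O0_mem hbo hd) (by simp [trioOf])
    rw [smul_trioOf, hkO, trioOf_eq_iff O0_mem hbo hd (smul_mem_octads hkM hbo) (by
      rw [← hkO, Finset.disjoint_iff_inter_eq_empty, ← Finset.smul_finset_inter,
        Finset.disjoint_iff_inter_eq_empty.1 hd, Finset.smul_finset_empty])] at h4
    rcases h4 with h4 | h4
    · exact h4
    · exfalso
      have h5 : k (bpt 6) ∈ k • unmask b := Finset.smul_mem_smul_finset h6
      rw [hk6, h4, Finset.mem_compl, Finset.mem_union] at h5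
      exact h5 (Or.inr h6)
  have hk1 : k = 1 := by
    apply eq_one_of_fix16 hkM
    intro p hp
    apply idx_injective
    apply sep16 _ (idx_lt _) _ (idx_lt _) _ hp
    · intro b hb
      have h1 := apply_mem_of_smul_eq (hkb b hb) (p := p)
      rw [mem_unmask, mem_unmask] at h1
      exact Bool.eq_iff_iff.2 h1
    · have h1 : p ∉ O0 := by
        rw [O0, mem_unmask]
        have : ∀ i < 24, (0xFFEB60 : ℕ).testBit i = true → ¬ (0x149f : ℕ).testBit i = true := by
          decide
        exact this _ (idx_lt _) hp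
      have h2 : k p ∉ O0 := fun hc => h1 ((apply_mem_of_smul_eq hkO).1 hc)
      rw [O0, mem_unmask] at h2
      have : ∀ i < 24, ¬ (0x149f : ℕ).testBit i = true → (0xFFEB60 : ℕ).testBit i = true := by
        decide
      exact this _ (idx_lt _) h2
  have hgu : g = u⁻¹ := (inv_eq_of_mul_eq_one_right hk1).symm
  intro p hp
  rw [hgu, Equiv.Perm.inv_eq_iff_eq, (K6_elem huK).2 p hp]

theorem chk28 : allRange (fun c => force (encF c) fun x =>
    !(Nat.beq (pcF x) 8 && Nat.beq (Nat.land 0x149f x) 0) || Nat.beq x 0xb66020 ||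
      Nat.beq x 0x498b40 || Nat.beq (pcF (Nat.land 0xb66020 x)) 4) 12 0 = true := by decide +kernel

theorem smul_disjoint {g : Equiv.Perm GolayPt} {a b : Finset GolayPt} (h : Disjoint a b) :
    Disjoint (g • a) (g • b) := by
  rw [Finset.disjoint_iff_inter_eq_empty, ← Finset.smul_finset_inter,
    Finset.disjoint_iff_inter_eq_empty.1 h, Finset.smul_finset_empty]

/-- two distinct trios through the standard octad can be moved to standard position. -/
theorem trio_pair_to_std {T₁ T₂ : Finset (Finset GolayPt)} (h₁ : T₁ ∈ trios) (h₂ : T₂ ∈ trios)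
    (hO₁ : O0 ∈ T₁) (hO₂ : O0 ∈ T₂) (hne : T₁ ≠ T₂) :
    ∃ σ ∈ M24, σ • O0 = O0 ∧ σ • T₁ = T0 ∧ σ • T₂ = trioOf O0 (unmask 0xf6840) := by
  obtain ⟨b₁, hb₁, hn₁⟩ := exists_two_of_trio h₁ hO₁
  obtain ⟨b₂, hb₂, hn₂⟩ := exists_two_of_trio h₂ hO₂
  have ho₁ := h₁.2.1 b₁ hb₁
  have ho₂ := h₂.2.1 b₂ hb₂
  have hd₁ : Disjoint O0 b₁ := h₁.2.2 O0 hO₁ b₁ hb₁ hn₁
  have hd₂ : Disjoint O0 b₂ := h₂.2.2 O0 hO₂ b₂ hb₂ hn₂
  obtain ⟨σ, hσ, hs⟩ := octad_to_rep ho₁
  rw [Finset.disjoint_iff_inter_eq_empty.1 hd₁, Finset.card_empty] at hs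
  obtain ⟨hσM, hσO⟩ := StabM_one hσ
  have hσO' : σ • O0 = O0 := hσO
  have hs' : σ • b₁ = unmask 0xb66020 := by
    apply mask_injective; rw [hs, mask_unmask (by norm_num)]; rfl
  have e₁ : σ • T₁ = T0 := by
    rw [eq_trioOf h₁ hO₁ hb₁ hn₁, smul_trioOf, hσO', hs', T0]
  set c := σ • b₂ with hc
  have hco : c ∈ octads := smul_mem_octads hσM ho₂
  have hcd : Disjoint O0 c := by
    have := smul_disjoint (g := σ) hd₂
    rwa [hσO'] at this
  have e₂ : σ • T₂ = trioOf O0 c := by
    rw [eq_trioOf h₂ hO₂ hb₂ hn₂, smul_trioOf, hσO']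
  have hne' : trioOf O0 c ≠ T0 := by
    rw [← e₁, ← e₂]
    intro h
    exact hne (MulAction.injective σ h).symm
  rw [T0, Ne, trioOf_eq_iff O0_mem O1_mem O0_disj_O1 hco hcd, not_or] at hne'
  have h4 : (unmask 0xb66020 ∩ c).card = 4 := by
    have h := forall_codeF (fun x => !(Nat.beq (pcF x) 8 && Nat.beq (Nat.land 0x149f x) 0) ||
      Nat.beq x 0xb66020 || Nat.beq x 0x498b40 || Nat.beq (pcF (Nat.land 0xb66020 x)) 4) chk28 c
      hco.1
    have h1 : Nat.beq (pcF (mask c)) 8 = true := by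
      rw [Nat.beq_eq, ← card_eq_pcF]; exact hco.2
    have h2 : Nat.beq (Nat.land 0x149f (mask c)) 0 = true := by
      rw [Nat.beq_eq, land_mask _ (by norm_num)]
      have : unmask 0x149f ∩ c = ∅ := Finset.disjoint_iff_inter_eq_empty.1 hcd
      rw [this]; exact mask_empty
    rw [h1, h2] at h
    simp only [Bool.and_self, Bool.not_true, Bool.false_or, Bool.or_eq_true, Nat.beq_eq] at h
    rcases h with (h | h) | h
    · exfalso; apply hne'.1; apply mask_injective; rw [h, mask_unmask (by norm_num)]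
    · exfalso; apply hne'.2; apply mask_injective
      rw [h, mask_third_O0 O0_disj_O1, mask_unmask (by norm_num)]; rfl
    · rw [land_mask _ (by norm_num), ← card_eq_pcF] at h
      exact h
  obtain ⟨τ, hτ, ht⟩ := toRep gensTT2 orbTT2 (by decide) (by norm_num) hco.1 (by
    intro x hx
    simp only [List.mem_cons, List.not_mem_nil, or_false] at hx
    rcases hx with rfl | rfl
    · show (unmask 0xffffff ∩ c).card = 8
      rw [card_full_inter]; exact hco.2
    · show (unmask 0x149f ∩ c).card = 0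
      have : unmask 0x149f ∩ c = ∅ := Finset.disjoint_iff_inter_eq_empty.1 hcd
      rw [this]; rfl)
  rw [h4] at ht
  have hτO : τ • O0 = O0 := hτ.2 0x149f (by simp)
  have hτ1 : τ • unmask 0xb66020 = unmask 0xb66020 := hτ.2 0xb66020 (by simp)
  refine ⟨τ * σ, M24.mul_mem hτ.1 hσM, ?_, ?_, ?_⟩
  · rw [mul_smul, hσO', hτO]
  · rw [mul_smul, e₁, T0, smul_trioOf, hτO, hτ1]
  · rw [mul_smul, e₂, smul_trioOf, hτO]
    congr 1
    apply mask_injective; rw [ht, mask_unmask (by norm_num)]; rfl

end Cfsg.Agent.Lib.Helper3
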